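import Mathlib
import Cfsg.Agent.Lib.Cores
import Cfsg.Agent.Lib.PConB

set_option autoImplicit false

/-! `p`-length: chains, sections and extensions. -/

namespace Cfsg.Agent.H2.PLen

open Subgroup Cfsg.Agent.Lib Cfsg.Agent.Lib.Basic Cfsg.Agent.Lib.Cores

universe u v
variable {G : Type u} [Group G]

/-- a chain of normal subgroups whose steps are alternately `p'`- and `p`-groups -/
structure Ch (p : ℕ) (K : ℕ → Subgroup G) : Prop where
  zero : K 0 = ⊥
  normal : ∀ i, (K i).Normal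
  even : ∀ k, ∀ x ∈ K (2 * k + 1), ∃ m : ℕ, m.Coprime p ∧ x ^ m ∈ K (2 * k)
  odd : ∀ k, ∀ x ∈ K (2 * k + 2), ∃ n : ℕ, x ^ (p ^ n) ∈ K (2 * k + 1)

theorem coprime_of_elements [Finite G] {p : ℕ} [hp : Fact p.Prime] (N : Subgroup G)
    (h : ∀ x ∈ N, ∃ m : ℕ, m.Coprime p ∧ x ^ m = 1) : (Nat.card N).Coprime p := by
  rw [Nat.coprime_comm, Nat.Prime.coprime_iff_not_dvd hp.out]
  intro hd
  obtain ⟨x, hx⟩ := exists_prime_orderOf_dvd_card' p hd
  obtain ⟨m, hm, hxm⟩ := h x x.2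
  have h1 : orderOf x ∣ m := orderOf_dvd_of_pow_eq_one (Subtype.ext hxm)
  rw [hx] at h1
  exact hp.out.one_lt.ne' (Nat.eq_one_of_dvd_coprimes (hm.symm) dvd_rfl h1)

theorem ups_ch [Finite G] (p : ℕ) [hp : Fact p.Prime] : Ch p (fun n => (Cfsg.upperPSeries p G n).1) := by
  refine ⟨rfl, fun i => (Cfsg.upperPSeries p G i).2, ?_, ?_⟩
  · intro k x hx
    skip
    rw [PConB.ups_odd, mem_comap] at hx
    refine ⟨_, pPrimeCore_coprime (G := G ⧸ (Cfsg.upperPSeries p G (2 * k)).1) p, ?_⟩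
    have h1 : (QuotientGroup.mk' (Cfsg.upperPSeries p G (2 * k)).1 x) ^ Nat.card (Cfsg.pPrimeCore p (G ⧸ (Cfsg.upperPSeries p G (2 * k)).1)) = 1 :=
      orderOf_dvd_iff_pow_eq_one.mp (Subgroup.orderOf_dvd_natCard _ hx)
    rw [← map_pow] at h1
    exact (QuotientGroup.eq_one_iff _).mp h1
  · intro k x hx
    skip
    rw [PConB.ups_even, mem_comap] at hx
    obtain ⟨n, hn⟩ := pCore_isPGroup (G := G ⧸ (Cfsg.upperPSeries p G (2 * k + 1)).1) p ⟨_, hx⟩
    refine ⟨n, ?_⟩
    have h1 : (QuotientGroup.mk' (Cfsg.upperPSeries p G (2 * k + 1)).1 x) ^ p ^ n = 1 := congrArg Subtype.val hn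
    rw [← map_pow] at h1
    exact (QuotientGroup.eq_one_iff _).mp h1

theorem le_ups [Finite G] {p : ℕ} [hp : Fact p.Prime] {K : ℕ → Subgroup G} (h : Ch p K) (n : ℕ) :
    K n ≤ (Cfsg.upperPSeries p G n).1 := by
  induction n with
  | zero => rw [h.zero]; exact bot_le
  | succ n ih =>
    haveI := h.normal (n + 1)
    rcases Nat.even_or_odd' n with ⟨k, rfl | rfl⟩
    · rw [PConB.ups_odd, ← map_le_iff_le_comap]
      apply le_pPrimeCore ((h.normal _).map _ (QuotientGroup.mk'_surjective _))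
      apply coprime_of_elements
      rintro _ ⟨x, hx, rfl⟩
      obtain ⟨m, hm, hxm⟩ := h.even k x hx
      refine ⟨m, hm, ?_⟩
      rw [← map_pow]
      exact (QuotientGroup.eq_one_iff _).mpr (ih hxm)
    · rw [show 2 * k + 1 + 1 = 2 * k + 2 by ring, PConB.ups_even, ← map_le_iff_le_comap]
      apply le_pCore ((h.normal _).map _ (QuotientGroup.mk'_surjective _))
      rintro ⟨_, ⟨x, hx, rfl⟩⟩
      obtain ⟨m, hxm⟩ := h.odd k x hx
      refine ⟨m, Subtype.ext ?_⟩
      change (QuotientGroup.mk' (Cfsg.upperPSeries p G (2 * k + 1)).1 x) ^ p ^ m = 1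
      rw [← map_pow]
      exact (QuotientGroup.eq_one_iff _).mpr (ih hxm)

theorem pLengthLE_iff [Finite G] {p k : ℕ} [hp : Fact p.Prime] :
    Cfsg.PLengthLE p k G ↔ ∃ K : ℕ → Subgroup G, Ch p K ∧ K (2 * k + 1) = ⊤ := by
  constructor
  · intro h
    exact ⟨_, ups_ch p, h⟩
  · rintro ⟨K, hK, ht⟩
    exact top_le_iff.mp (ht ▸ le_ups hK (2 * k + 1))

theorem ups_characteristic [Finite G] {p : ℕ} [hp : Fact p.Prime] (n : ℕ) : ((Cfsg.upperPSeries p G n).1).Characteristic := by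
  rw [characteristic_iff_map_le]
  intro φ
  have hch := ups_ch (G := G) p
  apply le_ups (K := fun n => ((Cfsg.upperPSeries p G n).1).map φ.toMonoidHom) ⟨?_, ?_, ?_, ?_⟩ n
  · skip
    have := hch.zero
    skip
    rw [this, Subgroup.map_bot]
  · intro i
    exact (hch.normal i).map _ φ.surjective
  · rintro k _ ⟨x, hx, rfl⟩
    obtain ⟨m, hm, hxm⟩ := hch.even k x hx
    exact ⟨m, hm, x ^ m, hxm, map_pow _ _ _⟩
  · rintro k _ ⟨x, hx, rfl⟩
    obtain ⟨m, hxm⟩ := hch.odd k x hx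
    exact ⟨m, x ^ p ^ m, hxm, map_pow _ _ _⟩

theorem of_injective [Finite G] {H : Type v} [Group H] {p k : ℕ} [hp : Fact p.Prime] (h : Cfsg.PLengthLE p k G)
    (f : H →* G) (hf : Function.Injective f) : Cfsg.PLengthLE p k H := by
  haveI : Finite H := Finite.of_injective f hf
  obtain ⟨K, hK, ht⟩ := pLengthLE_iff.mp h
  refine pLengthLE_iff.mpr ⟨fun n => (K n).comap f, ⟨?_, ?_, ?_, ?_⟩, ?_⟩
  · skip
    rw [hK.zero]
    exact (MonoidHom.ker_eq_bot_iff f).mpr hf
  · intro i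
    exact (hK.normal i).comap f
  · intro k x hx
    obtain ⟨m, hm, hxm⟩ := hK.even k (f x) hx
    exact ⟨m, hm, by rw [mem_comap, map_pow]; exact hxm⟩
  · intro k x hx
    obtain ⟨m, hxm⟩ := hK.odd k (f x) hx
    exact ⟨m, by rw [mem_comap, map_pow]; exact hxm⟩
  · simp only
    rw [ht, comap_top]

theorem subgroup [Finite G] {p k : ℕ} [hp : Fact p.Prime] (h : Cfsg.PLengthLE p k G) (H : Subgroup G) : Cfsg.PLengthLE p k H :=
  of_injective h H.subtype H.subtype_injective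

theorem of_surjective [Finite G] {H : Type v} [Group H] {p k : ℕ} [hp : Fact p.Prime] (h : Cfsg.PLengthLE p k G)
    (f : G →* H) (hf : Function.Surjective f) : Cfsg.PLengthLE p k H := by
  haveI : Finite H := Finite.of_surjective f hf
  obtain ⟨K, hK, ht⟩ := pLengthLE_iff.mp h
  refine pLengthLE_iff.mpr ⟨fun n => (K n).map f, ⟨?_, ?_, ?_, ?_⟩, ?_⟩
  · skip
    rw [hK.zero, Subgroup.map_bot]
  · intro i
    exact (hK.normal i).map f hf
  · rintro k _ ⟨x, hx, rfl⟩
    obtain ⟨m, hm, hxm⟩ := hK.even k x hx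
    exact ⟨m, hm, x ^ m, hxm, map_pow _ _ _⟩
  · rintro k _ ⟨x, hx, rfl⟩
    obtain ⟨m, hxm⟩ := hK.odd k x hx
    exact ⟨m, x ^ p ^ m, hxm, map_pow _ _ _⟩
  · simp only
    rw [ht]
    exact map_top_of_surjective f hf

theorem quotient [Finite G] {p k : ℕ} [hp : Fact p.Prime] (h : Cfsg.PLengthLE p k G) (N : Subgroup G) [N.Normal] :
    Cfsg.PLengthLE p k (G ⧸ N) :=
  of_surjective h (QuotientGroup.mk' N) (QuotientGroup.mk'_surjective N)

theorem ext [Finite G] {p a b : ℕ} [hp : Fact p.Prime] (N : Subgroup G) [N.Normal] (ha : Cfsg.PLengthLE p a N)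
    (hb : Cfsg.PLengthLE p b (G ⧸ N)) : Cfsg.PLengthLE p (a + b) G := by
  have hN := ups_ch (G := N) p
  have hQ := ups_ch (G := G ⧸ N) p
  refine pLengthLE_iff.mpr ⟨fun n => if n ≤ 2 * a then ((Cfsg.upperPSeries p N n).1).map N.subtype else
    ((Cfsg.upperPSeries p (G ⧸ N) (n - 2 * a)).1).comap (QuotientGroup.mk' N), ⟨?_, ?_, ?_, ?_⟩, ?_⟩
  · simp only [Nat.zero_le, if_true]
    have := hN.zero
    skip
    rw [this, Subgroup.map_bot]
  · intro i
    by_cases hi : i ≤ 2 * a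
    · simp only [hi, if_true]
      haveI := ups_characteristic (G := N) (p := p) i
      exact ConjAct.normal_of_characteristic_of_normal
    · simp only [hi, if_false]
      exact (hQ.normal _).comap _
  · intro k x hx
    by_cases h1 : 2 * k + 1 ≤ 2 * a
    · simp only [h1, if_true] at hx
      simp only [show 2 * k ≤ 2 * a by omega, if_true]
      obtain ⟨y, hy, rfl⟩ := hx
      obtain ⟨m, hm, hym⟩ := hN.even k y hy
      exact ⟨m, hm, y ^ m, hym, map_pow _ _ _⟩
    · simp only [h1, if_false] at hx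
      rw [show 2 * k + 1 - 2 * a = 2 * (k - a) + 1 by omega] at hx
      obtain ⟨m, hm, hxm⟩ := hQ.even (k - a) _ hx
      by_cases hka : k = a
      · subst hka
        simp only [le_refl, if_true]
        rw [Nat.sub_self, Nat.mul_zero] at hxm
        have h2 : (QuotientGroup.mk' N) (x ^ m) = 1 := by
          rw [map_pow]
          have := hQ.zero
          skip
          rw [this] at hxm
          exact mem_bot.mp hxm
        have h3 : x ^ m ∈ N := (QuotientGroup.eq_one_iff _).mp h2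
        have h4 : (⟨x ^ m, h3⟩ : N) ∈ (Cfsg.upperPSeries p N (2 * k + 1)).1 := by
          unfold Cfsg.PLengthLE at ha
          rw [ha]; exact mem_top _
        obtain ⟨m', hm', hxm'⟩ := hN.even k _ h4
        refine ⟨m * m', hm.mul_left hm', ⟨x ^ m, h3⟩ ^ m', hxm', ?_⟩
        rw [map_pow, pow_mul]
        rfl
      · simp only [show ¬ (2 * k ≤ 2 * a) by omega, if_false]
        refine ⟨m, hm, ?_⟩
        rw [mem_comap, map_pow, show 2 * k - 2 * a = 2 * (k - a) by omega]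
        exact hxm
  · intro k x hx
    by_cases h1 : 2 * k + 2 ≤ 2 * a
    · simp only [h1, if_true] at hx
      simp only [show 2 * k + 1 ≤ 2 * a by omega, if_true]
      obtain ⟨y, hy, rfl⟩ := hx
      obtain ⟨m, hym⟩ := hN.odd k y hy
      exact ⟨m, y ^ p ^ m, hym, map_pow _ _ _⟩
    · simp only [h1, if_false] at hx
      rw [show 2 * k + 2 - 2 * a = 2 * (k - a) + 2 by omega] at hx
      obtain ⟨m, hxm⟩ := hQ.odd (k - a) _ hx
      simp only [show ¬ (2 * k + 1 ≤ 2 * a) by omega, if_false]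
      refine ⟨m, ?_⟩
      rw [mem_comap, map_pow, show 2 * k + 1 - 2 * a = 2 * (k - a) + 1 by omega]
      exact hxm
  · simp only [show ¬ (2 * (a + b) + 1 ≤ 2 * a) by omega, if_false]
    rw [show 2 * (a + b) + 1 - 2 * a = 2 * b + 1 by omega]
    unfold Cfsg.PLengthLE at hb
    rw [hb, comap_top]

theorem mono [Finite G] {p k l : ℕ} [hp : Fact p.Prime] (hkl : k ≤ l) (h : Cfsg.PLengthLE p k G) : Cfsg.PLengthLE p l G := by
  have h1 : ∀ m n, m ≤ n → (Cfsg.upperPSeries p G m).1 ≤ (Cfsg.upperPSeries p G n).1 := by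
    intro m n hmn
    induction hmn with
    | refl => exact le_rfl
    | step _ ih => exact ih.trans (PConB.ups_mono p _)
  exact top_le_iff.mp (h.ge.trans (h1 _ _ (by omega)))

theorem zero_of_coprime [Finite G] {p : ℕ} [hp : Fact p.Prime] (h : (Nat.card G).Coprime p) : Cfsg.PLengthLE p 0 G := by
  refine pLengthLE_iff.mpr ⟨fun n => if n = 0 then ⊥ else ⊤, ⟨by simp, ?_, ?_, ?_⟩, by simp⟩
  · intro i
    by_cases hi : i = 0
    · simp only [hi, if_true]; infer_instance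
    · simp only [hi, if_false]; infer_instance
  · intro k x _
    refine ⟨_, h, ?_⟩
    rw [pow_card_eq_one']
    exact one_mem _
  · intro k x _
    exact ⟨0, by simp⟩

theorem coprime_of_zero [Finite G] {p : ℕ} [hp : Fact p.Prime] (h : Cfsg.PLengthLE p 0 G) : (Nat.card G).Coprime p := by
  rw [← card_top (G := G)]
  apply coprime_of_elements
  intro x _
  have hch := ups_ch (G := G) p
  have h1 : x ∈ (Cfsg.upperPSeries p G (2 * 0 + 1)).1 := by
    unfold Cfsg.PLengthLE at h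
    rw [h]; exact mem_top _
  obtain ⟨m, hm, hxm⟩ := hch.even 0 x h1
  exact ⟨m, hm, mem_bot.mp hxm⟩

theorem one_of_isPGroup [Finite G] {p : ℕ} [hp : Fact p.Prime] (h : IsPGroup p G) : Cfsg.PLengthLE p 1 G := by
  refine pLengthLE_iff.mpr ⟨fun n => if n ≤ 1 then ⊥ else ⊤, ⟨by simp, ?_, ?_, ?_⟩, by simp⟩
  · intro i
    by_cases hi : i ≤ 1
    · simp only [hi, if_true]; infer_instance
    · simp only [hi, if_false]; infer_instance
  · intro k x hx
    refine ⟨1, Nat.coprime_one_left p, ?_⟩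
    rw [pow_one]
    by_cases hk : k = 0
    · subst hk
      simpa using hx
    · simp only [show ¬ (2 * k ≤ 1) by omega, if_false]
      exact mem_top _
  · intro k x _
    obtain ⟨n, hn⟩ := h x
    exact ⟨n, by rw [hn]; exact one_mem _⟩

/-- extension for subgroups -/
theorem ext' [Finite G] {p a b : ℕ} [hp : Fact p.Prime] {A B : Subgroup G} [A.Normal] (hAB : A ≤ B) (ha : Cfsg.PLengthLE p a A)
    (hb : Cfsg.PLengthLE p b (B ⧸ A.subgroupOf B)) : Cfsg.PLengthLE p (a + b) B := by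
  apply ext (A.subgroupOf B) ?_ hb
  exact of_injective ha (subgroupOfEquivOfLe hAB).toMonoidHom (subgroupOfEquivOfLe hAB).injective

theorem shift [Finite G] {p k : ℕ} [hp : Fact p.Prime] (hO : Cfsg.pPrimeCore p G = ⊥) (h : Cfsg.PLengthLE p (k + 1) G)
    [(Cfsg.pCore p G).Normal] : Cfsg.PLengthLE p k (G ⧸ Cfsg.pCore p G) := by
  have hch := ups_ch (G := G) p
  have hU1 : (Cfsg.upperPSeries p G 1).1 = ⊥ := by
    rw [eq_bot_iff, ← hO]
    apply le_pPrimeCore (hch.normal 1)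
    apply coprime_of_elements
    intro x hx
    obtain ⟨m, hm, hxm⟩ := hch.even 0 x hx
    exact ⟨m, hm, mem_bot.mp hxm⟩
  have hU2 : (Cfsg.upperPSeries p G 2).1 ≤ Cfsg.pCore p G := by
    apply le_pCore (hch.normal 2)
    intro x
    obtain ⟨m, hxm⟩ := hch.odd 0 x x.2
    refine ⟨m, Subtype.ext ?_⟩
    simp only [Nat.mul_zero, Nat.zero_add] at hxm
    rw [hU1] at hxm
    exact mem_bot.mp hxm
  refine pLengthLE_iff.mpr ⟨fun n => ((Cfsg.upperPSeries p G (n + 2)).1).map (QuotientGroup.mk' _), ⟨?_, ?_, ?_, ?_⟩, ?_⟩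
  · skip
    rw [Subgroup.map_eq_bot_iff, QuotientGroup.ker_mk']
    exact hU2
  · intro i
    exact (hch.normal _).map _ (QuotientGroup.mk'_surjective _)
  · rintro k _ ⟨x, hx, rfl⟩
    obtain ⟨m, hm, hxm⟩ := hch.even (k + 1) x (by
      skip
      rw [show 2 * (k + 1) + 1 = 2 * k + 1 + 2 by ring]; exact hx)
    refine ⟨m, hm, x ^ m, ?_, map_pow _ _ _⟩
    skip
    rw [show 2 * k + 2 = 2 * (k + 1) by ring]
    exact hxm
  · rintro k _ ⟨x, hx, rfl⟩
    obtain ⟨m, hxm⟩ := hch.odd (k + 1) x (by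
      skip
      rw [show 2 * (k + 1) + 2 = 2 * k + 2 + 2 by ring]; exact hx)
    refine ⟨m, x ^ p ^ m, ?_, map_pow _ _ _⟩
    skip
    rw [show 2 * k + 1 + 2 = 2 * (k + 1) + 1 by ring]
    exact hxm
  · simp only
    have : (Cfsg.upperPSeries p G (2 * k + 1 + 2)).1 = ⊤ := h
    rw [this]
    exact map_top_of_surjective _ (QuotientGroup.mk'_surjective _)

end Cfsg.Agent.H2.PLen
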