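import Cfsg.Agent.H2.AbelSum
import Cfsg.Agent.H2.PLen
import Cfsg.Agent.Lib.HallHigman
import Cfsg.Agent.Lib.Coprime
import Cfsg.Agent.Lib.Nilp
import Cfsg.Agent.Lib.PSol

/-! `p`-soluble groups with abelian Sylow subgroups for all primes other than `p`: exponent of Sylow `p` bounds `p`-length. -/

set_option autoImplicit false
set_option linter.unusedSectionVars false
set_option linter.style.haveILetI false
set_option linter.unusedVariables false

namespace Cfsg.Agent.H2.AbelExp

open Subgroup Cfsg Cfsg.Agent.Lib Cfsg.Agent.Lib.Basic Cfsg.Agent.Lib.Cores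
open scoped commutatorElement

universe u

section
variable {G : Type u} [Group G]
theorem centralizer_pPrimeCore_le [Finite G] {p : ℕ} [hp : Fact p.Prime] (hsol : Cfsg.IsPSolvable p G)
    (hO : Cfsg.pCore p G = ⊥) : centralizer (Cfsg.pPrimeCore p G : Set G) ≤ Cfsg.pPrimeCore p G := by
  set N := Cfsg.pPrimeCore p G with hN
  haveI hNn : N.Normal := Cores.pPrimeCore_normal p
  set C := centralizer (N : Set G) with hC
  haveI hCn : C.Normal := by rw [hC]; infer_instance
  set Z := C ⊓ N with hZ
  haveI hZn : Z.Normal := inferInstance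
  by_contra hcon
  let π := QuotientGroup.mk' Z
  have hπ : Function.Surjective π := QuotientGroup.mk'_surjective Z
  have hker : π.ker = Z := QuotientGroup.ker_mk' Z
  set Cb := C.map π with hCb
  haveI hCbn : Cb.Normal := hCn.map _ hπ
  have hCb0 : Cb ≠ ⊥ := by
    intro h
    rw [hCb, Subgroup.map_eq_bot_iff, hker] at h
    exact hcon (h.trans inf_le_right)
  haveI : Nontrivial Cb := (Subgroup.nontrivial_iff_ne_bot _).mpr hCb0
  have hsolb : Cfsg.IsPSolvable p Cb := PSol.subgroup (PSol.quotient hsol Z) Cb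
  have hZc : (Nat.card Z).Coprime p := Nat.Coprime.coprime_dvd_left (card_dvd_of_le inf_le_right) (Cores.pPrimeCore_coprime p)
  -- a normal subgroup of the quotient inside Cb
  have key : ∀ M : Subgroup (G ⧸ Z), M.Normal → M ≤ Cb → (Nat.card (M.comap π)).Coprime p → M = ⊥ := by
    intro M hM hMC hc
    have h1 : M.comap π ≤ N := le_pPrimeCore (hM.comap π) hc
    have h2 : M.comap π ≤ C := by
      refine (comap_mono hMC).trans ?_
      rw [hCb, comap_map_eq, hker]
      exact sup_le le_rfl inf_le_left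
    have h3 : M.comap π ≤ Z := le_inf h2 h1
    have h4 : M = (M.comap π).map π := (map_comap_eq_self_of_surjective hπ M).symm
    rw [h4, Subgroup.map_eq_bot_iff, hker]
    exact h3
  rcases PSol.core_ne_bot hsolb with h | h
  · -- a `p`-group
    have e : (Cfsg.pCore p Cb).map Cb.subtype = Cfsg.pCore p (G ⧸ Z) ⊓ Cb := Cores.map_pCore_eq_inf Cb
    set M := Cfsg.pCore p (G ⧸ Z) ⊓ Cb with hM
    have hMn : M.Normal := by
      haveI := Cores.pCore_normal (G := G ⧸ Z) p
      infer_instance
    have hMp : IsPGroup p M := (Cores.pCore_isPGroup (G := G ⧸ Z) p).to_le inf_le_left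
    apply h
    rw [← Subgroup.map_eq_bot_iff_of_injective _ Cb.subtype_injective, e]
    refine key M hMn inf_le_right ?_
    set L := M.comap π with hL
    haveI hLn : L.Normal := hMn.comap π
    have hLC : L ≤ C := by
      refine (comap_mono (inf_le_right : M ≤ Cb)).trans ?_
      rw [hCb, comap_map_eq, hker]
      exact sup_le le_rfl inf_le_left
    -- L is nilpotent
    have hnil : Group.IsNilpotent L := by
      let f : L →* M := (π.comp L.subtype).codRestrict M (fun x => x.2)
      haveI : Group.IsNilpotent M := hMp.isNilpotent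
      refine Subgroup.isNilpotent_of_ker_le_center f ?_
      intro x hx
      have hx' : π (x : G) = 1 := congrArg Subtype.val (MonoidHom.mem_ker.mp hx)
      have hxZ : (x : G) ∈ Z := by rw [← hker]; exact MonoidHom.mem_ker.mpr hx'
      rw [mem_center_iff]
      intro y
      apply Subtype.ext
      exact (mem_centralizer_iff.mp (hLC y.2) x (mem_inf.mp hxZ).2).symm
    -- its Sylow `p`-subgroup is trivial
    have hLp : Cfsg.pCore p L = ⊥ := by
      have h1 := Cores.map_pCore_le (p := p) L
      rw [hO, le_bot_iff] at h1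
      exact (Subgroup.map_eq_bot_iff_of_injective _ L.subtype_injective).mp h1
    obtain ⟨P⟩ : Nonempty (Sylow p L) := inferInstance
    have hPn : (P : Subgroup L).Normal := by
      have := (Group.isNilpotent_of_finite_tfae (G := L)).out 0 3
      exact (this.mp hnil) p hp P
    have hPb : (P : Subgroup L) = ⊥ := by
      rw [eq_bot_iff, ← hLp]
      exact Cores.le_pCore hPn P.2
    have h2 := P.not_dvd_index
    rw [hPb, index_bot] at h2
    exact ((Nat.Prime.coprime_iff_not_dvd hp.out).mpr h2).symm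
  · -- a `p'`-group
    have e : (Cfsg.pPrimeCore p Cb).map Cb.subtype = Cfsg.pPrimeCore p (G ⧸ Z) ⊓ Cb := Cores.map_pPrimeCore_eq_inf Cb
    set M := Cfsg.pPrimeCore p (G ⧸ Z) ⊓ Cb with hM
    have hMn : M.Normal := by
      haveI := Cores.pPrimeCore_normal (G := G ⧸ Z) p
      infer_instance
    apply h
    rw [← Subgroup.map_eq_bot_iff_of_injective _ Cb.subtype_injective, e]
    refine key M hMn inf_le_right ?_
    rw [card_comap_eq π hπ, hker]
    exact Nat.Coprime.mul_left hZc (Nat.Coprime.coprime_dvd_left (card_dvd_of_le inf_le_left) (Cores.pPrimeCore_coprime p))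

end

section
variable {X : Type u} [Group X] [Finite X] {p : ℕ} [hp : Fact p.Prime]

theorem sylow_map {Y : Type u} [Group Y] (f : X →* Y) (hf : Function.Surjective f)
    (hab : ∀ (q : ℕ) [Fact q.Prime], q ≠ p → ∀ Q : Sylow q X, IsMulCommutative (Q : Subgroup X)) :
    ∀ (q : ℕ) [Fact q.Prime], q ≠ p → ∀ Q : Sylow q Y, IsMulCommutative (Q : Subgroup Y) := by
  intro q hq hne Q
  obtain ⟨P, rfl⟩ := Sylow.mapSurjective_surjective hf q Q
  have h1 := hab q hne P
  rw [Sylow.coe_mapSurjective]
  refine ⟨⟨?_⟩⟩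
  rintro ⟨_, x, hx, rfl⟩ ⟨_, y, hy, rfl⟩
  apply Subtype.ext
  show f x * f y = f y * f x
  rw [← map_mul, ← map_mul]
  congr 1
  exact congrArg Subtype.val (h1.is_comm.comm (⟨x, hx⟩ : P.1) ⟨y, hy⟩)

theorem exp_map {Y : Type u} [Group Y] (f : X →* Y) (hf : Function.Surjective f) {n : ℕ}
    (hexp : ∀ x : X, (∃ k, x ^ p ^ k = 1) → x ^ p ^ n = 1) : ∀ x : Y, (∃ k, x ^ p ^ k = 1) → x ^ p ^ n = 1 := by
  rintro y ⟨k, hk⟩
  haveI : Finite Y := Finite.of_surjective f hf
  have h1 : IsPGroup p (Subgroup.zpowers y) := by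
    apply IsPGroup.of_card (n := Nat.log p (Nat.card (Subgroup.zpowers y)))
    obtain ⟨j, -, hj⟩ := (Nat.dvd_prime_pow hp.out).1 (_root_.orderOf_dvd_of_pow_eq_one hk)
    rw [Nat.card_zpowers, hj, Nat.log_pow hp.out.one_lt]
  obtain ⟨Q, hQ⟩ := h1.exists_le_sylow
  obtain ⟨P, rfl⟩ := Sylow.mapSurjective_surjective hf p Q
  obtain ⟨x, hx, hxy⟩ := hQ (Subgroup.mem_zpowers y)
  rw [← hxy, ← map_pow, hexp x, map_one]
  obtain ⟨k, hk⟩ := P.2 ⟨x, hx⟩
  exact ⟨k, congrArg Subtype.val hk⟩

theorem isPGroup_zpowers {x : X} (h : ∃ k, x ^ p ^ k = 1) : IsPGroup p (Subgroup.zpowers x) := by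
  obtain ⟨k, hk⟩ := h
  obtain ⟨j, -, hj⟩ := (Nat.dvd_prime_pow hp.out).1 (_root_.orderOf_dvd_of_pow_eq_one hk)
  exact IsPGroup.of_card (n := j) (by rw [Nat.card_zpowers, hj])

theorem step (hX : Cfsg.IsPSolvable p X) (hO : Cfsg.pPrimeCore p X = ⊥)
    (hab : ∀ (q : ℕ) [Fact q.Prime], q ≠ p → ∀ Q : Sylow q X, IsMulCommutative (Q : Subgroup X)) {n : ℕ} (hn : n ≠ 0)
    (hexp : ∀ x : X, (∃ k, x ^ p ^ k = 1) → x ^ p ^ n = 1) (x : X) (hx : ∃ k, x ^ p ^ k = 1) :
    x ^ p ^ (n - 1) ∈ Cfsg.pCore p X := by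
  classical
  set P := Cfsg.pCore p X with hPdef
  haveI hPn : P.Normal := Cores.pCore_normal p
  have hPp : IsPGroup p P := Cores.pCore_isPGroup p
  have hHH : centralizer (P : Set X) ≤ P := HallHigman.centralizer_pCore_le p hX hO
  set Φ : Subgroup X := (frattini P).map P.subtype with hΦ
  haveI hΦn : Φ.Normal := inferInstance
  have hΦP : Φ ≤ P := map_subtype_le _
  set π := QuotientGroup.mk' Φ with hπ
  have hπs : Function.Surjective π := QuotientGroup.mk'_surjective Φ
  set U := P.map π with hU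
  haveI hUn : U.Normal := hPn.map _ hπs
  have hUab : ∀ x ∈ U, ∀ y ∈ U, x * y = y * x := by
    rintro _ ⟨x, hx, rfl⟩ _ ⟨y, hy, rfl⟩
    have h1 : ⁅(⟨x, hx⟩ : P), ⟨y, hy⟩⁆ ∈ frattini P :=
      Nilp.commutator_le_frattini hPp (Subgroup.commutator_mem_commutator (Subgroup.mem_top _) (Subgroup.mem_top _))
    have h2 : ⁅x, y⁆ ∈ Φ := ⟨_, h1, rfl⟩
    have h3 : π ⁅x, y⁆ = 1 := (QuotientGroup.eq_one_iff _).2 h2
    rwa [map_commutatorElement, commutatorElement_eq_one_iff_mul_comm] at h3
  have hUp : ∀ x ∈ U, x ^ p = 1 := by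
    rintro _ ⟨x, hx, rfl⟩
    have h1 : (⟨x, hx⟩ : P) ^ p ∈ frattini P := Nilp.pow_mem_frattini hPp _
    have h2 : x ^ p ∈ Φ := ⟨_, h1, rfl⟩
    rw [← map_pow]
    exact (QuotientGroup.eq_one_iff _).2 h2
  have hUC : U ≤ centralizer (U : Set (X ⧸ Φ)) := fun u hu => mem_centralizer_iff.2 fun v hv => hUab v hv u hu
  -- the centralizer
  have hC : (centralizer (U : Set (X ⧸ Φ))).comap π ≤ P := by
    haveI : (centralizer (U : Set (X ⧸ Φ))).Normal := inferInstance
    refine Cores.le_pCore (Normal.comap inferInstance π) ?_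
    rintro ⟨y, hy⟩
    obtain ⟨a, m, hm, hom⟩ := Nat.exists_eq_pow_mul_and_not_dvd (orderOf_pos y).ne' p hp.out.ne_one
    have hz : y ^ p ^ a ∈ centralizer (P : Set X) := by
      have h1 : Subgroup.zpowers (y ^ p ^ a) ≤ centralizer (P : Set X) := by
        apply Coprime.le_centralizer_of_frattini
        · rw [normalizer_eq_top_iff.2 hPn]; exact le_top
        · obtain ⟨c, hc⟩ := IsPGroup.iff_card.1 (hPp.to_subgroup (frattini P))
          rw [hc, Nat.card_zpowers]
          apply Nat.Coprime.pow_right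
          have h2 : orderOf (y ^ p ^ a) ∣ m := _root_.orderOf_dvd_of_pow_eq_one (by rw [← pow_mul, ← hom, pow_orderOf_eq_one])
          exact Nat.Coprime.coprime_dvd_left h2 ((Nat.Prime.coprime_iff_not_dvd hp.out).2 hm).symm
        · intro b hb k hk
          have h2 : b ∈ (centralizer (U : Set (X ⧸ Φ))).comap π := by
            have : Subgroup.zpowers (y ^ p ^ a) ≤ (centralizer (U : Set (X ⧸ Φ))).comap π := by
              rw [Subgroup.zpowers_le]
              exact Subgroup.pow_mem _ hy _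
            exact this hb
          have h3 : π k * π b = π b * π k := mem_centralizer_iff.1 h2 (π k) ⟨k, hk, rfl⟩
          apply (QuotientGroup.eq_one_iff _).1
          show π (b * k * b⁻¹ * k⁻¹) = 1
          rw [map_mul, map_mul, map_mul, ← h3, map_inv, map_inv]
          group
      exact h1 (Subgroup.mem_zpowers _)
    obtain ⟨c, hc⟩ := hPp ⟨_, hHH hz⟩
    refine ⟨a + c, Subtype.ext ?_⟩
    show y ^ p ^ (a + c) = 1
    have h2 : (y ^ p ^ a) ^ p ^ c = 1 := congrArg Subtype.val hc
    rw [pow_add, pow_mul]; exact h2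
  -- the quotient
  set Y := X ⧸ P with hY
  set σ := QuotientGroup.mk' P with hσ
  have hσs : Function.Surjective σ := QuotientGroup.mk'_surjective P
  have hYs : Cfsg.IsPSolvable p Y := PSol.quotient hX P
  have hYO : Cfsg.pCore p Y = ⊥ := Cores.pCore_quotient_pCore p
  have hYab := sylow_map (Y := Y) σ hσs hab
  set K := Cfsg.pPrimeCore p Y with hK
  haveI hKn : K.Normal := Cores.pPrimeCore_normal p
  have hKc : (Nat.card K).Coprime p := Cores.pPrimeCore_coprime p
  set b := x ^ p ^ (n - 1) with hb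
  have hkey : centralizer ({σ b} : Set Y) ⊓ K = K := by
    have h0 : (centralizer ({σ b} : Set Y)).subgroupOf K = ⊤ := by
      apply Cores.eq_top_of_sylow_le
      intro q hq
      haveI : Fact q.Prime := ⟨hq⟩
      by_cases hqp : q = p
      · subst hqp
        obtain ⟨Q⟩ : Nonempty (Sylow q K) := inferInstance
        refine ⟨Q, ?_⟩
        have h1 : (Q : Subgroup K) = ⊥ := by
          rw [← Subgroup.card_eq_one]
          obtain ⟨c, hc⟩ := IsPGroup.iff_card.1 Q.2
          have h2 : Nat.card Q ∣ Nat.card K := Subgroup.card_subgroup_dvd_card _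
          exact Nat.eq_one_of_dvd_coprimes (hKc.pow_right c) h2 (by rw [← hc])
        rw [h1]; exact bot_le
      · set A := Subgroup.zpowers (σ x) with hA
        have hxp : ∃ k, (σ x) ^ p ^ k = 1 := by
          obtain ⟨k, hk⟩ := hx
          exact ⟨k, by rw [← map_pow, hk, map_one]⟩
        have hAp : IsPGroup p A := isPGroup_zpowers hxp
        obtain ⟨Q, hQ⟩ := Coprime.exists_invariant_sylow (A := A) (K := K) (by rw [normalizer_eq_top_iff.2 hKn]; exact le_top)
          (by
            obtain ⟨c, hc⟩ := IsPGroup.iff_card.1 hAp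
            rw [hc]
            exact (hKc.pow_right c).symm) (Or.inl (by
              haveI := hAp.isNilpotent
              infer_instance)) q
        refine ⟨Q, ?_⟩
        set QY := (Q : Subgroup K).map K.subtype with hQY
        set M := QY.comap σ with hM
        have hQYq : IsPGroup q QY := Q.2.map _
        obtain ⟨T, hT⟩ := hQYq.exists_le_sylow
        have hTab := hYab q hqp T
        have hgM : ∀ z ∈ M.map π, π x * z * (π x)⁻¹ ∈ M.map π := by
          rintro _ ⟨z, hz, rfl⟩
          refine ⟨x * z * x⁻¹, ?_, by rw [map_mul, map_mul, map_inv]⟩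
          show σ (x * z * x⁻¹) ∈ QY
          rw [map_mul, map_mul, map_inv]
          exact (mem_normalizer_iff.1 (hQ (Subgroup.mem_zpowers _)) (σ z)).1 hz
        have hcP : ∀ z : X, z ∈ P → π z ∈ centralizer (U : Set (X ⧸ Φ)) := fun z hz => hUC ⟨z, hz, rfl⟩
        have hkk := AbelSum.grp_key (U := U) (M := M.map π) hUab hp.out hUp hn (g := π x) hgM (by
            rintro _ ⟨y, hy, rfl⟩ _ ⟨z, hz, rfl⟩
            rw [← map_commutatorElement]
            apply hcP
            apply (QuotientGroup.eq_one_iff _).1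
            show σ ⁅y, z⁆ = 1
            rw [map_commutatorElement, commutatorElement_eq_one_iff_mul_comm]
            exact congrArg Subtype.val (hTab.is_comm.comm (⟨σ y, hT hy⟩ : T.1) ⟨σ z, hT hz⟩)) (m := Nat.card QY) (by
            rintro _ ⟨y, hy, rfl⟩
            rw [← map_pow]
            apply hcP
            apply (QuotientGroup.eq_one_iff _).1
            show σ (y ^ Nat.card QY) = 1
            rw [map_pow]
            exact congrArg Subtype.val (pow_card_eq_one' (x := (⟨σ y, hy⟩ : QY)))) (by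
            obtain ⟨c, hc⟩ := IsPGroup.iff_card.1 hQYq
            rw [hc]
            exact Nat.Coprime.pow_left _ ((Nat.coprime_primes hq hp.out).2 hqp)) (by
            rintro _ ⟨v, hv, rfl⟩
            rw [← map_mul, ← map_pow, hexp, map_one]
            obtain ⟨k, hk⟩ := hx
            have h1 : (v * x) ^ p ^ k ∈ P := by
              apply (QuotientGroup.eq_one_iff _).1
              show σ ((v * x) ^ p ^ k) = 1
              rw [map_pow, map_mul, show σ v = 1 from (QuotientGroup.eq_one_iff _).2 hv, one_mul, ← map_pow, hk, map_one]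
            obtain ⟨c, hc⟩ := hPp ⟨_, h1⟩
            refine ⟨k + c, ?_⟩
            have h2 : ((v * x) ^ p ^ k) ^ p ^ c = 1 := congrArg Subtype.val hc
            rw [pow_add, pow_mul]; exact h2)
        intro z hz
        rw [mem_subgroupOf, mem_centralizer_singleton_iff]
        obtain ⟨w, hw⟩ := hσs (z : Y)
        have hwM : w ∈ M := by
          show σ w ∈ QY
          rw [hw]
          exact ⟨z, hz, rfl⟩
        have h1 := hkk (π w) ⟨w, hwM, rfl⟩
        rw [← map_pow, ← map_commutatorElement] at h1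
        have h2 : ⁅b, w⁆ ∈ P := hC h1
        have h3 : σ ⁅b, w⁆ = 1 := (QuotientGroup.eq_one_iff _).2 h2
        rw [map_commutatorElement, commutatorElement_eq_one_iff_mul_comm, hw] at h3
        first
        | exact h3.symm
        | exact h3
    rw [subgroupOf_eq_top] at h0
    exact inf_eq_right.2 h0
  have h1 : σ b ∈ centralizer (K : Set Y) := by
    rw [mem_centralizer_iff]
    intro k hk
    have h2 : k ∈ centralizer ({σ b} : Set Y) := inf_eq_right.1 hkey hk
    rw [mem_centralizer_singleton_iff] at h2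
    first
    | exact h2
    | exact h2.symm
  have h2 : σ b ∈ K := centralizer_pPrimeCore_le hYs hYO h1
  obtain ⟨k, hk⟩ := hx
  have h3 : (σ b) ^ p ^ k = 1 := by
    rw [← map_pow, hb, ← pow_mul, mul_comm, pow_mul, hk, one_pow, map_one]
  have h4 : (σ b) ^ Nat.card K = 1 := congrArg Subtype.val (pow_card_eq_one' (x := (⟨σ b, h2⟩ : K)))
  have h5 : orderOf (σ b) = 1 :=
    Nat.eq_one_of_dvd_coprimes (hKc.pow_right k) (_root_.orderOf_dvd_of_pow_eq_one h4) (_root_.orderOf_dvd_of_pow_eq_one h3)
  exact (QuotientGroup.eq_one_iff _).1 (orderOf_eq_one_iff.1 h5)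

end

theorem main {p : ℕ} [hp : Fact p.Prime] (n : ℕ) : ∀ (X : Type u) [Group X] [Finite X], Cfsg.IsPSolvable p X →
    (∀ (q : ℕ) [Fact q.Prime], q ≠ p → ∀ Q : Sylow q X, IsMulCommutative (Q : Subgroup X)) →
    (∀ x : X, (∃ k, x ^ p ^ k = 1) → x ^ p ^ n = 1) → Cfsg.PLengthLE p n X := by
  induction n with
  | zero =>
    intro X _ _ hX hab hexp
    apply PLen.zero_of_coprime
    rw [Nat.coprime_comm, Nat.Prime.coprime_iff_not_dvd hp.out]
    intro hd
    obtain ⟨x, hx⟩ := exists_prime_orderOf_dvd_card' p hd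
    have h1 := hexp x ⟨1, by rw [pow_one, ← hx, pow_orderOf_eq_one]⟩
    rw [pow_zero, pow_one] at h1
    rw [h1, orderOf_one] at hx
    exact hp.out.one_lt.ne hx
  | succ n ih =>
    intro X _ _ hX hab hexp
    have hred : ∀ (W : Type u) [Group W] [Finite W], Cfsg.IsPSolvable p W → Cfsg.pPrimeCore p W = ⊥ →
        (∀ (q : ℕ) [Fact q.Prime], q ≠ p → ∀ Q : Sylow q W, IsMulCommutative (Q : Subgroup W)) →
        (∀ x : W, (∃ k, x ^ p ^ k = 1) → x ^ p ^ (n + 1) = 1) → Cfsg.PLengthLE p (n + 1) W := by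
      intro W _ _ hW hO habW hexpW
      haveI hPn : (Cfsg.pCore p W).Normal := Cores.pCore_normal p
      have hf := QuotientGroup.mk'_surjective (Cfsg.pCore p W)
      have h1 : Cfsg.PLengthLE p n (W ⧸ Cfsg.pCore p W) := by
        refine ih _ (PSol.quotient hW _) (sylow_map _ hf habW) ?_
        intro y hy
        have h2 := exp_map _ hf hexpW
        obtain ⟨Q, hQ⟩ := (isPGroup_zpowers (p := p) hy).exists_le_sylow
        obtain ⟨P, rfl⟩ := Sylow.mapSurjective_surjective hf p Q
        obtain ⟨x, hx, hxy⟩ := hQ (Subgroup.mem_zpowers y)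
        have h3 := step hW hO habW (Nat.succ_ne_zero n) hexpW x (by
          obtain ⟨k, hk⟩ := P.2 ⟨x, hx⟩
          exact ⟨k, congrArg Subtype.val hk⟩)
        rw [Nat.succ_sub_one] at h3
        rw [← hxy, ← map_pow]
        exact (QuotientGroup.eq_one_iff _).2 h3
      have h2 := PLen.ext (Cfsg.pCore p W) (PLen.one_of_isPGroup (Cores.pCore_isPGroup (G := W) p)) h1
      rwa [add_comm] at h2
    haveI hOn : (Cfsg.pPrimeCore p X).Normal := Cores.pPrimeCore_normal p
    have hf := QuotientGroup.mk'_surjective (Cfsg.pPrimeCore p X)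
    have h1 : Cfsg.PLengthLE p (n + 1) (X ⧸ Cfsg.pPrimeCore p X) :=
      hred _ (PSol.quotient hX _) (Cores.pPrimeCore_quotient_pPrimeCore p) (sylow_map _ hf hab) (exp_map _ hf hexp)
    have h2 := PLen.ext (Cfsg.pPrimeCore p X) (PLen.zero_of_coprime (Cores.pPrimeCore_coprime (G := X) p)) h1
    rwa [zero_add] at h2

end Cfsg.Agent.H2.AbelExp
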