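import Cfsg.Agent.Lib.Quadratic
import Mathlib.Algebra.CharP.Lemmas

/-!
A trace version of the elementary Hall–Higman theorem: an element `a` of order dividing `p^n` with vanishing trace
`1 + a + ... + a^(p^n-1) = 0` has `a^(p^(n-1))` centralizing every abelian `p'`-group normalized by `a`.
-/

set_option autoImplicit false
set_option linter.unusedSectionVars false
set_option linter.style.haveILetI false
set_option linter.unusedVariables false

namespace Cfsg.Agent.H2.AbelSum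

open Cfsg
open scoped commutatorElement

universe u

section ring
variable {R : Type*} [Ring R] {p : ℕ} {Γ : Type*} [Group Γ]

theorem cj_pow (a x : Γ) (i : ℕ) : a ^ i * x * (a ^ i)⁻¹ * a ^ i = a ^ i * x := by group

theorem exists_mul_mod (hp : p.Prime) {n k : ℕ} (hn : n ≠ 0) (hk : 0 < k) (hkn : k < p ^ n) :
    ∃ l, k * l % p ^ n = p ^ (n - 1) := by
  obtain ⟨j, k', hk', rfl⟩ := Nat.exists_eq_pow_mul_and_not_dvd hk.ne' p hp.ne_one
  have hk0 : 0 < k' := by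
    rcases Nat.eq_zero_or_pos k' with h | h
    · subst h; simp at hk'
    · exact h
  have hjn : j < n := by
    have h1 : p ^ j ≤ p ^ j * k' := Nat.le_mul_of_pos_right _ hk0
    exact (Nat.pow_lt_pow_iff_right hp.one_lt).1 (lt_of_le_of_lt h1 hkn)
  have hc : Nat.Coprime k' p := ((Nat.Prime.coprime_iff_not_dvd hp).2 hk').symm
  obtain ⟨l, hl⟩ := Nat.exists_mul_mod_eq_one_of_coprime hc hp.one_lt
  refine ⟨p ^ (n - 1 - j) * l, ?_⟩
  have e1 : p ^ j * k' * (p ^ (n - 1 - j) * l) = p ^ (n - 1) * (k' * l) := by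
    have : p ^ (n - 1) = p ^ j * p ^ (n - 1 - j) := by rw [← pow_add]; congr 1; omega
    rw [this]; ring
  have e2 : p ^ n = p ^ (n - 1) * p := by rw [← pow_succ]; congr 1; omega
  rw [e1, e2, Nat.mul_mod_mul_left, hl.2, mul_one]

theorem ring_key (hp : p.Prime) {n : ℕ} (hn : n ≠ 0) (hpR : ∀ r : R, p • r = 0) (ρ : Γ →* R) (Q : Subgroup Γ) (a : Γ)
    (haQ : ∀ x ∈ Q, a * x * a⁻¹ ∈ Q) (hcomm : ∀ x ∈ Q, ∀ y ∈ Q, ρ x * ρ y = ρ y * ρ x) {m : ℕ}
    (hm : ∀ x ∈ Q, ρ x ^ m = 1) (hcop : m.Coprime p) (hAp : ρ a ^ (p ^ n) = 1)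
    (hstart : ∑ i ∈ Finset.range (p ^ n), ρ a ^ i = 0) :
    ∀ z ∈ Q, ρ (a ^ (p ^ (n - 1)) * z * (a ^ (p ^ (n - 1)))⁻¹) = ρ z := by
  intro z hz
  rcases subsingleton_or_nontrivial R with hR | hR
  · exact Subsingleton.elim _ _
  haveI : Fact p.Prime := ⟨hp⟩
  haveI : CharP R p := by
    have h0 : (p : R) = 0 := by
      have := hpR 1
      rwa [nsmul_eq_mul, mul_one] at this
    exact ringChar.of_eq (CharP.ringChar_of_prime_eq_zero hp h0)
  have hN0 : 0 < p ^ n := pow_pos hp.pos n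
  have haQi : ∀ i : ℕ, ∀ x ∈ Q, a ^ i * x * (a ^ i)⁻¹ ∈ Q := by
    intro i
    induction i with
    | zero => intro x hx; simpa using hx
    | succ i ih =>
      intro x hx
      have := haQ _ (ih x hx)
      have e : a ^ (i + 1) * x * (a ^ (i + 1))⁻¹ = a * (a ^ i * x * (a ^ i)⁻¹) * a⁻¹ := by rw [pow_succ']; group
      rw [e]; exact this
  have hmove : ∀ (i : ℕ) (x : Γ), ρ a ^ i * ρ x = ρ (a ^ i * x * (a ^ i)⁻¹) * ρ a ^ i := by
    intro i x
    rw [← map_pow, ← map_mul, ← map_mul, cj_pow]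
  set b := a ^ (p ^ (n - 1)) with hb
  set w := z⁻¹ * (b * z * b⁻¹) with hw
  have hwQ : w ∈ Q := Q.mul_mem (Q.inv_mem hz) (haQi _ z hz)
  -- existence of `y`
  have hy : ∀ k, 1 ≤ k → k < p ^ n → ∃ y ∈ Q, ρ (a ^ k * y * (a ^ k)⁻¹) = ρ y * ρ w := by
    intro k hk hkp
    have hex : ∀ l : ℕ, ∃ y ∈ Q, ρ (a ^ k * y * (a ^ k)⁻¹) = ρ y * (ρ z⁻¹ * ρ (a ^ (k * l) * z * (a ^ (k * l))⁻¹)) := by
      intro l
      induction l with
      | zero =>
        refine ⟨1, Q.one_mem, ?_⟩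
        have : a ^ k * 1 * (a ^ k)⁻¹ = 1 := by group
        rw [this, ← map_mul]
        simp
      | succ l ih =>
        obtain ⟨y, hy, hyk⟩ := ih
        set zl := a ^ (k * l) * z * (a ^ (k * l))⁻¹ with hzl
        have hzlQ : zl ∈ Q := haQi _ z hz
        refine ⟨y * zl, Q.mul_mem hy hzlQ, ?_⟩
        have e1 : a ^ k * (y * zl) * (a ^ k)⁻¹ = (a ^ k * y * (a ^ k)⁻¹) * (a ^ (k * (l + 1)) * z * (a ^ (k * (l + 1)))⁻¹) := by
          have : a ^ (k * (l + 1)) = a ^ k * a ^ (k * l) := by rw [← pow_add]; congr 1; ring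
          rw [hzl, this]; group
        rw [e1, map_mul, hyk, map_mul ρ y zl]
        have e2 := hcomm z⁻¹ (Q.inv_mem hz) zl hzlQ
        rw [e2]
        simp only [mul_assoc]
    obtain ⟨l, hl⟩ := exists_mul_mod hp hn (by omega) hkp
    obtain ⟨y, hyQ, hyk⟩ := hex l
    refine ⟨y, hyQ, ?_⟩
    rw [hyk]
    have e1 : ρ (a ^ (k * l)) = ρ b := by
      rw [map_pow, hb, map_pow, ← Nat.div_add_mod (k * l) (p ^ n), hl, pow_add, pow_mul, hAp, one_pow, one_mul]
    have e2 : ρ (a ^ (k * l))⁻¹ = ρ b⁻¹ := by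
      have h1 : ρ (a ^ (k * l))⁻¹ * ρ b = 1 := by
        rw [← e1, ← map_mul, inv_mul_cancel, map_one]
      calc ρ (a ^ (k * l))⁻¹ = ρ (a ^ (k * l))⁻¹ * (ρ b * ρ b⁻¹) := by rw [← map_mul, mul_inv_cancel, map_one, mul_one]
        _ = ρ b⁻¹ := by rw [← mul_assoc, h1, one_mul]
    have e3 : ρ (a ^ (k * l) * z * (a ^ (k * l))⁻¹) = ρ (b * z * b⁻¹) := by
      rw [map_mul, map_mul, e2, e1, ← map_mul, ← map_mul]
    rw [e3, ← map_mul ρ z⁻¹]
  -- elimination
  have hcw : ∀ (n : ℕ), ∀ x ∈ Q, (1 - ρ w) ^ n * ρ x = ρ x * (1 - ρ w) ^ n := by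
    intro n x hx
    have h1 : Commute (1 - ρ w) (ρ x) := by
      refine Commute.sub_left (Commute.one_left _) ?_
      exact hcomm w hwQ x hx
    exact (h1.pow_left n).eq
  have helim : ∀ j, j ≤ p ^ n - 1 → ∃ P : ℕ → R, (∀ i, ∀ x ∈ Q, P i * ρ x = ρ x * P i) ∧
      ∑ i ∈ Finset.range (p ^ n - j), P i * ρ a ^ i = 0 ∧ ∃ q ∈ Q, P 0 = ρ q * (1 - ρ w) ^ j := by
    intro j
    induction j with
    | zero =>
      intro _
      refine ⟨fun _ => 1, fun i x _ => by rw [one_mul, mul_one], by simpa using hstart, 1, Q.one_mem, by simp⟩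
    | succ j ih =>
      intro hj
      obtain ⟨P, hP1, hP2, q, hq, hP3⟩ := ih (by omega)
      set k := p ^ n - (j + 1) with hk
      have hpk : p ^ n - j = k + 1 := by omega
      obtain ⟨y, hyQ, hyk⟩ := hy k (by omega) (by omega)
      refine ⟨fun i => P i * (ρ (a ^ i * y * (a ^ i)⁻¹) - ρ (a ^ k * y * (a ^ k)⁻¹)), ?_, ?_, q * y, Q.mul_mem hq hyQ, ?_⟩
      · intro i x hx
        have h1 : Commute (P i) (ρ x) := hP1 i x hx
        have h2 : Commute (ρ (a ^ i * y * (a ^ i)⁻¹) - ρ (a ^ k * y * (a ^ k)⁻¹)) (ρ x) :=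
          Commute.sub_left (hcomm _ (haQi i y hyQ) x hx) (hcomm _ (haQi k y hyQ) x hx)
        exact (h1.mul_left h2).eq
      · have h1 : ∑ i ∈ Finset.range (k + 1), P i * (ρ (a ^ i * y * (a ^ i)⁻¹) - ρ (a ^ k * y * (a ^ k)⁻¹)) * ρ a ^ i = 0 := by
          have h2 : ∀ i, P i * (ρ (a ^ i * y * (a ^ i)⁻¹) - ρ (a ^ k * y * (a ^ k)⁻¹)) * ρ a ^ i =
              (P i * ρ a ^ i) * ρ y - ρ (a ^ k * y * (a ^ k)⁻¹) * (P i * ρ a ^ i) := by
            intro i
            rw [mul_sub, sub_mul, mul_assoc (P i), ← hmove, hP1 i _ (haQi k y hyQ)]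
            simp only [mul_assoc]
          rw [Finset.sum_congr rfl (fun i _ => h2 i), Finset.sum_sub_distrib, ← Finset.sum_mul, ← Finset.mul_sum]
          rw [hpk] at hP2
          rw [hP2, zero_mul, mul_zero, sub_zero]
        rw [Finset.sum_range_succ, sub_self, mul_zero, zero_mul, add_zero] at h1
        exact h1
      · simp only [pow_zero, one_mul, inv_one, mul_one]
        rw [hyk, hP3]
        have h2 : ρ y - ρ y * ρ w = ρ y * (1 - ρ w) := by rw [mul_sub, mul_one]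
        calc ρ q * (1 - ρ w) ^ j * (ρ y - ρ y * ρ w) = ρ q * ((1 - ρ w) ^ j * ρ y) * (1 - ρ w) := by
              rw [h2]; simp only [mul_assoc]
          _ = (ρ q * ρ y) * ((1 - ρ w) ^ j * (1 - ρ w)) := by rw [hcw j y hyQ]; simp only [mul_assoc]
          _ = ρ (q * y) * (1 - ρ w) ^ (j + 1) := by rw [← map_mul, ← pow_succ]
  obtain ⟨P, -, hP2, q, hq, hP3⟩ := helim (p ^ n - 1) le_rfl
  have h1 : p ^ n - (p ^ n - 1) = 1 := by omega
  rw [h1, Finset.sum_range_one, pow_zero, mul_one, hP3] at hP2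
  have h2 : (1 - ρ w) ^ (p ^ n - 1) = 0 := by
    have h3 : ρ q⁻¹ * (ρ q * (1 - ρ w) ^ (p ^ n - 1)) = (1 - ρ w) ^ (p ^ n - 1) := by
      rw [← mul_assoc, ← map_mul, inv_mul_cancel, map_one, one_mul]
    rw [← h3, hP2, mul_zero]
  have h3 : (1 - ρ w) ^ (p ^ n) = 0 := by
    have : p ^ n = (p ^ n - 1) + 1 := by omega
    rw [this, pow_succ, h2, zero_mul]
  rw [sub_pow_char_pow_of_commute p n (Commute.one_left _), one_pow, sub_eq_zero] at h3
  have h4 : ρ w = 1 := by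
    have h5 : orderOf (ρ w) ∣ p ^ n := orderOf_dvd_iff_pow_eq_one.2 h3.symm
    have h6 : orderOf (ρ w) ∣ m := orderOf_dvd_iff_pow_eq_one.2 (hm w hwQ)
    rw [← orderOf_eq_one_iff]
    exact Nat.eq_one_of_dvd_coprimes (hcop.pow_right n) h6 h5
  calc ρ (b * z * b⁻¹) = ρ (z * w) := by rw [hw]; congr 1; group
    _ = ρ z := by rw [map_mul, h4, mul_one]

end ring

section grp
variable {X : Type*} [Group X]

theorem grp_key {U M : Subgroup X} [hUn : U.Normal] (hU : ∀ x ∈ U, ∀ y ∈ U, x * y = y * x) {p : ℕ} (hp : p.Prime)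
    (hUp : ∀ x ∈ U, x ^ p = 1) {n : ℕ} (hn : n ≠ 0) {g : X} (hgM : ∀ x ∈ M, g * x * g⁻¹ ∈ M)
    (hM : ∀ x ∈ M, ∀ y ∈ M, ⁅x, y⁆ ∈ Subgroup.centralizer (U : Set X)) {m : ℕ} (hm : ∀ x ∈ M, x ^ m ∈ Subgroup.centralizer (U : Set X))
    (hcop : m.Coprime p) (hg : ∀ v ∈ U, (v * g) ^ (p ^ n) = 1) :
    ∀ z ∈ M, ⁅g ^ (p ^ (n - 1)), z⁆ ∈ Subgroup.centralizer (U : Set X) := by
  let _ : CommGroup U := { mul_comm := fun x y => Subtype.ext (hU x x.2 y y.2) }
  let ρ : X →* AddMonoid.End (Additive U) := (Cfsg.Agent.Lib.Quadratic.toEnd U).comp MulAut.conjNormal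
  have hρ : ∀ (g : X) (v : U), ρ g (Additive.ofMul v) = Additive.ofMul (MulAut.conjNormal g v) := fun g v => rfl
  have hker : ∀ g : X, ρ g = 1 ↔ g ∈ Subgroup.centralizer (U : Set X) := by
    intro g
    rw [Subgroup.mem_centralizer_iff]
    constructor
    · intro h v hv
      have h4 := congrArg (fun f => Additive.toMul (f (Additive.ofMul (⟨v, hv⟩ : U)))) h
      have h5 := congrArg Subtype.val h4
      change g * v * g⁻¹ = v at h5
      rw [mul_inv_eq_iff_eq_mul] at h5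
      exact h5.symm
    · intro h
      ext v
      change g * (v.toMul : X) * g⁻¹ = (v.toMul : X)
      rw [mul_inv_eq_iff_eq_mul]
      exact (h _ v.toMul.2).symm
  have hcomm : ∀ g h : X, ⁅g, h⁆ ∈ Subgroup.centralizer (U : Set X) ↔ ρ g * ρ h = ρ h * ρ g := by
    intro g h
    rw [← hker, commutatorElement_def, map_mul, map_mul, map_mul]
    have e1 : ρ g⁻¹ * ρ g = 1 := by rw [← map_mul, inv_mul_cancel, map_one]
    have e2 : ρ h⁻¹ * ρ h = 1 := by rw [← map_mul, inv_mul_cancel, map_one]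
    have e3 : ρ g * ρ g⁻¹ = 1 := by rw [← map_mul, mul_inv_cancel, map_one]
    have e4 : ρ h * ρ h⁻¹ = 1 := by rw [← map_mul, mul_inv_cancel, map_one]
    constructor
    · intro h5
      calc ρ g * ρ h = ρ g * ρ h * (ρ g⁻¹ * ρ h⁻¹ * (ρ h * ρ g)) := by
            rw [mul_assoc (ρ g⁻¹), ← mul_assoc (ρ h⁻¹), e2, one_mul, e1, mul_one]
        _ = (ρ g * ρ h * ρ g⁻¹ * ρ h⁻¹) * (ρ h * ρ g) := by simp only [mul_assoc]
        _ = ρ h * ρ g := by rw [h5, one_mul]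
    · intro h5
      rw [h5, mul_assoc (ρ h), e3, mul_one, e4]
  have hgN : g ^ (p ^ n) = 1 := by
    have := hg 1 U.one_mem
    rwa [one_mul] at this
  have hprod : ∀ (k : ℕ) (v : U), ((v : X) * g) ^ k = (((∑ i ∈ Finset.range k, ρ g ^ i) (Additive.ofMul v)).toMul : X) * g ^ k := by
    intro k v
    induction k with
    | zero => simp
    | succ k ih =>
      rw [Finset.sum_range_succ, pow_succ, ih]
      have h1 : ((ρ g ^ k) (Additive.ofMul v)).toMul.1 = g ^ k * v * (g ^ k)⁻¹ := by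
        rw [← map_pow]; rfl
      have h2 : ((∑ i ∈ Finset.range k, ρ g ^ i + ρ g ^ k) (Additive.ofMul v)).toMul.1 =
          ((∑ i ∈ Finset.range k, ρ g ^ i) (Additive.ofMul v)).toMul.1 * ((ρ g ^ k) (Additive.ofMul v)).toMul.1 := rfl
      rw [h2, h1, pow_succ g k]
      group
  have hsum : ∑ i ∈ Finset.range (p ^ n), ρ g ^ i = 0 := by
    ext v
    have h1 := hprod (p ^ n) v.toMul
    rw [hgN, mul_one, hg _ v.toMul.2] at h1
    exact h1.symm
  have hpU : ∀ w : Additive U, p • w = 0 := by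
    intro w
    have : Additive.ofMul (w.toMul ^ p) = 0 := by
      rw [show w.toMul ^ p = 1 from Subtype.ext (by rw [Subgroup.coe_pow]; exact hUp _ w.toMul.2)]; rfl
    exact this
  have hpR : ∀ r : AddMonoid.End (Additive U), p • r = 0 := by
    intro r
    ext v
    have h4 : (p • r) v = p • (r v) := rfl
    rw [h4, hpU]; rfl
  intro z hz
  have h1 := ring_key hp hn hpR ρ M g hgM (fun x hx y hy => (hcomm x y).1 (hM x hx y hy)) (fun x hx => by
    rw [← map_pow]; exact (hker _).2 (hm x hx)) hcop (by rw [← map_pow, hgN, map_one]) hsum z hz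
  set b := g ^ (p ^ (n - 1)) with hb
  rw [hcomm, ← map_mul, ← map_mul]
  have e : b * z = (b * z * b⁻¹) * b := by group
  rw [e, map_mul, h1, ← map_mul]

end grp

end Cfsg.Agent.H2.AbelSum
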