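import Mathlib
import Cfsg.Agent.H2.PUtil

set_option autoImplicit false

/-! Breadth and class of `p`-groups. -/

namespace Cfsg.Agent.H2.Breadth

open Subgroup

universe u
variable {G : Type u} [Group G]

/-- the lower central series -/
abbrev γ (G : Type u) [Group G] (i : ℕ) : Subgroup G := (⊤ : Subgroup G).lowerCentralSeries i

theorem γ_normal (i : ℕ) : (γ G i).Normal := inferInstance

/-- the two-step centraliser -/
def K (G : Type u) [Group G] (i : ℕ) : Subgroup G where
  carrier := {g | ∀ x ∈ γ G i, x * g * x⁻¹ * g⁻¹ ∈ γ G (i + 2)}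
  one_mem' := by intro x _; simp
  mul_mem' := by
    intro a b ha hb x hx
    have e : x * (a * b) * x⁻¹ * (a * b)⁻¹ = (x * a * x⁻¹ * a⁻¹) * (a * (x * b * x⁻¹ * b⁻¹) * a⁻¹) := by group
    rw [e]
    exact mul_mem (ha x hx) ((γ_normal (i + 2)).conj_mem _ (hb x hx) a)
  inv_mem' := by
    intro a ha x hx
    have e : x * a⁻¹ * x⁻¹ * a⁻¹⁻¹ = a⁻¹ * (x * a * x⁻¹ * a⁻¹)⁻¹ * a⁻¹⁻¹ := by group
    rw [e]
    exact (γ_normal (i + 2)).conj_mem _ (inv_mem (ha x hx)) a⁻¹

theorem mem_K {i : ℕ} {g : G} : g ∈ K G i ↔ ∀ x ∈ γ G i, x * g * x⁻¹ * g⁻¹ ∈ γ G (i + 2) := Iff.rfl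

theorem K_ne_top [hG : Group.IsNilpotent G] {i : ℕ} (h : i + 1 < Group.nilpotencyClass G) : K G i ≠ ⊤ := by
  intro hK
  have h1 : γ G (i + 1) ≤ γ G (i + 2) := by
    change ⁅γ G i, (⊤ : Subgroup G)⁆ ≤ _
    rw [commutator_le]
    intro x hx g _
    have : g ∈ K G i := hK ▸ mem_top g
    exact this x hx
  have h2 : ⁅γ G (i + 1), (⊤ : Subgroup G)⁆ = γ G (i + 1) := le_antisymm (commutator_le_left _ _) h1
  have h3 : γ G (i + 1) ≠ ⊥ := by
    intro h3
    have := Subgroup.lowerCentralSeries_eq_bot_iff_nilpotencyClass_le.mp h3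
    omega
  exact PUtil.commutator_top_ne h3 h2

open Classical in
/-- the index of the centraliser -/
theorem index_bound [Finite G] {p : ℕ} [hp : Fact p.Prime] (hG : IsPGroup p G) (g : G) (j : ℕ) :
    p ^ ((Finset.range j).filter (fun i => g ∉ K G i)).card ≤ (γ G j ⊔ centralizer ({g} : Set G)).index := by
  induction j with
  | zero =>
    rw [Finset.range_zero, Finset.filter_empty, Finset.card_empty, pow_zero]
    exact Nat.pos_of_ne_zero index_ne_zero_of_finite
  | succ j ih =>
    have hle : γ G (j + 1) ⊔ centralizer ({g} : Set G) ≤ γ G j ⊔ centralizer ({g} : Set G) :=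
      sup_le_sup_right (Subgroup.lowerCentralSeries_antitone _ (Nat.le_succ j)) _
    rw [← relIndex_mul_index hle, Finset.range_add_one, Finset.filter_insert]
    by_cases h : g ∉ K G j
    · rw [if_pos h, Finset.card_insert_of_notMem (by simp), pow_succ, mul_comm]
      refine Nat.mul_le_mul ?_ ih
      -- the relative index is at least `p`
      have hne : (γ G (j + 1) ⊔ centralizer ({g} : Set G)).relIndex (γ G j ⊔ centralizer ({g} : Set G)) ≠ 1 := by
        intro h1
        rw [relIndex_eq_one] at h1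
        apply h
        rw [mem_K]
        intro x hx
        have h2 : x ∈ γ G (j + 1) ⊔ centralizer ({g} : Set G) := h1 (mem_sup_left hx)
        haveI := γ_normal (G := G) (j + 1)
        obtain ⟨y, hy, d, hd, rfl⟩ := mem_sup_of_normal_left.mp h2
        have h3 : d * g * d⁻¹ = g := by
          rw [mem_centralizer_singleton_iff.mp hd, mul_inv_cancel_right]
        have e : y * d * g * (y * d)⁻¹ * g⁻¹ = y * (d * g * d⁻¹) * y⁻¹ * g⁻¹ := by group
        rw [e, h3]
        change y * g * y⁻¹ * g⁻¹ ∈ ⁅γ G (j + 1), (⊤ : Subgroup G)⁆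
        exact commutator_mem_commutator hy (mem_top g)
      have hdvd : (γ G (j + 1) ⊔ centralizer ({g} : Set G)).relIndex (γ G j ⊔ centralizer ({g} : Set G)) ∣ Nat.card G := by
        exact (relIndex_dvd_card _ _).trans (card_subgroup_dvd_card _)
      obtain ⟨n, hn⟩ := IsPGroup.iff_card.mp hG
      rw [hn] at hdvd
      obtain ⟨k, _, hk⟩ := (Nat.dvd_prime_pow hp.out).mp hdvd
      rw [hk] at hne ⊢
      have hk0 : k ≠ 0 := by rintro rfl; exact hne (pow_zero p)
      exact Nat.le_self_pow hk0 p
    · rw [if_neg h]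
      calc p ^ ((Finset.range j).filter (fun i => g ∉ K G i)).card ≤ 1 * (γ G j ⊔ centralizer ({g} : Set G)).index := by rw [one_mul]; exact ih
        _ ≤ _ := Nat.mul_le_mul_right _ (Nat.pos_of_ne_zero index_ne_zero_of_finite)

open Classical in
theorem card_le [Finite G] {p : ℕ} [hp : Fact p.Prime] (hG : IsPGroup p G) {b : ℕ}
    (hb : ∀ x : G, (centralizer ({x} : Set G)).index ≤ p ^ b) (g : G) (j : ℕ) : ((Finset.range j).filter (fun i => g ∉ K G i)).card ≤ b := by
  have h1 := index_bound hG g j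
  have h2 : (γ G j ⊔ centralizer ({g} : Set G)).index ≤ (centralizer ({g} : Set G)).index :=
    Nat.le_of_dvd (Nat.pos_of_ne_zero index_ne_zero_of_finite) (index_dvd_of_le le_sup_right)
  exact (Nat.pow_le_pow_iff_right hp.out.one_lt).mp (h1.trans (h2.trans (hb g)))

open Classical in
theorem main [Finite G] {p : ℕ} [hp : Fact p.Prime] (hG : IsPGroup p G) {b : ℕ}
    (hb : ∀ x : G, (centralizer ({x} : Set G)).index ≤ p ^ b) [hn : Group.IsNilpotent G] :
    (Group.nilpotencyClass G - 1) * (p - 1) * Nat.card G ≤ p * (b * (Nat.card G - 1)) := by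
  haveI : Fintype G := Fintype.ofFinite G
  obtain ⟨c, hc⟩ : ∃ c, c = Group.nilpotencyClass G - 1 := ⟨_, rfl⟩
  rw [← hc]
  -- double count
  have h1 : ∑ g : G, ((Finset.range c).filter (fun i => g ∉ K G i)).card = ∑ i ∈ Finset.range c, (Finset.univ.filter (fun g : G => g ∉ K G i)).card := by
    simp_rw [Finset.card_filter]
    exact Finset.sum_comm
  have h2 : ∀ i ∈ Finset.range c, (p - 1) * Nat.card G ≤ p * (Finset.univ.filter (fun g : G => g ∉ K G i)).card := by
    intro i hi
    have hi' := Finset.mem_range.mp hi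
    have hne := K_ne_top (G := G) (i := i) (by omega)
    have h3 : (Finset.univ.filter (fun g : G => g ∉ K G i)).card + Nat.card (K G i) = Nat.card G := by
      rw [Nat.card_eq_fintype_card (α := G), Nat.card_eq_fintype_card, ← Fintype.card_subtype, add_comm]
      have := Fintype.card_subtype_compl (fun g : G => g ∈ K G i)
      have h4 : Fintype.card {g : G // g ∈ K G i} ≤ Fintype.card G := Fintype.card_subtype_le _
      have h5 : Fintype.card {g : G // ¬ g ∈ K G i} = Fintype.card {g : G // g ∉ K G i} := rfl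
      have h6 : Fintype.card (K G i) = Fintype.card {g : G // g ∈ K G i} := rfl
      omega
    have h4 : p * Nat.card (K G i) ≤ Nat.card G := by
      obtain ⟨n, hn⟩ := IsPGroup.iff_card.mp hG
      have h5 := (K G i).card_mul_index
      have h6 : (K G i).index ≠ 1 := fun h => hne (index_eq_one.mp h)
      have h7 : (K G i).index ∣ p ^ n := by rw [← hn]; exact index_dvd_card _
      obtain ⟨k, _, hk⟩ := (Nat.dvd_prime_pow hp.out).mp h7
      have hk0 : k ≠ 0 := by rintro rfl; rw [pow_zero] at hk; exact h6 hk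
      have h8 : p ≤ (K G i).index := by rw [hk]; exact Nat.le_self_pow hk0 p
      rw [← h5, mul_comm]
      exact Nat.mul_le_mul_left _ h8
    have hp1 := hp.out.one_lt
    obtain ⟨r, rfl⟩ : ∃ r, p = r + 1 := ⟨p - 1, by omega⟩
    simp only [Nat.add_sub_cancel]
    nlinarith
  have h3 : c * ((p - 1) * Nat.card G) ≤ p * ∑ g : G, ((Finset.range c).filter (fun i => g ∉ K G i)).card := by
    rw [h1, Finset.mul_sum, ← smul_eq_mul, ← Finset.card_range c, ← Finset.sum_const, Finset.card_range]
    exact Finset.sum_le_sum h2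
  have h4 : ∑ g : G, ((Finset.range c).filter (fun i => g ∉ K G i)).card ≤ b * (Nat.card G - 1) := by
    rw [← Finset.add_sum_erase _ _ (Finset.mem_univ (1 : G))]
    have h5 : ((Finset.range c).filter (fun i => (1 : G) ∉ K G i)).card = 0 := by
      rw [Finset.card_eq_zero, Finset.filter_eq_empty_iff]
      intro i _
      simp [one_mem]
    rw [h5, zero_add]
    calc ∑ g ∈ Finset.univ.erase (1 : G), ((Finset.range c).filter (fun i => g ∉ K G i)).card ≤ ∑ g ∈ Finset.univ.erase (1 : G), b :=
          Finset.sum_le_sum fun g _ => card_le hG hb g c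
      _ = b * (Nat.card G - 1) := by
          rw [Finset.sum_const, smul_eq_mul, Finset.card_erase_of_mem (Finset.mem_univ _), Finset.card_univ, Nat.card_eq_fintype_card, mul_comm]
  calc c * (p - 1) * Nat.card G = c * ((p - 1) * Nat.card G) := by ring
    _ ≤ _ := h3.trans (Nat.mul_le_mul_left p h4)

end Cfsg.Agent.H2.Breadth
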