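import Mathlib
import Cfsg.Prelude.Def_Local
import Cfsg.Agent.S3737
import Cfsg.Agent.Lib.Cores
import Cfsg.Agent.Lib.Coprime
import Cfsg.Agent.Lib.CoprimeB
import Cfsg.Agent.Lib.CommNine
import Cfsg.Agent.Lib.BlockPP
import Cfsg.Agent.H2.PUtil

/-! `E`-invariant `p'`-subgroups of `p`-constrained groups (`E` an abelian `p`-subgroup containing all
`p`-elements of its centralizer). -/

namespace Cfsg.Agent.H2.Constr

open Subgroup Cfsg.Agent.Lib Cfsg.Agent.Lib.Coprime Cfsg.Agent.Lib.CoprimeB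
open scoped commutatorElement

universe u

theorem quadratic_case {X : Type u} [Group X] [Finite X] {p : ℕ} [Fact p.Prime] (P Q G : Subgroup X)
    (hP : IsPGroup p P) (hQ : (Nat.card Q).Coprime p) (hPQ : P ≤ Subgroup.normalizer (Q : Set X))
    (hG : IsPGroup p G) (hPG : P ≤ Subgroup.normalizer (G : Set X)) (hQG : Q ≤ Subgroup.normalizer (G : Set X))
    (hC : G ⊓ Subgroup.centralizer (P : Set X) ≤ Subgroup.centralizer (Q : Set X))
    (hquad : ⁅⁅G, P⁆, P⁆ = ⊥) : Q ≤ Subgroup.centralizer (G : Set X) := by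
  have hcopPQ : (Nat.card P).Coprime (Nat.card Q) := (card_coprime_of_isPGroup hQ hP).symm
  have hcopQG : (Nat.card Q).Coprime (Nat.card G) := card_coprime_of_isPGroup hQ hG
  have hsP : Group.IsSolvable P := isSolvable_of_isPGroup hP
  have hsG : Group.IsSolvable G := isSolvable_of_isPGroup hG
  set M : Subgroup X := ⁅G, P⁆ with hM
  have hMG : M ≤ G := commutator_le_of_normalizes hPG
  have hMP : M ≤ centralizer (P : Set X) := by
    rw [← commutator_eq_bot_iff_le_centralizer]; exact hquad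
  have hMQ : M ≤ centralizer (Q : Set X) := fun x hx => hC ⟨hMG hx, hMP hx⟩
  have hGM : G ≤ normalizer (M : Set X) := le_normalizer_commutator_left P G
  have hPM : P ≤ normalizer (M : Set X) := le_normalizer_commutator_right P G
  have hQM : Q ≤ normalizer (M : Set X) := by
    have : Q ≤ centralizer (M : Set X) := by
      rw [← commutator_eq_bot_iff_le_centralizer, commutator_comm, commutator_eq_bot_iff_le_centralizer]
      exact hMQ
    exact this.trans (centralizer_le_normalizer _)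
  have hQGle : ⁅Q, G⁆ ≤ G := by rw [commutator_comm]; exact commutator_le_of_normalizes hQG
  -- three subgroups
  have h1 : ⁅⁅G, P⁆, Q⁆ ≤ M := by
    rw [commutator_eq_bot_iff_le_centralizer.2 hMQ]; exact bot_le
  have h2 : ⁅⁅Q, G⁆, P⁆ ≤ M := commutator_mono hQGle le_rfl
  have h3 : ⁅⁅P, Q⁆, G⁆ ≤ M := CommNine.three_sub_le hQM hGM hPM h2 h1
  have hDQ : ⁅P, Q⁆ ≤ Q := by rw [commutator_comm]; exact commutator_le_of_normalizes hPQ
  set D : Subgroup X := ⁅P, Q⁆ with hD
  have h4 : ⁅G, D⁆ ≤ M := by rw [commutator_comm]; exact h3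
  have h5 : ⁅M, D⁆ = ⊥ := by
    rw [commutator_eq_bot_iff_le_centralizer]
    exact hMQ.trans (centralizer_le hDQ)
  have h6 : ⁅G, D⁆ = ⊥ := le_centralizer_of_commutator_le (hDQ.trans hQG)
    (Nat.Coprime.coprime_dvd_left (card_dvd_of_le hDQ) hcopQG) (Or.inr hsG) h4 h5
  have hDG : D ≤ centralizer (G : Set X) := commutator_eq_bot_iff_le_centralizer'.1 h6
  have hCG : Q ⊓ centralizer (P : Set X) ≤ centralizer (G : Set X) := by
    apply thompson_PxQ (P := P) (Q := Q ⊓ centralizer (P : Set X)) hP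
      (Nat.Coprime.coprime_dvd_left (card_dvd_of_le inf_le_left) hQ) hG ?_ hPG (inf_le_left.trans hQG)
      (hC.trans (centralizer_le inf_le_left))
    rw [← commutator_eq_bot_iff_le_centralizer, commutator_comm, commutator_eq_bot_iff_le_centralizer]
    exact inf_le_right
  have h7 := commutator_sup_centralizer hPQ hcopPQ (Or.inl hsP)
  rw [← h7, commutator_comm Q P]
  exact sup_le hDG hCG

/-- in a `p`-group of class at most two -/
def ClassTwo (p : ℕ) (H : Type u) [Group H] : Prop := ∀ S : Subgroup H, IsPGroup p S → ⁅⁅S, S⁆, S⁆ = ⊥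

theorem ClassTwo.quotient {p : ℕ} [Fact p.Prime] {H : Type u} [Group H] [Finite H] (h : ClassTwo p H) (K : Subgroup H)
    [K.Normal] : ClassTwo p (H ⧸ K) := by
  intro S hS
  obtain ⟨T, hT⟩ := hS.exists_le_sylow
  obtain ⟨P⟩ : Nonempty (Sylow p H) := inferInstance
  have h1 : IsPGroup p ((P : Subgroup H).map (QuotientGroup.mk' K)) := P.isPGroup'.map _
  have hidx : ¬ p ∣ ((P : Subgroup H).map (QuotientGroup.mk' K)).index := by
    intro hd
    exact P.not_dvd_index (hd.trans (index_map_dvd _ (QuotientGroup.mk'_surjective K)))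
  let P' : Sylow p (H ⧸ K) := h1.toSylow hidx
  obtain ⟨g, hg⟩ := MulAction.exists_smul_eq (H ⧸ K) P' T
  have hTg : (T : Subgroup (H ⧸ K)) = ((P : Subgroup H).map (QuotientGroup.mk' K)).map (MulAut.conj g).toMonoidHom := by
    rw [← hg]; rfl
  have h2 : ⁅⁅(T : Subgroup (H ⧸ K)), (T : Subgroup (H ⧸ K))⁆, (T : Subgroup (H ⧸ K))⁆ = ⊥ := by
    rw [hTg, ← map_commutator, ← map_commutator, ← map_commutator, ← map_commutator, h P P.isPGroup',
      Subgroup.map_bot, Subgroup.map_bot]
  rw [eq_bot_iff, ← h2]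
  exact commutator_mono (commutator_mono hT hT) hT

theorem lemmaA {H : Type u} [Group H] [Finite H] {p : ℕ} [hp : Fact p.Prime] (hcon : Cfsg.IsPConstrained p H)
    (h2 : p = 2 → ClassTwo p H) (E Q : Subgroup H) (hEp : IsPGroup p E) (hEc : IsMulCommutative E)
    (hEfull : ∀ x ∈ centralizer (E : Set H), IsPGroup p (zpowers x) → x ∈ E)
    (hQ : (Nat.card Q).Coprime p) (hEQ : E ≤ normalizer (Q : Set H)) : Q ≤ Cfsg.pPrimeCore p H := by
  classical
  set K := Cfsg.pPrimeCore p H with hK
  have hKc : (Nat.card K).Coprime p := Cores.pPrimeCore_coprime p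
  set f := QuotientGroup.mk' K with hf
  have hfs : Function.Surjective f := QuotientGroup.mk'_surjective K
  set R := Cfsg.pCore p (H ⧸ K) with hR
  have hRp : IsPGroup p R := Cores.pCore_isPGroup p
  have hRn : R.Normal := Cores.pCore_normal p
  have hEK : E ≤ normalizer (K : Set H) := by
    rw [normalizer_eq_top_iff.mpr (inferInstance : K.Normal)]; exact le_top
  have hnormtop : ∀ A : Subgroup (H ⧸ K), A ≤ normalizer (R : Set (H ⧸ K)) := fun A => by
    rw [normalizer_eq_top_iff.mpr hRn]; exact le_top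
  have hE' : IsPGroup p (E.map f) := hEp.map _
  have hQ' : (Nat.card (Q.map f)).Coprime p := Nat.Coprime.coprime_dvd_left (card_map_dvd Q f) hQ
  have hEQ' : E.map f ≤ normalizer ((Q.map f : Subgroup (H ⧸ K)) : Set (H ⧸ K)) := by
    refine (Subgroup.map_mono hEQ).trans ?_
    exact le_normalizer_map f
  -- step 1
  have step1 : R ⊓ centralizer ((E.map f : Subgroup (H ⧸ K)) : Set (H ⧸ K)) ≤ E.map f := by
    rintro r ⟨hr1, hr2⟩
    obtain ⟨x, rfl⟩ := hfs r
    obtain ⟨d, hd, hxd⟩ := exists_mem_centralizer_coset (A := E) (D := K) hEK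
      (card_coprime_of_isPGroup hKc hEp).symm (Or.inl (isSolvable_of_isPGroup hEp)) x (by
        intro a ha
        rw [← QuotientGroup.ker_mk' K, MonoidHom.mem_ker, map_mul, map_mul, map_mul, map_inv, map_inv]
        have h3 : f a * f x = f x * f a := mem_centralizer_iff.1 hr2 (f a) (mem_map_of_mem f ha)
        show (f x)⁻¹ * (f a * f x * (f a)⁻¹) = 1
        rw [h3]; group)
    have hfd : f (x * d) = f x := by
      rw [map_mul]
      have : f d = 1 := (QuotientGroup.eq_one_iff d).2 hd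
      rw [this, mul_one]
    obtain ⟨k, hk⟩ := BlockPP.exists_orderOf_pp hp.out (x * d)
    have h4 : BlockPP.pp p (x * d) ∈ E := hEfull _ (BlockPP.pp_mem hxd)
      (IsPGroup.of_card (n := k) (by rw [Nat.card_zpowers, hk]))
    have h5 : f (BlockPP.pp p (x * d)) = f x := by
      rw [← BlockPP.pp_map hp.out, hfd]
      apply BlockPP.pp_eq_self hp.out
      obtain ⟨k, hk⟩ := IsPGroup.iff_orderOf.1 hRp ⟨f x, hr1⟩
      exact ⟨k, by rw [← hk, ← Subgroup.orderOf_coe]⟩
    exact ⟨_, h4, h5⟩
  -- step 2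
  have hRQ : R ⊓ Q.map f = ⊥ := by
    exact (disjoint_of_coprime_natCard (card_coprime_of_isPGroup hQ' hRp).symm).eq_bot
  have step2 : R ⊓ centralizer ((E.map f : Subgroup (H ⧸ K)) : Set (H ⧸ K)) ≤
      centralizer ((Q.map f : Subgroup (H ⧸ K)) : Set (H ⧸ K)) := by
    intro r hr
    rw [mem_centralizer_iff]
    intro q hq
    have hrE := step1 hr
    have h3 : ⁅r, q⁆ ∈ R ⊓ Q.map f := by
      refine ⟨?_, ?_⟩
      · have : ⁅r, q⁆ = r * (q * r⁻¹ * q⁻¹) := by rw [commutatorElement_def]; group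
        rw [this]
        exact R.mul_mem hr.1 (hRn.conj_mem _ (R.inv_mem hr.1) q)
      · have : ⁅r, q⁆ = (r * q * r⁻¹) * q⁻¹ := by rw [commutatorElement_def]
        rw [this]
        exact (Q.map f).mul_mem ((mem_normalizer_iff.1 (hEQ' hrE) q).1 hq) ((Q.map f).inv_mem hq)
    rw [hRQ, mem_bot, commutatorElement_eq_one_iff_mul_comm] at h3
    exact h3.symm
  -- step 3
  have step3 : Q.map f ≤ centralizer (R : Set (H ⧸ K)) := by
    by_cases hp2 : p = 2
    · have hcl := (h2 hp2).quotient K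
      apply quadratic_case (E.map f) (Q.map f) R hE' hQ' hEQ' hRp (hnormtop _) (hnormtop _) step2
      have hS : IsPGroup p (R ⊔ E.map f : Subgroup (H ⧸ K)) := hRp.to_sup_of_normal_left' hE' (hnormtop _)
      rw [eq_bot_iff, ← hcl _ hS]
      exact commutator_mono (commutator_mono le_sup_left le_sup_right) le_sup_right
    · exact S3737.result hp2 (E.map f) (Q.map f) R hE' hQ' hEQ' hRp (hnormtop _) (hnormtop _) step2
  -- step 4
  obtain ⟨P⟩ : Nonempty (Sylow p ↥(Cfsg.pPrimePCore p H)) := inferInstance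
  set P' : Subgroup H := (P : Subgroup ↥(Cfsg.pPrimePCore p H)).map (Cfsg.pPrimePCore p H).subtype with hP'
  have hP'p : IsPGroup p P' := P.isPGroup'.map _
  have hP'le : P' ≤ Cfsg.pPrimePCore p H := map_subtype_le _
  have hfP : ∀ x ∈ Cfsg.pPrimePCore p H, f x ∈ R := fun x hx => hx
  have hQK : Q ≤ normalizer (K : Set H) := by
    rw [normalizer_eq_top_iff.mpr (inferInstance : K.Normal)]; exact le_top
  set L : Subgroup H := K ⊔ Q with hL
  have hLc : (Nat.card L).Coprime p := Cores.card_sup_coprime hQK hKc hQ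
  have hcomm : ∀ x ∈ P', ∀ l ∈ L, ⁅l, x⁆ ∈ K := by
    intro x hx l hl
    have hfl : f l ∈ Q.map f := by
      have : f l ∈ L.map f := mem_map_of_mem f hl
      rw [hL, Subgroup.map_sup, (Subgroup.map_eq_bot_iff K).2 (by rw [hf, QuotientGroup.ker_mk']), bot_sup_eq] at this
      exact this
    have h3 := step3 hfl
    have h4 : f x * f l = f l * f x := mem_centralizer_iff.1 h3 (f x) (hfP x (hP'le hx))
    rw [← QuotientGroup.ker_mk' K, MonoidHom.mem_ker, map_commutatorElement]
    exact commutatorElement_eq_one_iff_mul_comm.2 h4.symm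
  have hPL : P' ≤ normalizer (L : Set H) := by
    intro x hx
    apply PUtil.mem_normalizer_of_conj_mem
    intro l hl
    have h3 : ⁅x, l⁆ ∈ K := by
      rw [← inv_mem_iff, commutatorElement_inv]
      exact hcomm x hx l hl
    have : x * l * x⁻¹ = ⁅x, l⁆ * l := by rw [commutatorElement_def]; group
    rw [this]
    exact L.mul_mem (mem_sup_left h3) hl
  have hLP : ⁅L, P'⁆ ≤ K := by
    rw [commutator_le]
    intro l hl x hx
    exact hcomm x hx l hl
  have hcopPL : (Nat.card P').Coprime (Nat.card L) := (card_coprime_of_isPGroup hLc hP'p).symm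
  have h5 := commutator_sup_centralizer hPL hcopPL (Or.inl (isSolvable_of_isPGroup hP'p))
  have h6 : L ⊓ centralizer (P' : Set H) ≤ K := by
    rintro x ⟨hx1, hx2⟩
    have h7 : x ∈ Cfsg.pPrimePCore p H := hcon P hx2
    have h8 : f x ∈ R := hfP x h7
    obtain ⟨k, hk⟩ := IsPGroup.iff_orderOf.1 hRp ⟨f x, h8⟩
    rw [← Subgroup.orderOf_coe] at hk
    have h9 : orderOf (f x) ∣ orderOf x := orderOf_map_dvd f x
    have h10 : orderOf x ∣ Nat.card L := by
      have := orderOf_dvd_natCard (⟨x, hx1⟩ : L)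
      rwa [← Subgroup.orderOf_coe] at this
    have h11 : (orderOf (f x)).Coprime p := Nat.Coprime.coprime_dvd_left (h9.trans h10) hLc
    have h12 : orderOf (f x) = 1 := by
      have hk' : orderOf (f x) = p ^ k := hk
      rw [hk'] at h11 ⊢
      rcases Nat.eq_zero_or_pos k with rfl | hk0
      · rfl
      · exfalso
        rw [Nat.coprime_comm, Nat.Prime.coprime_iff_not_dvd hp.out] at h11
        exact h11 (dvd_pow_self p hk0.ne')
    rw [orderOf_eq_one_iff] at h12
    exact (QuotientGroup.eq_one_iff x).1 h12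
  have h7 : L ≤ K := by rw [← h5]; exact sup_le hLP h6
  exact le_sup_right.trans h7

end Cfsg.Agent.H2.Constr
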