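import Mathlib
import Cfsg.Agent.Lib.SchurMult
import Cfsg.Agent.H2.SchurMeta
set_option autoImplicit false

open scoped commutatorElement
open Cfsg.Agent.Lib.SchurMult Cfsg.Agent.H2.SchurMeta

namespace Cfsg.Agent.H2.DihedralSchur

open QuaternionGroup DihedralGroup

/-- the map from the dicyclic group to the dihedral group -/
def qd (n : ℕ) : QuaternionGroup n →* DihedralGroup n where
  toFun x := match x with
    | .a i => .r (ZMod.castHom (Dvd.intro_left 2 rfl) (ZMod n) i)
    | .xa i => .sr (ZMod.castHom (Dvd.intro_left 2 rfl) (ZMod n) i)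
  map_one' := by
    rw [QuaternionGroup.one_def, DihedralGroup.one_def]
    simp only [map_zero]
  map_mul' := by
    rintro (i | i) (j | j)
    · simp only [a_mul_a, r_mul_r, map_add]
    · simp only [a_mul_xa, r_mul_sr, map_sub]
    · simp only [xa_mul_a, sr_mul_r, map_add]
    · simp only [xa_mul_xa, sr_mul_sr, map_sub, map_add, map_natCast, CharP.cast_eq_zero, zero_add]

theorem qd_surjective (n : ℕ) : Function.Surjective (qd n) := by
  rintro (i | i)
  · obtain ⟨j, rfl⟩ := ZMod.castHom_surjective (Dvd.intro_left 2 rfl : n ∣ 2 * n) i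
    exact ⟨.a j, rfl⟩
  · obtain ⟨j, rfl⟩ := ZMod.castHom_surjective (Dvd.intro_left 2 rfl : n ∣ 2 * n) i
    exact ⟨.xa j, rfl⟩

theorem two_n_zero (n : ℕ) : ((n : ZMod (2 * n)) + n) = 0 := by
  have : ((2 * n : ℕ) : ZMod (2 * n)) = 0 := CharP.cast_eq_zero _ _
  rw [← this]; push_cast; ring

theorem mem_ker_qd {n : ℕ} (x : QuaternionGroup n) (hx : x ∈ (qd n).ker) : x = 1 ∨ x = .a n := by
  rw [MonoidHom.mem_ker] at hx
  match x, hx with
  | .a i, hx =>
    change DihedralGroup.r _ = DihedralGroup.r 0 at hx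
    have h1 : ZMod.castHom (Dvd.intro_left 2 rfl : n ∣ 2 * n) (ZMod n) i = 0 := by
      injection hx
    obtain ⟨k, rfl⟩ := ZMod.intCast_surjective i
    rw [map_intCast, ZMod.intCast_zmod_eq_zero_iff_dvd] at h1
    obtain ⟨l, rfl⟩ := h1
    obtain ⟨q, hq⟩ := Int.even_or_odd' l
    have h2 := two_n_zero n
    rcases hq with rfl | rfl
    · left
      rw [QuaternionGroup.one_def]
      congr 1
      push_cast
      linear_combination (q : ZMod (2*n)) * h2
    · right
      congr 1
      push_cast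
      linear_combination (q : ZMod (2*n)) * h2
  | .xa i, hx =>
    exact absurd hx (by intro h; change DihedralGroup.sr _ = DihedralGroup.r 0 at h; injection h)

theorem qd_stem (n : ℕ) [NeZero n] (hn : Even n) :
    Cfsg.IsStemExtension (qd n) ∧ Nat.card (qd n).ker = 2 := by
  have h2 := two_n_zero n
  refine ⟨⟨qd_surjective n, ?_, ?_⟩, ?_⟩
  · intro x hx
    rcases mem_ker_qd x hx with rfl | rfl
    · exact one_mem _
    · rw [Subgroup.mem_center_iff]
      rintro (i | i)
      · rw [a_mul_a, a_mul_a, add_comm]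
      · rw [a_mul_xa, xa_mul_a]
        congr 1
        linear_combination h2
  · intro x hx
    rcases mem_ker_qd x hx with rfl | rfl
    · exact one_mem _
    · obtain ⟨k, hk⟩ := hn
      have h3 : (QuaternionGroup.a (n : ZMod (2 * n))) =
          ⁅(QuaternionGroup.a (k : ZMod (2 * n))), (QuaternionGroup.xa (0 : ZMod (2 * n)))⁆ := by
        rw [commutatorElement_def, eq_mul_inv_iff_mul_eq, eq_mul_inv_iff_mul_eq]
        rw [a_mul_xa, xa_mul_a, a_mul_xa]
        congr 1
        have : (n : ZMod (2 * n)) = k + k := by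
          have h5 : ((n : ℕ) : ZMod (2 * n)) = ((k + k : ℕ) : ZMod (2 * n)) := congrArg _ hk
          rw [h5]; push_cast; rfl
        linear_combination (-1 : ZMod (2 * n)) * this
      rw [h3]
      exact Subgroup.commutator_mem_commutator (Subgroup.mem_top _) (Subgroup.mem_top _)
  · have h3 := (qd n).ker.card_mul_index
    rw [Subgroup.index_ker, MonoidHom.range_eq_top.mpr (qd_surjective n), Subgroup.card_top,
      Nat.card_eq_fintype_card, Nat.card_eq_fintype_card, Nat.card_eq_fintype_card,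
      DihedralGroup.card, QuaternionGroup.card] at h3
    rw [Nat.card_eq_fintype_card]
    have hn0 : 0 < n := Nat.pos_of_ne_zero (NeZero.ne n)
    have : Fintype.card (qd n).ker * (2 * n) = 2 * (2 * n) := by rw [h3]; ring
    exact Nat.eq_of_mul_eq_mul_right (by positivity) this

theorem closure_quaternion (n : ℕ) :
    Subgroup.closure {(QuaternionGroup.a 1 : QuaternionGroup n), QuaternionGroup.xa 0} = ⊤ := by
  rw [eq_top_iff]
  have ha : ∀ i : ZMod (2 * n), QuaternionGroup.a i ∈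
      Subgroup.closure {(QuaternionGroup.a 1 : QuaternionGroup n), QuaternionGroup.xa 0} := by
    intro i
    obtain ⟨k, rfl⟩ := ZMod.intCast_surjective i
    have h1 : (QuaternionGroup.a 1 : QuaternionGroup n) ∈
      Subgroup.closure {(QuaternionGroup.a 1 : QuaternionGroup n), QuaternionGroup.xa 0} :=
      Subgroup.subset_closure (by simp)
    let f : Multiplicative (ZMod (2 * n)) →* QuaternionGroup n :=
      { toFun := fun i => .a i.toAdd, map_one' := rfl, map_mul' := fun _ _ => rfl }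
    have h3 : (QuaternionGroup.a (k : ZMod (2 * n))) = (QuaternionGroup.a 1) ^ k := by
      have h4 := map_zpow f (Multiplicative.ofAdd (1 : ZMod (2 * n))) k
      have h5 : (Multiplicative.ofAdd (1 : ZMod (2 * n))) ^ k =
          Multiplicative.ofAdd (k : ZMod (2 * n)) := by
        rw [← ofAdd_zsmul, zsmul_one]
      rw [h5] at h4
      exact h4
    rw [h3]
    exact zpow_mem h1 k
  rintro (i | i) _
  · exact ha i
  · have h1 : (QuaternionGroup.xa 0 : QuaternionGroup n) ∈
      Subgroup.closure {(QuaternionGroup.a 1 : QuaternionGroup n), QuaternionGroup.xa 0} :=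
      Subgroup.subset_closure (by simp)
    have := mul_mem h1 (ha i)
    rwa [xa_mul_a, zero_add] at this

theorem closure_dihedral (n : ℕ) :
    Subgroup.closure {(DihedralGroup.r 1 : DihedralGroup n), DihedralGroup.sr 0} = ⊤ := by
  rw [eq_top_iff]
  have ha : ∀ i : ZMod n, DihedralGroup.r i ∈
      Subgroup.closure {(DihedralGroup.r 1 : DihedralGroup n), DihedralGroup.sr 0} := by
    intro i
    obtain ⟨k, rfl⟩ := ZMod.intCast_surjective i
    rw [← DihedralGroup.r_one_zpow]
    exact zpow_mem (Subgroup.subset_closure (by simp)) k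
  rintro (i | i) _
  · exact ha i
  · have h1 : (DihedralGroup.sr 0 : DihedralGroup n) ∈
      Subgroup.closure {(DihedralGroup.r 1 : DihedralGroup n), DihedralGroup.sr 0} :=
      Subgroup.subset_closure (by simp)
    have := mul_mem h1 (ha i)
    rwa [sr_mul_r, zero_add] at this

/-- the order of the commutator of the chosen generators in a stem extension -/
theorem card_ker_mul {Γ G : Type*} [Group Γ] [Group G] [Finite Γ] (σ : Γ →* G)
    (hσ : Cfsg.IsStemExtension σ) (a b : G) (A B : Γ) (hA : σ A = a) (hB : σ B = b)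
    (hgen : Subgroup.closure {a, b} = ⊤) (r : ℤ) (hr : b * a * b⁻¹ = a ^ r) :
    Nat.card σ.ker * orderOf ⁅b, a⁆ = orderOf ⁅B, A⁆ ∧ A * ⁅B, A⁆ = ⁅B, A⁆ * A ∧
      B * ⁅B, A⁆ * B⁻¹ = ⁅B, A⁆ ^ r ∧ commutator Γ = Subgroup.zpowers ⁅B, A⁆ := by
  have hG : Finite G := Finite.of_surjective σ hσ.1
  subst hA hB
  obtain ⟨h1, h2, h3⟩ := commutator_eq_zpowers σ hσ.2.1 A B hgen r (by
    rw [map_mul, map_mul, map_inv, hr, map_zpow])
  have hid : (MonoidHom.id G).ker ≤ Subgroup.center G := by rw [MonoidHom.ker_id]; exact bot_le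
  obtain ⟨h4, -, -⟩ := commutator_eq_zpowers (MonoidHom.id G) hid (σ A) (σ B) hgen r hr
  have h5 := card_commutator_stem σ hσ
  rw [h1, h4, Nat.card_zpowers, Nat.card_zpowers] at h5
  exact ⟨h5.symm, h2, h3, h1⟩

theorem quaternion_trivial (n : ℕ) [NeZero n] :
    Cfsg.HasCyclicSchurMultiplier (QuaternionGroup n) 1 := by
  apply hasCyclic_one_of
  intro Γ _ _ σ hσ
  obtain ⟨A, hA⟩ := hσ.1 (QuaternionGroup.a 1)
  obtain ⟨B, hB⟩ := hσ.1 (QuaternionGroup.xa 0)
  have hr : (QuaternionGroup.xa 0 : QuaternionGroup n) * QuaternionGroup.a 1 *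
      (QuaternionGroup.xa 0)⁻¹ = (QuaternionGroup.a 1) ^ (-1 : ℤ) := by
    rw [zpow_neg_one, mul_inv_eq_iff_eq_mul, eq_inv_mul_iff_mul_eq, xa_mul_a, a_mul_xa]
    congr 1
    ring
  obtain ⟨h1, h2, -, -⟩ := card_ker_mul σ hσ _ _ A B hA hB (closure_quaternion n) (-1) hr
  have h3 : ⁅B, A⁆ ^ n = 1 := by
    have h4 := comm_zpow_right h2 (n : ℤ)
    rw [zpow_natCast, zpow_natCast] at h4
    rw [← h4, commutatorElement_eq_one_iff_mul_comm]
    have h5 : (B ^ 2)⁻¹ * A ^ n ∈ Subgroup.center Γ := by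
      apply hσ.2.1
      rw [MonoidHom.mem_ker, map_mul, map_inv, map_pow, map_pow, hA, hB, QuaternionGroup.a_one_pow,
        QuaternionGroup.xa_sq, inv_mul_cancel]
    have h6 := Subgroup.mem_center_iff.mp h5 B
    have h7 : A ^ n = B ^ 2 * ((B ^ 2)⁻¹ * A ^ n) := by rw [mul_inv_cancel_left]
    rw [h7, ← mul_assoc, mul_assoc (B ^ 2), ← h6]
    group
  have h8 : orderOf ⁅(QuaternionGroup.xa 0 : QuaternionGroup n), (QuaternionGroup.a 1 : QuaternionGroup n)⁆ = n := by
    have h9 : ⁅(QuaternionGroup.xa 0 : QuaternionGroup n), (QuaternionGroup.a 1 : QuaternionGroup n)⁆ =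
        ((QuaternionGroup.a 1) ^ 2)⁻¹ := by
      rw [commutatorElement_def, hr]; group
    rw [h9, orderOf_inv, orderOf_pow' _ two_ne_zero, QuaternionGroup.orderOf_a_one,
      Nat.gcd_mul_right_left, Nat.mul_div_cancel_left _ two_pos]
  rw [h8] at h1
  have h10 := orderOf_dvd_of_pow_eq_one h3
  rw [← h1] at h10
  have hn : 0 < n := Nat.pos_of_ne_zero (NeZero.ne n)
  have h11 : Nat.card σ.ker ∣ 1 := by
    apply Nat.dvd_of_mul_dvd_mul_right hn
    rwa [one_mul]
  exact Subgroup.card_eq_one.mp (Nat.dvd_one.mp h11)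

theorem dihedral_key (n : ℕ) [NeZero n] {Γ : Type*} [Group Γ] [Finite Γ]
    (σ : Γ →* DihedralGroup n) (hσ : Cfsg.IsStemExtension σ) :
    Nat.card σ.ker * (n / Nat.gcd n 2) ∣ n := by
  obtain ⟨A, hA⟩ := hσ.1 (DihedralGroup.r 1)
  obtain ⟨B, hB⟩ := hσ.1 (DihedralGroup.sr 0)
  have hr : (DihedralGroup.sr 0 : DihedralGroup n) * DihedralGroup.r 1 *
      (DihedralGroup.sr 0)⁻¹ = (DihedralGroup.r 1) ^ (-1 : ℤ) := by
    rw [zpow_neg_one, mul_inv_eq_iff_eq_mul, eq_inv_mul_iff_mul_eq, sr_mul_r, r_mul_sr]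
    congr 1
    ring
  obtain ⟨h1, h2, -, -⟩ := card_ker_mul σ hσ _ _ A B hA hB (closure_dihedral n) (-1) hr
  have h3 : ⁅B, A⁆ ^ n = 1 := by
    have h4 := comm_zpow_right h2 (n : ℤ)
    rw [zpow_natCast, zpow_natCast] at h4
    rw [← h4, commutatorElement_eq_one_iff_mul_comm]
    have h5 : A ^ n ∈ Subgroup.center Γ := by
      apply hσ.2.1
      rw [MonoidHom.mem_ker, map_pow, hA, DihedralGroup.r_one_pow_n]
    exact Subgroup.mem_center_iff.mp h5 B
  have h8 : orderOf ⁅(DihedralGroup.sr 0 : DihedralGroup n), (DihedralGroup.r 1 : DihedralGroup n)⁆ =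
      n / Nat.gcd n 2 := by
    have h9 : ⁅(DihedralGroup.sr 0 : DihedralGroup n), (DihedralGroup.r 1 : DihedralGroup n)⁆ =
        ((DihedralGroup.r 1) ^ 2)⁻¹ := by
      rw [commutatorElement_def, hr]; group
    rw [h9, orderOf_inv, orderOf_pow' _ two_ne_zero, DihedralGroup.orderOf_r_one]
  rw [h8] at h1
  rw [h1]
  exact orderOf_dvd_of_pow_eq_one h3

theorem dihedral_odd (n : ℕ) (hn : Odd n) : Cfsg.HasCyclicSchurMultiplier (DihedralGroup n) 1 := by
  have : NeZero n := ⟨hn.pos.ne'⟩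
  apply hasCyclic_one_of
  intro Γ _ _ σ hσ
  have h := dihedral_key n σ hσ
  have h2 : Nat.gcd n 2 = 1 := (Nat.coprime_two_right.mpr hn)
  rw [h2, Nat.div_one] at h
  have h11 : Nat.card σ.ker ∣ 1 := by
    apply Nat.dvd_of_mul_dvd_mul_right hn.pos
    rwa [one_mul]
  exact Subgroup.card_eq_one.mp (Nat.dvd_one.mp h11)

theorem dihedral_even (n : ℕ) [NeZero n] (hn : Even n) :
    Cfsg.HasCyclicSchurMultiplier (DihedralGroup n) 2 := by
  obtain ⟨h1, h2⟩ := qd_stem n hn
  refine hasCyclic_of (qd n) h1 h2 ?_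
  intro Γ _ _ σ hσ
  have h := dihedral_key n σ hσ
  obtain ⟨k, rfl⟩ := even_iff_two_dvd.mp hn
  have hk : 0 < k := by
    rcases Nat.eq_zero_or_pos k with rfl | h
    · exact absurd rfl (NeZero.ne (2 * 0))
    · exact h
  have h3 : Nat.gcd (2 * k) 2 = 2 := Nat.gcd_eq_right (Dvd.intro _ rfl)
  rw [h3, Nat.mul_div_cancel_left _ two_pos] at h
  have h4 : Nat.card σ.ker ∣ 2 := Nat.dvd_of_mul_dvd_mul_right hk h
  refine ⟨?_, h4⟩
  rcases (Nat.dvd_prime Nat.prime_two).mp h4 with h5 | h5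
  · have : Subsingleton σ.ker := (Nat.card_eq_one_iff_unique.mp h5).1
    infer_instance
  · have : Fact (Nat.Prime 2) := ⟨Nat.prime_two⟩
    exact isCyclic_of_prime_card h5

end Cfsg.Agent.H2.DihedralSchur
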