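import Mathlib
import Cfsg.Prelude
import Cfsg.Agent.H2.PGraph
import Cfsg.Agent.S0042
import Cfsg.Agent.Lib.FrobAct
import Cfsg.Agent.Lib.SchurZas

set_option autoImplicit false

/-! Structure of 2-Frobenius groups. -/

namespace Cfsg.Agent.H2.TwoFrob

open Subgroup Cfsg.Agent.Lib Cfsg.Agent.Lib.Cores Cfsg.Agent.Lib.FrobGrp Cfsg.Agent.H2.CND Cfsg.Agent.H2.CNC Cfsg.Agent.H2.PGraph
open scoped Pointwise

universe u

theorem not_comm_out {G : Type u} [Group G] {C N : Subgroup G} (hC : Cfsg.IsFrobeniusComplement C) (hk : Cfsg.frobeniusKernel C = (N : Set G)) {x n : G}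
    (hx : x ∉ N) (hn : n ∈ N) (h : n * x = x * n) : n = 1 := by
  have hxk : x ∉ Cfsg.frobeniusKernel C := by rw [hk]; exact hx
  rw [mem_frobeniusKernel] at hxk
  push Not at hxk
  obtain ⟨hx1, g, hg⟩ := hxk
  haveI hNn := kernel_normal hk
  have h1 : g⁻¹ * x * g ≠ 1 := by
    intro h1
    apply hx1
    have : x = g * (g⁻¹ * x * g) * g⁻¹ := by group
    rw [this, h1]; group
  have h2 : g⁻¹ * n * g ∈ N := by
    have := hNn.conj_mem n hn g⁻¹
    rwa [inv_inv] at this
  have h3 := kernel_not_commute hC hk hg h1 h2 (by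
    calc g⁻¹ * n * g * (g⁻¹ * x * g) = g⁻¹ * (n * x) * g := by group
      _ = g⁻¹ * (x * n) * g := by rw [h]
      _ = _ := by group)
  have : n = g * (g⁻¹ * n * g) * g⁻¹ := by group
  rw [this, h3]; group

theorem order_mul {G : Type u} [Group G] {x y : G} {p q : ℕ} (hp : p.Prime) (hq : q.Prime) (hpq : p ≠ q) (hx : orderOf x = p) (hy : orderOf y = q)
    (h : x * y = y * x) : ∃ g : G, orderOf g = p * q :=
  ⟨x * y, by
    rw [(show Commute x y from h).orderOf_mul_eq_mul_orderOf_of_coprime, hx, hy]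
    rw [hx, hy]; exact (Nat.coprime_primes hp hq).mpr hpq⟩

/-- fixed points -/
theorem exists_pq {G : Type u} [Group G] [Finite G] (H K : Subgroup G) [H.Normal] [K.Normal] (hlt : H < K) {C : Subgroup K}
    (hCf : Cfsg.IsFrobeniusComplement C) (hCk : Cfsg.frobeniusKernel C = (H.subgroupOf K : Set K)) {C₂ : Subgroup (G ⧸ H)}
    (hC₂f : Cfsg.IsFrobeniusComplement C₂) (hC₂k : Cfsg.frobeniusKernel C₂ = (K.map (QuotientGroup.mk' H) : Set (G ⧸ H)))
    (hHnil : Group.IsNilpotent H) (hB : Nat.card C = Nat.card (K.map (QuotientGroup.mk' H))) {p q : ℕ} (hp : p.Prime) (hq : q.Prime) (hpq : p ≠ q)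
    (hpH : p ∣ Nat.card H) (hq2 : q ∣ Nat.card C₂) (hpC : ¬ p ∣ Nat.card C) : ∃ g : G, orderOf g = p * q := by
  classical
  haveI : Fact p.Prime := ⟨hp⟩
  haveI : Fact q.Prime := ⟨hq⟩
  have hc := kernel_isComplement' hCf hCk
  have hc2 := kernel_isComplement' hC₂f hC₂k
  have hcop1 := kernel_coprime hCf hCk
  have hcop2 := kernel_coprime hC₂f hC₂k
  have hHKcard : Nat.card (H.subgroupOf K) = Nat.card H := Nat.card_congr (subgroupOfEquivOfLe hlt.le).toEquiv
  obtain ⟨C', hC'⟩ : ∃ C', C' = C.map K.subtype := ⟨_, rfl⟩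
  have hC'card : Nat.card C' = Nat.card C := by
    rw [hC']; exact Nat.card_congr (C.equivMapOfInjective _ K.subtype_injective).symm.toEquiv
  have hC'K : C' ≤ K := hC' ▸ map_subtype_le _
  have hHC : H ⊔ C' = K := by
    apply le_antisymm (sup_le hlt.le hC'K)
    intro x hx
    have h1 : (⟨x, hx⟩ : K) ∈ H.subgroupOf K ⊔ C := by rw [hc.sup_eq_top]; exact mem_top _
    haveI := kernel_normal hCk
    obtain ⟨k, hk, a, ha, h⟩ := mem_sup_of_normal_left.mp h1
    have h2 : x = (k : G) * (a : G) := (congrArg Subtype.val h).symm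
    rw [h2]
    exact mul_mem ((le_sup_left : H ≤ _) (mem_subgroupOf.mp hk)) ((le_sup_right : C' ≤ _) (hC' ▸ ⟨a, ha, rfl⟩))
  have hHC1 : H ⊓ C' = ⊥ := by
    rw [eq_bot_iff]
    intro x hx
    obtain ⟨h1, h2⟩ := mem_inf.mp hx
    rw [hC'] at h2
    obtain ⟨c, hc', rfl⟩ := h2
    have h3 : c ∈ H.subgroupOf K ⊓ C := mem_inf.mpr ⟨mem_subgroupOf.mpr h1, hc'⟩
    rw [hc.disjoint.eq_bot] at h3
    rw [mem_bot.mp h3]; exact one_mem _
  have hfpH : ∀ c ∈ C', c ≠ 1 → ∀ x ∈ H, x * c = c * x → x = 1 := by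
    intro c hcC hc1 x hx hxc
    rw [hC'] at hcC
    obtain ⟨c, hcC, rfl⟩ := hcC
    have h1 := kernel_not_commute hCf hCk hcC (fun h => hc1 (by rw [h, map_one])) (k := ⟨x, hlt.le hx⟩) (mem_subgroupOf.mpr hx) (Subtype.ext hxc)
    exact congrArg Subtype.val h1
  have hC'1 : C' ≠ ⊥ := by
    intro h
    apply hCf.1
    rw [hC', Subgroup.map_eq_bot_iff_of_injective _ K.subtype_injective] at h
    exact h
  obtain ⟨F, hF⟩ : ∃ F, F = normalizer (C' : Set G) := ⟨_, rfl⟩
  have hC'F : C' ≤ F := hF ▸ le_normalizer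
  -- Frattini
  have hHF : H ⊔ F = ⊤ := by
    rw [eq_top_iff]
    intro g _
    have hcopC : (Nat.card C').Coprime (Nat.card H) := by rw [hC'card, ← hHKcard]; exact hcop1.symm
    obtain ⟨n, hn, hnC⟩ := SchurZas.conj_of_coprime' (N := H) (A := MulAut.conj g • C') (B := C')
      (by rw [normalizer_eq_top]; exact le_top) (by rw [SchurZas.card_conj_smul]; exact hcopC) hcopC (by
        rw [hHC]
        apply le_antisymm
        · apply sup_le hlt.le
          intro x hx
          rw [SchurZas.mem_conj_smul_iff] at hx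
          have h1 := (inferInstance : K.Normal).conj_mem _ (hC'K hx) g
          have h2 : g * (g⁻¹ * x * g) * g⁻¹ = x := by group
          rwa [h2] at h1
        · rw [← hHC]
          apply sup_le le_sup_left
          intro c hcC
          -- `g⁻¹ c g ∈ K = H C'`
          have h1 : g⁻¹ * c * g ∈ H ⊔ C' := by
            rw [hHC]
            have := (inferInstance : K.Normal).conj_mem _ (hC'K hcC) g⁻¹
            rwa [inv_inv] at this
          obtain ⟨h, hh, c', hc', h2⟩ := mem_sup_of_normal_left.mp h1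
          have h3 : c = (g * h * g⁻¹) * (g * c' * g⁻¹) := by
            have : c = g * (g⁻¹ * c * g) * g⁻¹ := by group
            rw [this, ← h2]; group
          rw [h3]
          refine mul_mem ((le_sup_left : H ≤ _) ((inferInstance : H.Normal).conj_mem _ hh g)) ((le_sup_right : MulAut.conj g • C' ≤ _) ?_)
          rw [SchurZas.mem_conj_smul_iff]
          have : g⁻¹ * (g * c' * g⁻¹) * g = c' := by group
          rw [this]; exact hc') (Or.inr (by haveI := hHnil; infer_instance))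
    rw [smul_smul, ← map_mul] at hnC
    have h1 : n * g ∈ F := hF ▸ Coprime.mem_normalizer_of_conj_smul_eq hnC
    have h2 : g = n⁻¹ * (n * g) := by group
    rw [h2]
    exact mul_mem ((le_sup_left : H ≤ _) (inv_mem hn)) ((le_sup_right : F ≤ _) h1)
  have hHF1 : H ⊓ F = ⊥ := by
    rw [eq_bot_iff]
    intro x hx
    obtain ⟨h1, h2⟩ := mem_inf.mp hx
    obtain ⟨c, hc1⟩ := ne_bot_iff_exists_ne_one.mp hC'1
    have h3 : x * (c : G) * x⁻¹ * (c : G)⁻¹ ∈ H ⊓ C' := by
      refine mem_inf.mpr ⟨?_, ?_⟩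
      · have e : x * (c : G) * x⁻¹ * (c : G)⁻¹ = x * ((c : G) * x⁻¹ * (c : G)⁻¹) := by group
        rw [e]
        exact mul_mem h1 ((inferInstance : H.Normal).conj_mem _ (inv_mem h1) _)
      · rw [hF] at h2
        exact mul_mem ((mem_normalizer_iff.mp h2 _).mp c.2) (inv_mem c.2)
    rw [hHC1, mem_bot] at h3
    exact mem_bot.mpr (hfpH c c.2 (fun h => hc1 (Subtype.ext h)) x h1 (mul_inv_eq_iff_eq_mul.mp (mul_inv_eq_one.mp h3)))
  -- the order of `F`
  have hFcard : Nat.card F = Nat.card (G ⧸ H) := by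
    have h1 : IsComplement' H F := isComplement'_of_disjoint_and_mul_eq_univ (disjoint_iff.mpr hHF1) (by
      rw [← normal_mul H F]
      rw [hHF]; rfl)
    rw [← h1.symm.index_eq_card]; rfl
  have hBC : Nat.card (K.map (QuotientGroup.mk' H)) * Nat.card C₂ = Nat.card (G ⧸ H) := hc2.card_mul_card
  obtain ⟨D, hD⟩ : ∃ D, D = C'.subgroupOf F := ⟨_, rfl⟩
  haveI hDn : D.Normal := by
    rw [hD]; exact normal_subgroupOf_of_le_normalizer (hF ▸ le_rfl)
  have hDcard : Nat.card D = Nat.card C := by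
    rw [hD, Nat.card_congr (subgroupOfEquivOfLe hC'F).toEquiv, hC'card]
  have hDidx : D.index = Nat.card C₂ := by
    have h1 := D.card_mul_index
    rw [hFcard, ← hBC, hDcard, hB] at h1
    exact Nat.eq_of_mul_eq_mul_left Nat.card_pos h1
  obtain ⟨E, hE⟩ := Subgroup.exists_right_complement'_of_coprime (N := D) (by rw [hDidx, hDcard, hB]; exact hcop2)
  have hEcard : Nat.card E = Nat.card C₂ := by rw [← hE.symm.index_eq_card, hDidx]
  have hFK : ∀ x ∈ F, x ∈ K → x ∈ C' := by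
    intro x hxF hxK
    rw [← hHC] at hxK
    obtain ⟨h, hh, c, hcc, rfl⟩ := mem_sup_of_normal_left.mp hxK
    have h1 : h ∈ H ⊓ F := by
      refine mem_inf.mpr ⟨hh, ?_⟩
      have : h = (h * c) * c⁻¹ := by group
      rw [this]; exact mul_mem hxF (inv_mem (hC'F hcc))
    rw [hHF1, mem_bot] at h1
    rw [h1, one_mul]; exact hcc
  have hmapB : ∀ x : G, QuotientGroup.mk' H x ∈ K.map (QuotientGroup.mk' H) → x ∈ K := by
    rintro x ⟨k, hk, h⟩
    have h1 : x⁻¹ * k ∈ H := by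
      rw [← QuotientGroup.eq_one_iff]
      change QuotientGroup.mk' H (x⁻¹ * k) = 1
      rw [map_mul, map_inv, h, inv_mul_cancel]
    have h2 : x = k * (x⁻¹ * k)⁻¹ := by group
    rw [h2]; exact mul_mem hk (inv_mem (hlt.le h1))
  have hD1 : D ≠ ⊥ := by
    intro h
    rw [h, card_bot, ← hC'card] at hDcard
    exact hC'1 (card_eq_one.mp hDcard.symm)
  have hE1 : E ≠ ⊥ := by
    intro h
    rw [h, card_bot] at hEcard
    exact hC₂f.1 (card_eq_one.mp hEcard.symm)
  have hfree : ∀ e ∈ E, e ≠ 1 → ∀ n ∈ D, n * e = e * n → n = 1 := by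
    intro e he he1 n hn hne
    by_contra hn1
    have hnC : (n : G) ∈ C' := by rw [hD] at hn; exact mem_subgroupOf.mp hn
    have heK : (e : G) ∉ K := by
      intro h
      have h1 : e ∈ D ⊓ E := mem_inf.mpr ⟨hD ▸ mem_subgroupOf.mpr (hFK e e.2 h), he⟩
      rw [hE.disjoint.eq_bot] at h1
      exact he1 (mem_bot.mp h1)
    have h2 := not_comm_out hC₂f hC₂k (x := QuotientGroup.mk' H (e : G)) (n := QuotientGroup.mk' H (n : G)) (fun h => heK (hmapB _ h))
      ⟨n, hC'K hnC, rfl⟩ (by rw [← map_mul, ← map_mul]; exact congrArg (fun t : F => QuotientGroup.mk' H (t : G)) hne)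
    have h3 : (n : G) ∈ H ⊓ C' := mem_inf.mpr ⟨(QuotientGroup.eq_one_iff _).mp h2, hnC⟩
    rw [hHC1, mem_bot] at h3
    exact hn1 (Subtype.ext h3)
  obtain ⟨hEf, hEk⟩ := frobenius_of_complement hE.disjoint.eq_bot hE.sup_eq_top hD1 hE1 hfree
  -- the module
  have hOp : Cfsg.pCore p G ≠ ⊥ := by
    intro h
    obtain ⟨P₀⟩ := (inferInstance : Nonempty (Sylow p H))
    haveI hPn := PUtil.sylow_normal_of_nilpotent hHnil P₀
    haveI hPc := P₀.characteristic_of_normal hPn
    have h1 : (P₀ : Subgroup H).map H.subtype ≤ Cfsg.pCore p G := le_pCore inferInstance (P₀.isPGroup'.map _)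
    rw [h, le_bot_iff, Subgroup.map_eq_bot_iff_of_injective _ H.subtype_injective] at h1
    have h2 := P₀.card_eq_multiplicity
    rw [h1, card_bot] at h2
    have h3 : p ∣ p ^ (Nat.card H).factorization p := dvd_pow_self p (hp.factorization_pos_of_dvd Nat.card_pos.ne' hpH).ne'
    rw [← h2] at h3
    exact hp.one_lt.ne' (Nat.dvd_one.mp h3)
  have hOpp := pCore_isPGroup (G := G) p
  haveI hOpn := pCore_normal (G := G) p
  obtain ⟨V, hV⟩ : ∃ V, V = (center (Cfsg.pCore p G)).map (Cfsg.pCore p G).subtype := ⟨_, rfl⟩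
  haveI hVn : V.Normal := by rw [hV]; infer_instance
  have hVp : IsPGroup p V := by rw [hV]; exact (hOpp.to_subgroup _).map _
  have hV1 : V ≠ ⊥ := by
    intro h
    rw [hV, Subgroup.map_eq_bot_iff_of_injective _ (Cfsg.pCore p G).subtype_injective] at h
    haveI := (nontrivial_iff_ne_bot _).mpr hOp
    haveI := hOpp.center_nontrivial
    exact ((nontrivial_iff_ne_bot _).mp this) h
  have hVab : IsMulCommutative V := by
    rw [PUtil.isMulCommutative_iff]
    intro x hx y hy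
    rw [hV] at hx hy
    obtain ⟨a, ha, rfl⟩ := hx
    obtain ⟨b, hb, rfl⟩ := hy
    exact congrArg Subtype.val (mem_center_iff.mp hb a)
  have hVC : ∀ v ∈ V, ∀ c ∈ C', c ≠ 1 → v * c = c * v → v = 1 := by
    intro v hv c hcc hc1 hvc
    have hvH : v ∈ H := by
      by_contra hvH
      have hcH : QuotientGroup.mk' H c ≠ 1 := by
        intro h
        have h3 : c ∈ H ⊓ C' := mem_inf.mpr ⟨(QuotientGroup.eq_one_iff _).mp h, hcc⟩
        rw [hHC1, mem_bot] at h3
        exact hc1 h3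
      have hvB : QuotientGroup.mk' H v ∈ K.map (QuotientGroup.mk' H) := by
        by_contra hvB
        apply hcH
        exact not_comm_out hC₂f hC₂k hvB ⟨c, hC'K hcc, rfl⟩ (by rw [← map_mul, ← map_mul, hvc])
      apply hvH
      obtain ⟨k, hk⟩ := hVp ⟨v, hv⟩
      have hk' : v ^ p ^ k = 1 := congrArg Subtype.val hk
      have h4 : orderOf (QuotientGroup.mk' H v) ∣ p ^ k := by
        apply _root_.orderOf_dvd_of_pow_eq_one
        rw [← map_pow, hk', map_one]
      have h5 : orderOf (QuotientGroup.mk' H v) ∣ Nat.card C := hB ▸ Subgroup.orderOf_dvd_natCard _ hvB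
      have h6 := Nat.dvd_gcd h4 h5
      rw [Nat.Coprime.pow_left k ((Nat.Prime.coprime_iff_not_dvd hp).mpr hpC)] at h6
      exact (QuotientGroup.eq_one_iff v).mp (orderOf_eq_one_iff.mp (Nat.dvd_one.mp h6))
    exact hfpH c hcc hc1 v hvH hvc
  have hfix := FrobAct.fixed_ne_bot V F hVab hV1 (by rw [normalizer_eq_top]; exact le_top) E hEf (by
    rw [hEk]
    change (Nat.card V).Coprime (Nat.card D)
    rw [hDcard]
    obtain ⟨n, hn⟩ := IsPGroup.iff_card.mp hVp
    rw [hn]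
    exact Nat.Coprime.pow_left n ((Nat.Prime.coprime_iff_not_dvd hp).mpr hpC)) (by
    rw [hEk, eq_bot_iff]
    intro v hv
    obtain ⟨hv1, hv2⟩ := mem_inf.mp hv
    obtain ⟨c, hc1⟩ := ne_bot_iff_exists_ne_one.mp hC'1
    have h1 : (c : G) * v = v * c := mem_centralizer_iff.mp hv2 c ⟨⟨c, hC'F c.2⟩, by rw [hD]; exact mem_subgroupOf.mpr c.2, rfl⟩
    exact mem_bot.mpr (hVC v hv1 c c.2 (fun h => hc1 (Subtype.ext h)) h1.symm))
  obtain ⟨v, hv1⟩ := ne_bot_iff_exists_ne_one.mp hfix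
  obtain ⟨hvV, hvE⟩ := mem_inf.mp v.2
  have hv1' : (v : G) ≠ 1 := fun h => hv1 (Subtype.ext h)
  -- an element of order `p`
  have hpv : p ∣ orderOf (v : G) := by
    obtain ⟨k, hk⟩ := hVp ⟨v, hvV⟩
    have hk' : (v : G) ^ p ^ k = 1 := congrArg Subtype.val hk
    obtain ⟨j, _, hj⟩ := (Nat.dvd_prime_pow hp).mp (_root_.orderOf_dvd_of_pow_eq_one hk')
    have hj0 : j ≠ 0 := by rintro rfl; rw [pow_zero] at hj; exact hv1' (orderOf_eq_one_iff.mp hj)
    rw [hj]; exact dvd_pow_self p hj0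
  obtain ⟨k, hk⟩ := exists_prime_power' hp hpv
  obtain ⟨e, he⟩ := exists_prime_orderOf_dvd_card' (G := E) q (hEcard ▸ hq2)
  refine order_mul hp hq hpq hk (y := ((e : F) : G)) (by rw [Subgroup.orderOf_coe, Subgroup.orderOf_coe]; exact he) ?_
  have h1 : ((e : F) : G) * (v : G) = v * ((e : F) : G) := mem_centralizer_iff.mp hvE _ ⟨(e : F), e.2, rfl⟩
  exact ((show Commute ((e : F) : G) (v : G) from h1).pow_right k).eq.symm


theorem orderOf_dvd_of_cyclic {X : Type*} [Group X] [Finite X] (hX : IsCyclic X) {n : ℕ} (hn : n ∣ Nat.card X) : ∃ x : X, orderOf x = n := by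
  obtain ⟨g, hg⟩ := IsCyclic.exists_ofOrder_eq_natCard (α := X)
  obtain ⟨k, hk⟩ := hn
  have hpos : 0 < Nat.card X := Nat.card_pos
  have hk0 : k ≠ 0 := by rintro rfl; rw [mul_zero] at hk; omega
  refine ⟨g ^ k, ?_⟩
  rw [orderOf_pow' g hk0, hg, hk, Nat.gcd_mul_left_left, Nat.mul_div_cancel _ (Nat.pos_of_ne_zero hk0)]

theorem exists_lift_order {G : Type*} [Group G] [Finite G] {Q : Type*} [Group Q] {f : G →* Q} (hf : Function.Surjective f) {n : ℕ} (hn : n ≠ 0)
    (h : ∃ y : Q, orderOf y = n) : ∃ x : G, orderOf x = n := by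
  obtain ⟨y, hy⟩ := h
  obtain ⟨g, rfl⟩ := hf y
  have h1 : n ∣ orderOf g := hy ▸ orderOf_map_dvd f g
  obtain ⟨k, hk⟩ := h1
  have hpos : 0 < orderOf g := orderOf_pos g
  have hk0 : k ≠ 0 := by rintro rfl; rw [mul_zero] at hk; omega
  refine ⟨g ^ k, ?_⟩
  rw [orderOf_pow' g hk0, hk, Nat.gcd_mul_left_left, Nat.mul_div_cancel _ (Nat.pos_of_ne_zero hk0)]

theorem mem_of_pow {G : Type*} [Group G] [Finite G] {B : Subgroup G} [B.Normal] {x : G} {n : ℕ} (hx : x ^ n = 1) (hn : n.Coprime B.index) : x ∈ B := by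
  rw [← QuotientGroup.eq_one_iff]
  have h1 : orderOf (x : G ⧸ B) ∣ n := by
    apply _root_.orderOf_dvd_of_pow_eq_one
    rw [← QuotientGroup.mk_pow, hx]; rfl
  have h2 : orderOf (x : G ⧸ B) ∣ B.index := orderOf_dvd_natCard _
  have h3 := Nat.dvd_gcd h1 h2
  rw [hn] at h3
  exact orderOf_eq_one_iff.mp (Nat.dvd_one.mp h3)

/-- no elements of mixed order -/
theorem no_mixed {G : Type u} [Group G] [Finite G] (H K : Subgroup G) [H.Normal] [K.Normal] (hlt : H < K) {C : Subgroup K}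
    (hCf : Cfsg.IsFrobeniusComplement C) (hCk : Cfsg.frobeniusKernel C = (H.subgroupOf K : Set K)) {C₂ : Subgroup (G ⧸ H)}
    (hC₂f : Cfsg.IsFrobeniusComplement C₂) (hC₂k : Cfsg.frobeniusKernel C₂ = (K.map (QuotientGroup.mk' H) : Set (G ⧸ H)))
    (hB : Nat.card C = Nat.card (K.map (QuotientGroup.mk' H))) {p q : ℕ} (hp : p.Prime) (hq : q.Prime)
    (hpC : p ∣ Nat.card C) (hqC : ¬ q ∣ Nat.card C) {g : G} (hg : orderOf g = p * q) : False := by
  have hc := kernel_isComplement' hCf hCk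
  have hc2 := kernel_isComplement' hC₂f hC₂k
  have hcop1 := kernel_coprime hCf hCk
  have hcop2 := kernel_coprime hC₂f hC₂k
  haveI := kernel_normal hC₂k
  have hHKcard : Nat.card (H.subgroupOf K) = Nat.card H := Nat.card_congr (subgroupOfEquivOfLe hlt.le).toEquiv
  have hBidx : (K.map (QuotientGroup.mk' H)).index = Nat.card C₂ := hc2.symm.index_eq_card
  have hmapB : ∀ x : G, QuotientGroup.mk' H x ∈ K.map (QuotientGroup.mk' H) → x ∈ K := by
    rintro x ⟨k, hk, h⟩
    have h1 : x⁻¹ * k ∈ H := by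
      rw [← QuotientGroup.eq_one_iff]
      change QuotientGroup.mk' H (x⁻¹ * k) = 1
      rw [map_mul, map_inv, h, inv_mul_cancel]
    have h2 : x = k * (x⁻¹ * k)⁻¹ := by group
    rw [h2]; exact mul_mem hk (inv_mem (hlt.le h1))
  obtain ⟨x, hx⟩ : ∃ x, x = g ^ q := ⟨_, rfl⟩
  obtain ⟨y, hy⟩ : ∃ y, y = g ^ p := ⟨_, rfl⟩
  have hxp : x ^ p = 1 := by rw [hx, ← pow_mul, mul_comm q p, ← hg, pow_orderOf_eq_one]
  have hyq : y ^ q = 1 := by rw [hy, ← pow_mul, ← hg, pow_orderOf_eq_one]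
  have hx1 : x ≠ 1 := by
    intro h
    rw [hx] at h
    have h1 := Nat.le_of_dvd hq.pos (_root_.orderOf_dvd_of_pow_eq_one h)
    rw [hg] at h1
    have := hp.two_le
    nlinarith [hq.pos]
  have hy1 : y ≠ 1 := by
    intro h
    rw [hy] at h
    have h1 := Nat.le_of_dvd hp.pos (_root_.orderOf_dvd_of_pow_eq_one h)
    rw [hg] at h1
    have := hq.two_le
    nlinarith [hp.pos]
  have hxy : y * x = x * y := by rw [hx, hy, ← pow_add, ← pow_add, add_comm]
  have hpHn : ¬ p ∣ Nat.card H := fun h => by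
    have h1 := Nat.dvd_gcd (hHKcard.symm ▸ h) hpC
    rw [hcop1] at h1
    exact hp.one_lt.ne' (Nat.dvd_one.mp h1)
  have hpC2 : ¬ p ∣ Nat.card C₂ := fun h => by
    have h1 := Nat.dvd_gcd (hB ▸ hpC) h
    rw [hcop2] at h1
    exact hp.one_lt.ne' (Nat.dvd_one.mp h1)
  have hxH : x ∉ H := by
    intro h
    have h1 : orderOf (⟨x, h⟩ : H) ∣ p := _root_.orderOf_dvd_of_pow_eq_one (Subtype.ext hxp)
    rcases (Nat.dvd_prime hp).mp h1 with h2 | h2
    · exact hx1 (congrArg Subtype.val (orderOf_eq_one_iff.mp h2))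
    · exact hpHn (h2 ▸ orderOf_dvd_natCard _)
  have hxB : QuotientGroup.mk' H x ∈ K.map (QuotientGroup.mk' H) := by
    apply mem_of_pow (n := p)
    · rw [← map_pow, hxp, map_one]
    · rw [hBidx]; exact (Nat.Prime.coprime_iff_not_dvd hp).mpr hpC2
  have hxK := hmapB x hxB
  by_cases hyH : y ∈ H
  · have h1 := not_comm_out hCf hCk (x := ⟨x, hxK⟩) (n := ⟨y, hlt.le hyH⟩) (fun h => hxH (mem_subgroupOf.mp h)) (mem_subgroupOf.mpr hyH) (Subtype.ext hxy)
    exact hy1 (congrArg Subtype.val h1)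
  · have hyB : QuotientGroup.mk' H y ∉ K.map (QuotientGroup.mk' H) := by
      intro h
      apply hyH
      have h2 : (⟨QuotientGroup.mk' H y, h⟩ : K.map (QuotientGroup.mk' H)) ^ q = 1 := Subtype.ext (by
        change (QuotientGroup.mk' H y) ^ q = 1
        rw [← map_pow, hyq, map_one])
      rcases (Nat.dvd_prime hq).mp (_root_.orderOf_dvd_of_pow_eq_one h2) with h3 | h3
      · exact (QuotientGroup.eq_one_iff y).mp (congrArg Subtype.val (orderOf_eq_one_iff.mp h3))
      · exact absurd (h3 ▸ orderOf_dvd_natCard (⟨QuotientGroup.mk' H y, h⟩ : K.map (QuotientGroup.mk' H))) (hB ▸ hqC)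
    have h1 := not_comm_out hC₂f hC₂k hyB hxB (by rw [← map_mul, ← map_mul, hxy])
    exact hxH ((QuotientGroup.eq_one_iff x).mp h1)

end Cfsg.Agent.H2.TwoFrob
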