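import Mathlib
import Cfsg.Prelude
import Cfsg.Agent.H2.TwoFrob
import Cfsg.Agent.H2.CND
import Cfsg.Agent.Lib.FrobC
import Cfsg.Agent.Lib.Cores
import Cfsg.Agent.Lib.Nilp

set_option autoImplicit false

/-! Groups all of whose elements have prime power order. -/

namespace Cfsg.Agent.H2.Eppo

open Subgroup Cfsg.Agent.Lib Cfsg.Agent.Lib.Cores
open scoped Pointwise

universe u

/-- no commuting elements of different prime orders -/
def NC (G : Type*) [Group G] : Prop := ∀ x y : G, x * y = y * x → (orderOf x).Prime → (orderOf y).Prime → orderOf x = orderOf y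

theorem nc_of_eppo {G : Type*} [Group G] [Finite G] (hpp : ∀ g : G, g ≠ 1 → IsPrimePow (orderOf g)) : NC G := by
  intro x y hxy hx hy
  by_contra hne
  have hcop : (orderOf x).Coprime (orderOf y) := (Nat.coprime_primes hx hy).mpr hne
  have h1 : orderOf (x * y) = orderOf x * orderOf y := (show Commute x y from hxy).orderOf_mul_eq_mul_orderOf_of_coprime hcop
  have h2 : x * y ≠ 1 := by
    intro h
    rw [h, orderOf_one] at h1
    have := hx.two_le
    have := hy.two_le
    nlinarith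
  obtain ⟨r, k, hr, hk, h3⟩ := hpp _ h2
  have hr' := hr.nat_prime
  rw [h1] at h3
  have h4 : orderOf x = r := (Nat.prime_dvd_prime_iff_eq hx hr').mp (hx.dvd_of_dvd_pow (h3 ▸ Dvd.intro _ rfl))
  have h5 : orderOf y = r := (Nat.prime_dvd_prime_iff_eq hy hr').mp (hy.dvd_of_dvd_pow (h3 ▸ Dvd.intro_left _ rfl))
  exact hne (h4.trans h5.symm)

theorem NC.quotient {G : Type*} [Group G] [Finite G] (h : NC G) (N : Subgroup G) [N.Normal] : NC (G ⧸ N) := by
  intro x y hxy hx hy
  by_contra hne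
  have hcop : (orderOf x).Coprime (orderOf y) := (Nat.coprime_primes hx hy).mpr hne
  have h1 : orderOf (x * y) = orderOf x * orderOf y := (show Commute x y from hxy).orderOf_mul_eq_mul_orderOf_of_coprime hcop
  obtain ⟨g, hg⟩ := TwoFrob.exists_lift_order (QuotientGroup.mk'_surjective N) (mul_ne_zero hx.ne_zero hy.ne_zero) ⟨_, h1⟩
  have ha : orderOf (g ^ orderOf y) = orderOf x := by
    rw [orderOf_pow' g hy.ne_zero, hg, Nat.gcd_mul_left_left, Nat.mul_div_cancel _ hy.pos]
  have hb : orderOf (g ^ orderOf x) = orderOf y := by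
    rw [orderOf_pow' g hx.ne_zero, hg, Nat.gcd_mul_right_left, Nat.mul_div_cancel_left _ hx.pos]
  have h2 := h (g ^ orderOf y) (g ^ orderOf x) (by rw [← pow_add, ← pow_add, add_comm]) (ha ▸ hx) (hb ▸ hy)
  rw [ha, hb] at h2
  exact hne h2

theorem exists_other {T : Type*} [Group T] [Finite T] (hns : ¬ Group.IsSolvable T) (a : ℕ) : ∃ b : ℕ, b.Prime ∧ b ≠ a ∧ b ∣ Nat.card T := by
  by_contra hcon
  push Not at hcon
  apply hns
  by_cases h1 : Nat.card T = 1
  · haveI : Subsingleton T := (Nat.card_eq_one_iff_unique.mp h1).1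
    infer_instance
  · obtain ⟨c, hc, hcd⟩ := Nat.exists_prime_and_dvd h1
    have hca : c = a := by
      by_contra hca
      exact hcon c hc hca hcd
    subst hca
    haveI : Fact c.Prime := ⟨hc⟩
    have h2 : IsPGroup c T := IsPGroup.of_card (Nat.eq_prime_pow_of_unique_prime_dvd Nat.card_pos.ne' (fun {d} hd hdd => by
      by_contra hne
      exact hcon d hd hne hdd))
    haveI := h2.isNilpotent
    infer_instance

/-- non-solvable subgroups do not commute -/
theorem NC.not_comm {G : Type*} [Group G] [Finite G] (h : NC G) {S T : Subgroup G} (hS : ¬ Group.IsSolvable S) (hT : ¬ Group.IsSolvable T)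
    (hc : ∀ s ∈ S, ∀ t ∈ T, s * t = t * s) : False := by
  obtain ⟨a, ha, -, had⟩ := exists_other hS 0
  obtain ⟨b, hb, hba, hbd⟩ := exists_other hT a
  haveI : Fact a.Prime := ⟨ha⟩
  haveI : Fact b.Prime := ⟨hb⟩
  obtain ⟨x, hx⟩ := exists_prime_orderOf_dvd_card' (G := S) a had
  obtain ⟨y, hy⟩ := exists_prime_orderOf_dvd_card' (G := T) b hbd
  have hx' : orderOf (x : G) = a := by rw [Subgroup.orderOf_coe]; exact hx
  have hy' : orderOf (y : G) = b := by rw [Subgroup.orderOf_coe]; exact hy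
  have h1 := h x y (hc x x.2 y y.2) (hx' ▸ ha) (hy' ▸ hb)
  rw [hx', hy'] at h1
  exact hba h1.symm

theorem comm_of_inf {G : Type*} [Group G] {M S T : Subgroup G} (hSM : S ≤ M) (hTM : T ≤ M) (hS : M ≤ normalizer (S : Set G)) (hT : M ≤ normalizer (T : Set G))
    (h : S ⊓ T = ⊥) : ∀ s ∈ S, ∀ t ∈ T, s * t = t * s := by
  intro s hs t ht
  have h1 : s * t * s⁻¹ * t⁻¹ ∈ S ⊓ T := by
    refine mem_inf.mpr ⟨?_, ?_⟩
    · have e : s * t * s⁻¹ * t⁻¹ = s * (t * s⁻¹ * t⁻¹) := by group
      rw [e]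
      exact mul_mem hs (le_normalizer_iff.mp hS t (hTM ht) _ (inv_mem hs))
    · exact mul_mem (le_normalizer_iff.mp hT s (hSM hs) _ ht) (inv_mem ht)
  rw [h, mem_bot] at h1
  exact mul_inv_eq_iff_eq_mul.mp (mul_inv_eq_one.mp h1)

/-- the structure at the top -/
theorem top {G : Type u} [Group G] [Finite G] (h : NC G) (h1 : Nontrivial G) (hr : ∀ N : Subgroup G, N.Normal → Group.IsSolvable N → N = ⊥) :
    ∃ M : Subgroup G, M.Normal ∧ IsSimpleGroup M ∧ ¬ IsMulCommutative M ∧ ∀ N : Subgroup G, N.Normal → N ≠ ⊥ → M ≤ N := by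
  classical
  obtain ⟨M, hM⟩ := (Set.toFinite {M : Subgroup G | M.Normal ∧ M ≠ ⊥}).exists_minimal ⟨⊤, inferInstance, top_ne_bot⟩
  have hMn : M.Normal := hM.prop.1
  have hM1 : M ≠ ⊥ := hM.prop.2
  have hMmin : ∀ N : Subgroup G, N.Normal → N ≠ ⊥ → N ≤ M → N = M := fun N hN hN1 hNM => le_antisymm hNM (hM.le_of_le ⟨hN, hN1⟩ hNM)
  haveI := hMn
  have hMns : ¬ Group.IsSolvable M := fun hs => hM1 (hr M hMn hs)
  have hsub : ∀ T : Subgroup G, T ≤ M → M ≤ normalizer (T : Set G) → T ≠ ⊥ → T = M := by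
    intro T₀ hT₀M hT₀n hT₀1
    obtain ⟨T, hTle, hT⟩ := (Set.toFinite {T : Subgroup G | T ≤ M ∧ M ≤ normalizer (T : Set G) ∧ T ≠ ⊥}).exists_le_minimal (a := T₀) ⟨hT₀M, hT₀n, hT₀1⟩
    obtain ⟨hTM, hTn, hT1⟩ := hT.prop
    -- `T` is not solvable
    have hTns : ¬ Group.IsSolvable T := by
      intro hs
      haveI := hs
      obtain ⟨p, hp, hpO⟩ : ∃ p, p.Prime ∧ Cfsg.pCore p T ≠ ⊥ := by
        by_contra hcon
        push Not at hcon
        have h1 := CND.card_one_of_fitting hs (fitting_eq_bot_iff.mpr fun p hp => hcon p hp)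
        exact hT1 (card_eq_one.mp h1)
      have h2 : Cfsg.pCore p M ≠ ⊥ := by
        intro h2
        haveI hTn' : (T.subgroupOf M).Normal := (normal_subgroupOf_iff_le_normalizer hTM).mpr hTn
        haveI := pCore_characteristic (G := T.subgroupOf M) p
        have h3 : (Cfsg.pCore p (T.subgroupOf M)).map (T.subgroupOf M).subtype ≤ Cfsg.pCore p M := le_pCore inferInstance ((pCore_isPGroup p).map _)
        rw [h2, le_bot_iff, Subgroup.map_eq_bot_iff_of_injective _ (T.subgroupOf M).subtype_injective] at h3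
        apply hpO
        have e : T.subgroupOf M ≃* T := subgroupOfEquivOfLe hTM
        have h4 : (Cfsg.pCore p T).map e.symm.toMonoidHom ≤ Cfsg.pCore p (T.subgroupOf M) :=
          le_pCore ((pCore_normal (G := T) p).map _ e.symm.surjective) ((pCore_isPGroup p).map _)
        rw [h3, le_bot_iff, Subgroup.map_eq_bot_iff_of_injective _ e.symm.injective] at h4
        exact h4
      haveI := pCore_characteristic (G := M) p
      have h5 := hMmin ((Cfsg.pCore p M).map M.subtype) inferInstance (by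
        rw [Ne, Subgroup.map_eq_bot_iff_of_injective _ M.subtype_injective]; exact h2) (map_subtype_le _)
      haveI : Fact p.Prime := ⟨hp⟩
      have h6 : IsPGroup p M := h5 ▸ (pCore_isPGroup (G := M) p).map _
      haveI := h6.isNilpotent
      exact hMns inferInstance
    have hconj : ∀ g : G, ∀ x ∈ T, g * x * g⁻¹ ∈ T := by
      intro g
      obtain ⟨S, hS⟩ : ∃ S : Subgroup G, S = MulAut.conj g • T := ⟨_, rfl⟩
      have hmem : ∀ x : G, x ∈ S ↔ g⁻¹ * x * g ∈ T := fun x => by rw [hS, SchurZas.mem_conj_smul_iff]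
      have hSM : S ≤ M := by
        intro x hx
        have h2 := hMn.conj_mem _ (hTM ((hmem x).mp hx)) g
        have h3 : g * (g⁻¹ * x * g) * g⁻¹ = x := by group
        rwa [h3] at h2
      have hSn : M ≤ normalizer (S : Set G) := by
        rw [le_normalizer_iff]
        intro m hm x hx
        rw [hmem] at hx ⊢
        have h2 : g⁻¹ * m * g ∈ M := by
          have := hMn.conj_mem _ hm g⁻¹
          rwa [inv_inv] at this
        have h3 := le_normalizer_iff.mp hTn _ h2 _ hx
        have h4 : g⁻¹ * m * g * (g⁻¹ * x * g) * (g⁻¹ * m * g)⁻¹ = g⁻¹ * (m * x * m⁻¹) * g := by group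
        rwa [h4] at h3
      by_cases hST : S ⊓ T = ⊥
      · exfalso
        have hSns : ¬ Group.IsSolvable S := by
          intro hs
          apply hTns
          haveI := hs
          have e : T ≃* S := hS ▸ equivSMul (MulAut.conj g) T
          exact Group.isSolvable_of_isSolvable_injective (f := e.toMonoidHom) e.injective
        exact h.not_comm hSns hTns (comm_of_inf hSM hTM hSn hTn hST)
      · have h2 : S ⊓ T = T := le_antisymm inf_le_right (hT.le_of_le ⟨inf_le_right.trans hTM, by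
          rw [le_normalizer_iff]
          intro m hm x hx
          exact mem_inf.mpr ⟨le_normalizer_iff.mp hSn m hm x (mem_inf.mp hx).1, le_normalizer_iff.mp hTn m hm x (mem_inf.mp hx).2⟩, hST⟩ inf_le_right)
        have h3 : T ≤ S := inf_eq_right.mp h2
        have h4 : T = S := Subgroup.eq_of_le_of_card_ge h3 (by rw [hS, SchurZas.card_conj_smul])
        intro x hx
        rw [h4, hmem]
        have h5 : g⁻¹ * (g * x * g⁻¹) * g = x := by group
        rwa [h5]
    have h5 := hMmin T ⟨fun x hx g => hconj g x hx⟩ hT1 hTM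
    exact le_antisymm hT₀M (h5 ▸ hTle)
  refine ⟨M, hMn, ?_, ?_, ?_⟩
  · haveI : Nontrivial M := (nontrivial_iff_ne_bot M).mpr hM1
    refine { eq_bot_or_eq_top_of_normal := fun H hH => ?_ }
    by_cases hH1 : H = ⊥
    · exact Or.inl hH1
    · right
      have h2 := hsub (H.map M.subtype) (map_subtype_le _) (by
        rw [le_normalizer_iff]
        rintro m hm _ ⟨x, hx, rfl⟩
        exact ⟨⟨m, hm⟩ * x * ⟨m, hm⟩⁻¹, hH.conj_mem x hx _, rfl⟩) (by
        rw [Ne, Subgroup.map_eq_bot_iff_of_injective _ M.subtype_injective]; exact hH1)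
      rw [eq_top_iff]
      intro x _
      have h3 : (x : G) ∈ H.map M.subtype := h2.ge x.2
      obtain ⟨y, hy, hyx⟩ := h3
      rwa [← Subtype.ext hyx]
  · intro hc
    apply hMns
    exact CoprimeB.isSolvable_of_comm hc
  · intro N hN hN1
    by_contra hle
    have h2 : M ⊓ N = ⊥ := by
      by_contra h3
      haveI := hN
      have h4 := hMmin (M ⊓ N) inferInstance h3 inf_le_left
      exact hle (inf_eq_left.mp h4)
    exact h.not_comm hMns (fun hs => hN1 (hr N hN hs)) (comm_of_inf (M := ⊤) le_top le_top (by rw [normalizer_eq_top]) (by haveI := hN; rw [normalizer_eq_top]) h2)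

/-- the solvable radical -/
theorem radical {G : Type u} [Group G] [Finite G] (h : NC G) (hns : ¬ Group.IsSolvable G) {R : Subgroup G} [R.Normal] (hRs : Group.IsSolvable R)
    (hRmax : ∀ N : Subgroup G, N.Normal → Group.IsSolvable ↥N → N ≤ R) : ∃ p : ℕ, p.Prime ∧ IsPGroup p R := by
  classical
  by_cases hR1 : R = ⊥
  · exact ⟨2, Nat.prime_two, by rw [hR1]; exact IsPGroup.of_bot⟩
  haveI := hRs
  obtain ⟨p, hp, hpO⟩ : ∃ p, p.Prime ∧ Cfsg.pCore p R ≠ ⊥ := by
    by_contra hcon
    push Not at hcon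
    have h1 := CND.card_one_of_fitting hRs (fitting_eq_bot_iff.mpr fun p hp => hcon p hp)
    exact hR1 (card_eq_one.mp h1)
  haveI : Fact p.Prime := ⟨hp⟩
  refine ⟨p, hp, ?_⟩
  by_contra hRp
  obtain ⟨O, hO⟩ : ∃ O, O = Cfsg.pCore p G := ⟨_, rfl⟩
  haveI hOn : O.Normal := hO ▸ pCore_normal (G := G) p
  have hOp : IsPGroup p O := hO ▸ pCore_isPGroup (G := G) p
  have hOmax : ∀ N : Subgroup G, N.Normal → IsPGroup p N → N ≤ O := fun N hN hNp => hO ▸ le_pCore hN hNp
  have hO1 : O ≠ ⊥ := by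
    intro h1
    haveI := pCore_characteristic (G := R) p
    have h2 := hOmax ((Cfsg.pCore p R).map R.subtype) inferInstance ((pCore_isPGroup p).map _)
    rw [h1, le_bot_iff, Subgroup.map_eq_bot_iff_of_injective _ R.subtype_injective] at h2
    exact hpO h2
  have hOR : O ≤ R := hRmax O hOn (by haveI := hOp.isNilpotent; infer_instance)
  have hf := QuotientGroup.mk'_surjective O
  -- the quotient
  obtain ⟨B, hB⟩ : ∃ B, B = R.map (QuotientGroup.mk' O) := ⟨_, rfl⟩
  haveI hBn : B.Normal := hB ▸ inferInstance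
  haveI hBs : Group.IsSolvable B := by
    have h1 : Function.Surjective ((QuotientGroup.mk' O).subgroupMap R) := (QuotientGroup.mk' O).subgroupMap_surjective R
    rw [hB]
    exact Group.isSolvable_of_surjective h1
  have hpull : ∀ W : Subgroup (G ⧸ O), W.Normal → W ≤ B → W.comap (QuotientGroup.mk' O) ≤ R := by
    intro W hW hWB x hx
    have h1 := hWB (mem_comap.mp hx)
    rw [hB] at h1
    obtain ⟨r, hr, hrx⟩ := h1
    have h2 : r⁻¹ * x ∈ O := by
      rw [← QuotientGroup.eq_one_iff]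
      change QuotientGroup.mk' O (r⁻¹ * x) = 1
      rw [map_mul, map_inv, hrx, inv_mul_cancel]
    have h3 : x = r * (r⁻¹ * x) := by group
    rw [h3]; exact mul_mem hr (hOR h2)
  have hB1 : B ≠ ⊥ := by
    intro h1
    apply hRp
    have h2 : R ≤ O := by
      intro x hx
      have h3 : QuotientGroup.mk' O x ∈ B := hB ▸ ⟨x, hx, rfl⟩
      rw [h1, mem_bot] at h3
      exact (QuotientGroup.eq_one_iff x).mp h3
    exact hOp.to_le h2
  obtain ⟨q, hq, hqO⟩ : ∃ q, q.Prime ∧ Cfsg.pCore q B ≠ ⊥ := by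
    by_contra hcon
    push Not at hcon
    have h1 := CND.card_one_of_fitting hBs (fitting_eq_bot_iff.mpr fun p hp => hcon p hp)
    exact hB1 (card_eq_one.mp h1)
  haveI : Fact q.Prime := ⟨hq⟩
  obtain ⟨V, hV⟩ : ∃ V, V = (Cfsg.pCore q B).map B.subtype := ⟨_, rfl⟩
  haveI hVn : V.Normal := by
    haveI := pCore_characteristic (G := B) q
    rw [hV]; infer_instance
  have hVq : IsPGroup q V := hV ▸ (pCore_isPGroup q).map _
  have hV1 : V ≠ ⊥ := by
    rw [hV, Ne, Subgroup.map_eq_bot_iff_of_injective _ B.subtype_injective]; exact hqO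
  obtain ⟨W, hW⟩ : ∃ W, W = V.comap (QuotientGroup.mk' O) := ⟨_, rfl⟩
  haveI hWn : W.Normal := hW ▸ hVn.comap _
  have hWR : W ≤ R := hW ▸ hpull V hVn (hV ▸ map_subtype_le _)
  have hWcard : Nat.card W = Nat.card O * Nat.card V := by rw [hW, card_comap_eq _ hf, QuotientGroup.ker_mk']
  have hqp : q ≠ p := by
    rintro rfl
    have h1 : IsPGroup q W := by
      obtain ⟨a, ha⟩ := IsPGroup.iff_card.mp hOp
      obtain ⟨b, hb⟩ := IsPGroup.iff_card.mp hVq
      exact IsPGroup.of_card (by rw [hWcard, ha, hb, ← pow_add])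
    have h2 := hOmax W hWn h1
    apply hV1
    rw [eq_bot_iff]
    intro x hx
    obtain ⟨x, rfl⟩ := hf x
    exact mem_bot.mpr ((QuotientGroup.eq_one_iff x).mpr (h2 (by rw [hW]; exact mem_comap.mpr hx)))
  obtain ⟨Q⟩ := (inferInstance : Nonempty (Sylow q W))
  obtain ⟨Q', hQ'⟩ : ∃ Q', Q' = (Q : Subgroup W).map W.subtype := ⟨_, rfl⟩
  have hQ'q : IsPGroup q Q' := hQ' ▸ Q.isPGroup'.map _
  have hqW : q ∣ Nat.card W := by
    rw [hWcard]
    obtain ⟨b, hb⟩ := IsPGroup.iff_card.mp hVq
    have hb0 : b ≠ 0 := by rintro rfl; exact hV1 (card_eq_one.mp (by rw [hb, pow_zero]))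
    rw [hb]
    exact (dvd_pow_self q hb0).mul_left _
  have hQ'1 : Q' ≠ ⊥ := by
    intro h1
    rw [hQ', Subgroup.map_eq_bot_iff_of_injective _ W.subtype_injective] at h1
    have h2 := Q.card_eq_multiplicity
    rw [h1, card_bot] at h2
    have h3 := dvd_pow_self q (hq.factorization_pos_of_dvd Nat.card_pos.ne' hqW).ne'
    rw [← h2] at h3
    exact hq.one_lt.ne' (Nat.dvd_one.mp h3)
  have hfr : normalizer (Q' : Set G) ⊔ W = ⊤ := by rw [hQ']; exact Sylow.normalizer_sup_eq_top Q
  obtain ⟨z, hz1⟩ := ne_bot_iff_exists_ne_one.mp hQ'1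
  have hqQ : q ∣ Nat.card Q' := by
    obtain ⟨b, hb⟩ := IsPGroup.iff_card.mp hQ'q
    have hb0 : b ≠ 0 := by rintro rfl; exact hQ'1 (card_eq_one.mp (by rw [hb, pow_zero]))
    rw [hb]; exact dvd_pow_self q hb0
  obtain ⟨z, hz⟩ := exists_prime_orderOf_dvd_card' (G := Q') q hqQ
  have hzo : orderOf (z : G) = q := by rw [Subgroup.orderOf_coe]; exact hz
  obtain ⟨Z, hZ⟩ : ∃ Z, Z = zpowers (z : G) := ⟨_, rfl⟩
  -- centralisers of elements of prime order
  have hcent : ∀ x : G, ∀ r : ℕ, r.Prime → orderOf x = r → IsPGroup r (centralizer ({x} : Set G)) := by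
    intro x r hr hx
    haveI : Fact r.Prime := ⟨hr⟩
    apply IsPGroup.of_card (n := (Nat.card (centralizer ({x} : Set G))).primeFactorsList.length)
    apply Nat.eq_prime_pow_of_unique_prime_dvd Nat.card_pos.ne'
    intro d hd hdd
    haveI : Fact d.Prime := ⟨hd⟩
    obtain ⟨y, hy⟩ := exists_prime_orderOf_dvd_card' (G := centralizer ({x} : Set G)) d hdd
    have hy' : orderOf (y : G) = d := by rw [Subgroup.orderOf_coe]; exact hy
    have h1 := h (y : G) x (mem_centralizer_singleton_iff.mp y.2) (hy' ▸ hd) (hx ▸ hr)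
    rw [hy', hx] at h1
    exact h1
  have hcop : (Nat.card Q').Coprime (Nat.card O) := by
    obtain ⟨a, ha⟩ := IsPGroup.iff_card.mp hOp
    obtain ⟨b, hb⟩ := IsPGroup.iff_card.mp hQ'q
    rw [ha, hb]
    exact Nat.Coprime.pow _ _ ((Nat.coprime_primes hq hp).mpr hqp)
  have hfpf : ∀ y ∈ Q', y ≠ 1 → O ⊓ centralizer {y} = ⊥ := by
    intro y hy hy1
    rw [eq_bot_iff]
    intro x hx
    obtain ⟨hxO, hxy⟩ := mem_inf.mp hx
    rw [mem_bot]
    by_contra hx1
    have e1 : ∃ i, orderOf (x ^ i) = p := PGraph.exists_prime_power' hp (by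
      obtain ⟨k, hk⟩ := hOp ⟨x, hxO⟩
      have hk' : x ^ p ^ k = 1 := congrArg Subtype.val hk
      obtain ⟨j, _, hj⟩ := (Nat.dvd_prime_pow hp).mp (_root_.orderOf_dvd_of_pow_eq_one hk')
      have hj0 : j ≠ 0 := by rintro rfl; rw [pow_zero] at hj; exact hx1 (orderOf_eq_one_iff.mp hj)
      rw [hj]; exact dvd_pow_self p hj0)
    have e2 : ∃ i, orderOf (y ^ i) = q := PGraph.exists_prime_power' hq (by
      obtain ⟨k, hk⟩ := hQ'q ⟨y, hy⟩
      have hk' : y ^ q ^ k = 1 := congrArg Subtype.val hk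
      obtain ⟨j, _, hj⟩ := (Nat.dvd_prime_pow hq).mp (_root_.orderOf_dvd_of_pow_eq_one hk')
      have hj0 : j ≠ 0 := by rintro rfl; rw [pow_zero] at hj; exact hy1 (orderOf_eq_one_iff.mp hj)
      rw [hj]; exact dvd_pow_self q hj0)
    obtain ⟨i, hi⟩ := e1
    obtain ⟨j, hj⟩ := e2
    have h2 := h (x ^ i) (y ^ j) ((show Commute x y from mem_centralizer_singleton_iff.mp hxy).pow_pow i j).eq (hi ▸ hp) (hj ▸ hq)
    rw [hi, hj] at h2
    exact hqp h2.symm
  have hNZ : normalizer (Q' : Set G) ≤ normalizer (Z : Set G) := by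
    intro g hg
    apply SixElt.mem_norm_fin
    intro x hx
    rw [hZ] at hx ⊢
    obtain ⟨k, rfl⟩ := hx
    have h1 : g * (z : G) * g⁻¹ ∈ Q' := (mem_normalizer_iff.mp hg _).mp z.2
    have h2 : orderOf (g * (z : G) * g⁻¹) = q := by
      rw [show g * (z : G) * g⁻¹ = MulAut.conj g (z : G) from rfl, MulEquiv.orderOf_eq, hzo]
    have h3 := FrobC.unique_of_fpf (K := O) (P := Q') (by rw [normalizer_eq_top]; exact le_top) hO1 hcop hfpf hQ'q h1 z.2 h2 hzo
    change g * (z : G) ^ k * g⁻¹ ∈ _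
    rw [← conj_zpow]
    exact zpow_mem h3 k
  -- `N(Z)` is solvable
  have hNs : Group.IsSolvable (normalizer (Z : Set G)) := by
    obtain ⟨A, hA⟩ : ∃ A, A = Z.subgroupOf (normalizer (Z : Set G)) := ⟨_, rfl⟩
    haveI hAn : A.Normal := by rw [hA]; exact normal_subgroupOf_of_le_normalizer le_rfl
    have hZle : Z ≤ normalizer (Z : Set G) := le_normalizer
    have hAc : IsCyclic A := by
      have e : A ≃* Z := hA ▸ subgroupOfEquivOfLe hZle
      rw [e.isCyclic, hZ]
      infer_instance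
    obtain ⟨D, hD⟩ : ∃ D, D = centralizer (A : Set (normalizer (Z : Set G))) := ⟨_, rfl⟩
    haveI hDn : D.Normal := hD ▸ inferInstance
    have hDq : IsPGroup q D := by
      have h1 : D ≤ (centralizer ({(z : G)} : Set G)).subgroupOf (normalizer (Z : Set G)) := by
        intro x hx
        rw [hD] at hx
        rw [mem_subgroupOf, mem_centralizer_singleton_iff]
        have h2 := mem_centralizer_iff.mp hx ⟨(z : G), hZle (hZ ▸ mem_zpowers _)⟩ (by rw [hA]; exact mem_subgroupOf.mpr (hZ.ge (mem_zpowers (z : G))))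
        exact (congrArg Subtype.val h2).symm
      exact ((hcent (z : G) q hq hzo).comap_subtype).to_le h1
    haveI := hDq.isNilpotent
    haveI h3 : Group.IsSolvable D := inferInstance
    haveI h4 : Group.IsSolvable ((normalizer (Z : Set G)) ⧸ D) := by
      apply Group.isSolvable_of_comm
      intro a b
      obtain ⟨a, rfl⟩ := QuotientGroup.mk'_surjective D a
      obtain ⟨b, rfl⟩ := QuotientGroup.mk'_surjective D b
      have h5 := CND.comm_mem_centralizer hAc a b
      rw [← hD] at h5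
      have h6 : QuotientGroup.mk' D (a * b * a⁻¹ * b⁻¹) = 1 := (QuotientGroup.eq_one_iff _).mpr h5
      rw [map_mul, map_mul, map_mul, map_inv, map_inv] at h6
      exact mul_inv_eq_iff_eq_mul.mp (mul_inv_eq_one.mp h6)
    exact Group.isSolvable_of_ker_le_range D.subtype (QuotientGroup.mk' D) (by rw [QuotientGroup.ker_mk', range_subtype])
  apply hns
  haveI hWs : Group.IsSolvable W := SchurZas.isSolvable_of_le hWR hRs
  haveI hGW : Group.IsSolvable (G ⧸ W) := by
    haveI h1 : Group.IsSolvable (normalizer (Q' : Set G)) := SchurZas.isSolvable_of_le hNZ hNs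
    have h2 : Function.Surjective ((QuotientGroup.mk' W).comp (normalizer (Q' : Set G)).subtype) := by
      intro x
      obtain ⟨x, rfl⟩ := QuotientGroup.mk'_surjective W x
      have h3 : x ∈ W ⊔ normalizer (Q' : Set G) := by rw [sup_comm, hfr]; exact mem_top x
      obtain ⟨w, hw, n, hn, rfl⟩ := mem_sup_of_normal_left.mp h3
      refine ⟨⟨n, hn⟩, ?_⟩
      change QuotientGroup.mk' W n = QuotientGroup.mk' W (w * n)
      rw [map_mul, show QuotientGroup.mk' W w = 1 from (QuotientGroup.eq_one_iff w).mpr hw, one_mul]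
    exact Group.isSolvable_of_surjective h2
  exact Group.isSolvable_of_ker_le_range W.subtype (QuotientGroup.mk' W) (by rw [QuotientGroup.ker_mk', range_subtype])

end Cfsg.Agent.H2.Eppo
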