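import Mathlib
import Cfsg.Prelude
import Cfsg.Agent.Lib.ExSpB
import Cfsg.Agent.H2.PUtil

set_option autoImplicit false

/-! The rank of extraspecial 2-groups. -/

namespace Cfsg.Agent.H2.ExRank

open Subgroup Cfsg.Agent.Lib.ExSp Cfsg.Agent.H2
open scoped commutatorElement

universe u v

section
variable {E : Type u} [Group E] [Finite E] {z x y : E}

theorem rank_up (D : Dat 2 z) (h : ⁅x, y⁆ = z) (hx : x ^ 2 = 1) (hy : y ^ 2 = 1) (k : ℕ) :
    Cfsg.PRankLE 2 (k + 1) E ↔ Cfsg.PRankLE 2 k (centralizer ({x, y} : Set E)) := by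
  haveI : Fact (Nat.Prime 2) := ⟨Nat.prime_two⟩
  obtain ⟨K, hK⟩ : ∃ K, K = centralizer ({x, y} : Set E) := ⟨_, rfl⟩
  have hz1 : z ≠ 1 := by
    intro h1
    have h2 := D.ord
    rw [h1, orderOf_one] at h2
    omega
  have hKx : ∀ w ∈ K, w * x = x * w := fun w hw => by
    rw [hK] at hw; exact (mem_centralizer_iff.mp hw x (Or.inl rfl)).symm
  have hKy : ∀ w ∈ K, w * y = y * w := fun w hw => by
    rw [hK] at hw; exact (mem_centralizer_iff.mp hw y (Or.inr rfl)).symm
  have hxK : x ∉ K := by
    intro hx'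
    apply hz1
    rw [← h, commutatorElement_eq_one_iff_mul_comm]
    exact hKy x hx'
  have key : Cfsg.PRankLE 2 (k + 1) E ↔ ∀ A : Subgroup E, A ≤ K → (∀ a ∈ A, ∀ b ∈ A, a * b = b * a) → (∀ a ∈ A, a ^ 2 = 1) → Nat.card A ≤ 2 ^ k := by
    constructor
    · intro hr A hAK hAc hA2
      have hxA : x ∉ A := fun h => hxK (hAK h)
      obtain ⟨A', hA'⟩ : ∃ A' : Subgroup E, ∀ w, w ∈ A' ↔ w ∈ A ∨ w * x ∈ A := by
        have hx2 : x * x = 1 := by rw [← pow_two]; exact hx
        refine ⟨{ carrier := {w | w ∈ A ∨ w * x ∈ A}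
                  one_mem' := Or.inl (one_mem _)
                  mul_mem' := ?_
                  inv_mem' := ?_ }, fun w => Iff.rfl⟩
        · rintro a b (ha | ha) (hb | hb)
          · exact Or.inl (mul_mem ha hb)
          · right
            rw [mul_assoc]; exact mul_mem ha hb
          · right
            rw [mul_assoc, hKx b (hAK hb), ← mul_assoc]; exact mul_mem ha hb
          · left
            have h2 : a * b = (a * x) * (b * x) := by
              have h3 : x * (b * x) = (b * x) * x := (hKx _ (hAK hb)).symm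
              calc a * b = a * (b * (x * x)) := by rw [hx2, mul_one]
                _ = a * ((b * x) * x) := by rw [mul_assoc b]
                _ = a * (x * (b * x)) := by rw [h3]
                _ = _ := by group
            rw [h2]; exact mul_mem ha hb
        · rintro a (ha | ha)
          · exact Or.inl (inv_mem ha)
          · right
            change a⁻¹ * x ∈ A
            have h2 : a⁻¹ * x = (a * x)⁻¹ := by
              have h3 := hKx _ (hAK ha)
              have h5 : x⁻¹ = x := inv_eq_of_mul_eq_one_right hx2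
              have h6 : x * a = a * x := mul_right_cancel (b := x) (by rw [mul_assoc x a x, ← h3])
              have h8 : a⁻¹ * x = x * a⁻¹ := by
                rw [inv_mul_eq_iff_eq_mul, ← mul_assoc, ← h6, mul_inv_cancel_right]
              rw [mul_inv_rev, h5, h8]
            rw [h2]; exact inv_mem ha
      have hform : ∀ w ∈ A', ∃ a ∈ A, w = a ∨ w = a * x := by
        intro w hw
        rcases (hA' w).mp hw with h | h
        · exact ⟨w, h, Or.inl rfl⟩
        · refine ⟨w * x, h, Or.inr ?_⟩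
          rw [mul_assoc, ← pow_two, hx, mul_one]
      have hxa : ∀ a ∈ A, a * x = x * a := fun a ha => hKx a (hAK ha)
      have hcomm : ∀ w ∈ A', ∀ t ∈ A', w * t = t * w := by
        intro w hw t ht
        obtain ⟨a, ha, rfl | rfl⟩ := hform w hw <;> obtain ⟨b, hb, rfl | rfl⟩ := hform t ht
        · exact hAc _ ha _ hb
        · rw [← mul_assoc, hAc _ ha _ hb, mul_assoc, hxa _ ha, mul_assoc]
        · rw [mul_assoc, ← hxa _ hb, ← mul_assoc, hAc _ ha _ hb, mul_assoc]
        · have e1 : a * x * (b * x) = a * b * x ^ 2 := by rw [mul_assoc, ← mul_assoc x, ← hxa _ hb, pow_two]; group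
          have e2 : b * x * (a * x) = b * a * x ^ 2 := by rw [mul_assoc, ← mul_assoc x, ← hxa _ ha, pow_two]; group
          rw [e1, e2, hAc _ ha _ hb]
      have h1 := hr A' (PUtil.isMulCommutative_iff.mpr hcomm) (by
        intro w hw
        obtain ⟨a, ha, rfl | rfl⟩ := hform w hw
        · exact hA2 _ ha
        · rw [(show Commute a x from hxa a ha).mul_pow, hA2 a ha, hx, one_mul])
      have hAA' : A ≤ A' := fun w hw => (hA' w).mpr (Or.inl hw)
      have hidx : (A.subgroupOf A').index = 2 := by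
        rw [index_eq_two_iff]
        have hxA' : x ∈ A' := (hA' x).mpr (Or.inr (by rw [← pow_two, hx]; exact one_mem _))
        refine ⟨⟨x, hxA'⟩, ?_⟩
        intro b
        rw [mem_subgroupOf, mem_subgroupOf]
        change Xor (((b : E) * x) ∈ A) ((b : E) ∈ A)
        by_cases hb : (b : E) ∈ A
        · right
          refine ⟨hb, fun h => hxA ?_⟩
          have : x = (b : E)⁻¹ * ((b : E) * x) := by group
          rw [this]; exact mul_mem (inv_mem hb) h
        · left
          rcases (hA' _).mp b.2 with h | h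
          · exact absurd h hb
          · exact ⟨h, hb⟩
      have h3 := (A.subgroupOf A').card_mul_index
      rw [hidx, Nat.card_congr (subgroupOfEquivOfLe hAA').toEquiv] at h3
      rw [← h3, pow_succ] at h1
      omega
    · intro hr A hA hA2
      have hAc := PUtil.isMulCommutative_iff.mp hA
      -- the homomorphism `A → ⟨z⟩ × ⟨z⟩`
      let f : A →* zpowers z × zpowers z :=
        (((D.homL x).comp A.subtype).codRestrict _ fun g => D.comm (g : E) x).prod (((D.homL y).comp A.subtype).codRestrict _ fun g => D.comm (g : E) y)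
      have hfx : ∀ a : A, (((f a).1 : zpowers z) : E) = ⁅(a : E), x⁆ := fun a => rfl
      have hfy : ∀ a : A, (((f a).2 : zpowers z) : E) = ⁅(a : E), y⁆ := fun a => rfl
      have hker : ∀ a : A, a ∈ f.ker ↔ (a : E) ∈ K := by
        intro a
        rw [MonoidHom.mem_ker, Prod.ext_iff, hK, mem_centralizer_iff]
        constructor
        · rintro ⟨h1, h2⟩ w hw
          have h1' : ⁅(a : E), x⁆ = 1 := by rw [← hfx, h1]; rfl
          have h2' : ⁅(a : E), y⁆ = 1 := by rw [← hfy, h2]; rfl
          rcases hw with rfl | hw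
          · exact (commutatorElement_eq_one_iff_mul_comm.mp h1').symm
          · rw [Set.mem_singleton_iff] at hw
            rw [hw]; exact (commutatorElement_eq_one_iff_mul_comm.mp h2').symm
        · intro h1
          refine ⟨Subtype.ext ?_, Subtype.ext ?_⟩
          · rw [hfx]; exact commutatorElement_eq_one_iff_mul_comm.mpr (h1 x (Or.inl rfl)).symm
          · rw [hfy]; exact commutatorElement_eq_one_iff_mul_comm.mpr (h1 y (Or.inr rfl)).symm
      obtain ⟨A₀, hA₀⟩ : ∃ A₀ : Subgroup E, A₀ = A ⊓ K := ⟨_, rfl⟩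
      have hA₀K : A₀ ≤ K := hA₀ ▸ inf_le_right
      have hA₀A : A₀ ≤ A := hA₀ ▸ inf_le_left
      have hcard : Nat.card A = Nat.card A₀ * Nat.card f.range := by
        rw [← f.ker.card_mul_index, index_ker]
        congr 1
        have h1 : f.ker.map A.subtype = A₀ := by
          rw [hA₀]
          ext w
          constructor
          · rintro ⟨w, hw, rfl⟩
            exact mem_inf.mpr ⟨w.2, (hker w).mp hw⟩
          · intro hw
            exact ⟨⟨w, (mem_inf.mp hw).1⟩, (hker _).mpr (mem_inf.mp hw).2, rfl⟩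
        rw [← h1]
        exact Nat.card_congr (f.ker.equivMapOfInjective _ A.subtype_injective).toEquiv
      have hT : Nat.card (zpowers z × zpowers z) = 4 := by
        rw [Nat.card_prod, Nat.card_zpowers, D.ord]
      have hrd : Nat.card f.range ∣ 4 := hT ▸ card_subgroup_dvd_card _
      have hA₀r := hr A₀ hA₀K (fun a ha b hb => hAc a (hA₀A ha) b (hA₀A hb)) (fun a ha => hA2 a (hA₀A ha))
      by_cases h4 : Nat.card f.range = 4
      · -- surjective
        have hsurj : f.range = ⊤ := eq_top_of_card_eq _ (by rw [h4, hT])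
        have hs : Function.Surjective f := MonoidHom.range_eq_top.mp hsurj
        -- `a₁ = x k₁`, `a₂ = y k₂`
        obtain ⟨a₁, ha₁⟩ := hs (1, ⟨z, mem_zpowers z⟩)
        obtain ⟨a₂, ha₂⟩ := hs (⟨z, mem_zpowers z⟩, 1)
        have h1x : ⁅(a₁ : E), x⁆ = 1 := by rw [← hfx, ha₁]; rfl
        have h1y : ⁅(a₁ : E), y⁆ = z := by rw [← hfy, ha₁]
        have h2x : ⁅(a₂ : E), x⁆ = z := by rw [← hfx, ha₂]
        have h2y : ⁅(a₂ : E), y⁆ = 1 := by rw [← hfy, ha₂]; rfl
        have hxi : x⁻¹ = x := inv_eq_of_mul_eq_one_right (by rw [← pow_two]; exact hx)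
        have hyi : y⁻¹ = y := inv_eq_of_mul_eq_one_right (by rw [← pow_two]; exact hy)
        have hyx : ⁅y, x⁆ = z := by
          rw [← commutatorElement_inv, h]
          exact inv_eq_of_mul_eq_one_right D.zz
        obtain ⟨k₁, hk₁⟩ : ∃ k₁, k₁ = x * (a₁ : E) := ⟨_, rfl⟩
        obtain ⟨k₂, hk₂⟩ : ∃ k₂, k₂ = y * (a₂ : E) := ⟨_, rfl⟩
        have hk₁K : k₁ ∈ K := by
          rw [hK, mem_centralizer_iff]
          rintro w (rfl | hw)
          · rw [eq_comm, ← commutatorElement_eq_one_iff_mul_comm, hk₁, D.mul_left, commutatorElement_self, h1x, one_mul]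
          · rw [Set.mem_singleton_iff] at hw
            rw [hw, eq_comm, ← commutatorElement_eq_one_iff_mul_comm, hk₁, D.mul_left, h, h1y, D.zz]
        have hk₂K : k₂ ∈ K := by
          rw [hK, mem_centralizer_iff]
          rintro w (rfl | hw)
          · rw [eq_comm, ← commutatorElement_eq_one_iff_mul_comm, hk₂, D.mul_left, hyx, h2x, D.zz]
          · rw [Set.mem_singleton_iff] at hw
            rw [hw, eq_comm, ← commutatorElement_eq_one_iff_mul_comm, hk₂, D.mul_left, commutatorElement_self, h2y, one_mul]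
        have hk₁c : ∀ w ∈ A₀, w * k₁ = k₁ * w := by
          intro w hw
          rw [hk₁, ← mul_assoc, hKx w (hA₀K hw), mul_assoc, hAc w (hA₀A hw) a₁ a₁.2, mul_assoc]
        have hk₂c : ∀ w ∈ A₀, w * k₂ = k₂ * w := by
          intro w hw
          rw [hk₂, ← mul_assoc, hKy w (hA₀K hw), mul_assoc, hAc w (hA₀A hw) a₂ a₂.2, mul_assoc]
        have hk₁2 : k₁ ^ 2 = 1 := by
          have hc : Commute x (a₁ : E) := (commutatorElement_eq_one_iff_mul_comm.mp h1x).symm
          rw [hk₁, hc.mul_pow, hx, hA2 a₁ a₁.2, one_mul]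
        have hkk : ⁅k₁, k₂⁆ = z := by
          have h5 : ⁅(a₁ : E), (a₂ : E)⁆ = 1 := commutatorElement_eq_one_iff_mul_comm.mpr (hAc a₁ a₁.2 a₂ a₂.2)
          have h6 : ⁅x, (a₂ : E)⁆ = z := by
            rw [← commutatorElement_inv, h2x]; exact inv_eq_of_mul_eq_one_right D.zz
          rw [hk₁, hk₂, D.mul_left, D.mul_right, D.mul_right, h, h6, h1y, h5, mul_one, D.zz, one_mul]
        have hk₁A : k₁ ∉ A₀ := by
          intro h5
          apply hz1
          rw [← hkk, commutatorElement_eq_one_iff_mul_comm]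
          exact hk₂c k₁ h5
        obtain ⟨A', hA'⟩ : ∃ A' : Subgroup E, A' = A₀ ⊔ zpowers k₁ := ⟨_, rfl⟩
        have hlt : A₀ < A' := by
          refine lt_of_le_of_ne (hA' ▸ le_sup_left) ?_
          intro h5
          apply hk₁A
          rw [h5, hA']
          exact (le_sup_right : zpowers k₁ ≤ _) (mem_zpowers k₁)
        have hgen : A' = closure ((A₀ : Set E) ∪ {k₁}) := by
          rw [hA', Subgroup.closure_union, Subgroup.closure_eq, zpowers_eq_closure]
        have hA'c : ∀ a ∈ A', ∀ b ∈ A', a * b = b * a := by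
          have hg : ∀ a ∈ (A₀ : Set E) ∪ {k₁}, ∀ b ∈ (A₀ : Set E) ∪ {k₁}, a * b = b * a := by
            rintro a (ha | ha) b (hb | hb)
            · exact hAc a (hA₀A ha) b (hA₀A hb)
            · rw [Set.mem_singleton_iff] at hb; rw [hb]; exact hk₁c a ha
            · rw [Set.mem_singleton_iff] at ha; rw [ha]; exact (hk₁c b hb).symm
            · rw [Set.mem_singleton_iff] at ha hb; rw [ha, hb]
          intro a ha b hb
          rw [hgen] at ha hb
          induction ha using closure_induction with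
          | mem a ha =>
            induction hb using closure_induction with
            | mem b hb => exact hg a ha b hb
            | one => rw [mul_one, one_mul]
            | mul u v _ _ hu hv => exact (Commute.mul_right (show Commute a u from hu) (show Commute a v from hv)).eq
            | inv u _ hu => exact (show Commute a u from hu).inv_right.eq
          | one => rw [mul_one, one_mul]
          | mul u v _ _ hu hv => exact (Commute.mul_left (show Commute u b from hu) (show Commute v b from hv)).eq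
          | inv u _ hu => exact (show Commute u b from hu).inv_left.eq
        have hA'2 : ∀ a ∈ A', a ^ 2 = 1 := by
          intro a ha
          have hcl : closure ((A₀ : Set E) ∪ {k₁}) ≤ A' := hgen.ge
          rw [hgen] at ha
          induction ha using closure_induction with
          | mem a ha =>
            rcases ha with ha | ha
            · exact hA2 a (hA₀A ha)
            · rw [Set.mem_singleton_iff] at ha; rw [ha]; exact hk₁2
          | one => exact one_pow 2
          | mul u v hu hv ihu ihv =>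
            rw [(show Commute u v from hA'c u (hcl hu) v (hcl hv)).mul_pow, ihu, ihv, one_mul]
          | inv u hu ihu => rw [inv_pow, ihu, inv_one]
        have h5 := hr A' (hA' ▸ sup_le hA₀K (zpowers_le.mpr hk₁K)) hA'c hA'2
        have h6 : Nat.card A₀ * 2 ≤ Nat.card A' := by
          have h7 := (A₀.subgroupOf A').card_mul_index
          rw [Nat.card_congr (subgroupOfEquivOfLe hlt.le).toEquiv] at h7
          have h8 : (A₀.subgroupOf A').index ≠ 1 := by
            intro h9
            exact hlt.not_ge (subgroupOf_eq_top.mp (index_eq_one.mp h9))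
          have h9 : (A₀.subgroupOf A').index ≠ 0 := index_ne_zero_of_finite
          rw [← h7]
          exact Nat.mul_le_mul_left _ (by omega)
        rw [hcard, h4, pow_succ]
        omega
      · have h5 : Nat.card f.range ≤ 2 := by
          have h6 := Nat.le_of_dvd (by norm_num) hrd
          obtain ⟨c, hc⟩ := hrd
          have h7 : Nat.card f.range ≠ 3 := by
            intro h8
            rw [h8] at hc
            omega
          omega
        rw [hcard, pow_succ]
        exact Nat.mul_le_mul hA₀r h5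
  rw [key, ← hK]
  constructor
  · intro hr A hA hA2
    have hAc := PUtil.isMulCommutative_iff.mp hA
    have h1 := hr (A.map K.subtype) (map_subtype_le _) (by
      rintro _ ⟨a, ha, rfl⟩ _ ⟨b, hb, rfl⟩
      exact congrArg K.subtype (hAc a ha b hb)) (by
      rintro _ ⟨a, ha, rfl⟩
      exact congrArg K.subtype (hA2 a ha))
    rwa [Nat.card_congr (A.equivMapOfInjective _ K.subtype_injective).symm.toEquiv] at h1
  · intro hr A hAK hAc hA2
    have h1 := hr (A.subgroupOf K) (PUtil.isMulCommutative_iff.mpr (fun a ha b hb => Subtype.ext (hAc a (mem_subgroupOf.mp ha) b (mem_subgroupOf.mp hb))))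
      (fun a ha => Subtype.ext (hA2 a (mem_subgroupOf.mp ha)))
    rwa [Nat.card_congr (subgroupOfEquivOfLe hAK).toEquiv] at h1

theorem rank_two_card (hE : Nat.card E = 2) : Cfsg.PRankLE 2 1 E ∧ ¬ Cfsg.PRankLE 2 0 E := by
  haveI : Fact (Nat.Prime 2) := ⟨Nat.prime_two⟩
  haveI : IsCyclic E := isCyclic_of_prime_card hE
  letI := IsCyclic.commGroup (α := E)
  constructor
  · intro A _ _
    rw [pow_one, ← hE]
    exact Nat.le_of_dvd Nat.card_pos (card_subgroup_dvd_card A)
  · intro h
    have h1 := h ⊤ (PUtil.isMulCommutative_iff.mpr (fun a _ b _ => mul_comm a b)) (fun a _ => by rw [← hE]; exact pow_card_eq_one')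
    rw [card_top, hE] at h1
    omega

theorem td_of_inv (D : Dat 2 z) {w : E} (hw : w ^ 2 = 1) (hwz : w ∉ zpowers z) : TD z := by
  haveI : Fact (Nat.Prime 2) := ⟨Nat.prime_two⟩
  obtain ⟨v, hv⟩ : ∃ v : E, ⁅w, v⁆ ≠ 1 := by
    by_contra hcon
    push Not at hcon
    exact hwz (D.cen w (fun y => commutatorElement_eq_one_iff_mul_comm.mp (hcon y)))
  have h1 : ⁅w, v⁆ = z := by
    obtain ⟨n, hn⟩ := mem_zpowers_iff.mp (D.comm w v)
    have hz : z ^ 2 = 1 := D.zp (mem_zpowers z)
    have hz2 : z ^ (2 : ℤ) = 1 := by exact_mod_cast hz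
    rcases Int.even_or_odd' n with ⟨k, rfl | rfl⟩
    · exfalso; apply hv; rw [← hn, zpow_mul, hz2, one_zpow]
    · rw [← hn, zpow_add, zpow_mul, hz2, one_zpow, one_mul, zpow_one]
  exact D.td_of h1 hw

theorem rank_one_of_not_td (D : Dat 2 z) (h : ¬ TD z) : Cfsg.PRankLE 2 1 E := by
  intro A _ hA2
  have h1 : A ≤ zpowers z := by
    intro a ha
    by_contra ha'
    exact h (td_of_inv D (hA2 a ha) ha')
  rw [pow_one, ← D.ord, ← Nat.card_zpowers]
  exact Nat.le_of_dvd Nat.card_pos (card_dvd_of_le h1)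

theorem not_rank_zero (D : Dat 2 z) : ¬ Cfsg.PRankLE 2 0 E := by
  intro h
  have hz : z ^ 2 = 1 := D.zp (mem_zpowers z)
  have h1 := h (zpowers z) (PUtil.isMulCommutative_iff.mpr (by
    rintro _ ⟨i, rfl⟩ _ ⟨j, rfl⟩
    exact ((Commute.refl z).zpow_zpow i j).eq)) (by
    rintro _ ⟨i, rfl⟩
    change (z ^ i) ^ 2 = 1
    rw [← zpow_natCast, ← zpow_mul, mul_comm, zpow_mul, zpow_natCast, hz, one_zpow])
  rw [Nat.card_zpowers, D.ord] at h1
  omega

end

theorem rank_main (n : ℕ) : ∀ (E : Type u) [Group E] [Finite E] (z : E) (_ : Dat 2 z) (_ : Nat.card E = 2 ^ (2 * n + 1)),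
    (Cfsg.PRankLE 2 n E ∧ ¬ Cfsg.PRankLE 2 (n - 1) E) ∨ (Cfsg.PRankLE 2 (n + 1) E ∧ ¬ Cfsg.PRankLE 2 n E) := by
  haveI : Fact (Nat.Prime 2) := ⟨Nat.prime_two⟩
  induction n with
  | zero =>
    intro E _ _ z D hE
    exact Or.inr (rank_two_card (by rw [hE]; norm_num))
  | succ n ih =>
    intro E _ _ z D hE
    by_cases hT : TD z
    · obtain ⟨x, y, h, hx, hy⟩ := hT
      have hc := D.card_eq h
      have hK : Nat.card (centralizer ({x, y} : Set E)) = 2 ^ (2 * n + 1) := by
        rw [hE, show 2 * (n + 1) + 1 = 2 + (2 * n + 1) by ring, pow_add] at hc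
        exact (Nat.eq_of_mul_eq_mul_left (by norm_num) hc).symm
      have hup := rank_up D h hx hy
      rcases ih _ _ (D.sub h) hK with ⟨h1, h2⟩ | ⟨h1, h2⟩
      · left
        refine ⟨(hup n).mpr h1, ?_⟩
        rw [Nat.add_sub_cancel]
        rcases Nat.eq_zero_or_pos n with h0 | h0
        · exfalso
          subst h0
          exact h2 h1
        · obtain ⟨m, rfl⟩ : ∃ m, n = m + 1 := ⟨n - 1, by omega⟩
          rw [Nat.add_sub_cancel] at h2
          rw [hup]; exact h2
      · right
        exact ⟨(hup _).mpr h1, fun h3 => h2 ((hup _).mp h3)⟩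
    · have h8 : ¬ 8 < Nat.card E := fun h => hT (D.td_of_card h)
      have hn : n = 0 := by
        by_contra hn
        apply h8
        rw [hE]
        calc 8 < 2 ^ 5 := by norm_num
          _ ≤ 2 ^ (2 * (n + 1) + 1) := Nat.pow_le_pow_right (by norm_num) (by omega)
      subst hn
      exact Or.inl ⟨rank_one_of_not_td D hT, not_rank_zero D⟩

theorem iso_rank (n : ℕ) : ∀ (E₁ : Type u) (E₂ : Type v) [Group E₁] [Group E₂] [Finite E₁] [Finite E₂] (z₁ : E₁) (z₂ : E₂)
    (_ : Dat 2 z₁) (_ : Dat 2 z₂) (_ : Nat.card E₁ = Nat.card E₂) (_ : ∀ k : ℕ, Cfsg.PRankLE 2 k E₁ ↔ Cfsg.PRankLE 2 k E₂) (_ : Nat.card E₁ ≤ n),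
    ∃ f : E₁ ≃* E₂, f z₁ = z₂ := by
  haveI : Fact (Nat.Prime 2) := ⟨Nat.prime_two⟩
  induction n with
  | zero => intro E₁ E₂ _ _ _ _ z₁ z₂ D₁ D₂ _ _ hn; exact absurd (Nat.le_zero.mp hn) Nat.card_pos.ne'
  | succ n ih =>
    intro E₁ E₂ _ _ _ _ z₁ z₂ D₁ D₂ hc hr hn
    by_cases hab : ∀ x y : E₁, x * y = y * x
    · have h1 := D₁.card_of_comm hab
      exact iso_cyc D₁ D₂ h1 (hc ▸ h1)
    have hab2 : ¬ ∀ x y : E₂, x * y = y * x := fun h =>
      hab (D₁.comm_of_card (hc.trans (D₂.card_of_comm h)))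
    by_cases h8 : 8 < Nat.card E₁
    · obtain ⟨x₁, y₁, h₁, a₁, b₁⟩ := D₁.td_of_card h8
      obtain ⟨x₂, y₂, h₂, a₂, b₂⟩ := D₂.td_of_card (hc ▸ h8)
      have c1 := D₁.card_eq h₁
      have c2 := D₂.card_eq h₂
      exact glue_td D₁ D₂ h₁ h₂ a₁ a₂ b₁ b₂ (ih _ _ _ _ (D₁.sub h₁) (D₂.sub h₂) (by omega)
        (fun k => by rw [← rank_up D₁ h₁ a₁ b₁, ← rank_up D₂ h₂ a₂ b₂]; exact hr (k + 1)) (by omega))
    · obtain ⟨x, y, hxy⟩ := D₁.exists_pair hab
      have h4 := D₁.card_eq hxy
      have h5 : 2 ≤ Nat.card (centralizer ({x, y} : Set E₁)) := by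
        have h6 : Nat.card (zpowers z₁) ≤ Nat.card (centralizer ({x, y} : Set E₁)) :=
          card_le_of_le (zpowers_le.mpr (D₁.z_mem _))
        rwa [Nat.card_zpowers, D₁.ord] at h6
      have c1 : Nat.card E₁ = 8 := by omega
      have c2 : Nat.card E₂ = 8 := by omega
      have htd1 : TD z₁ → ¬ Cfsg.PRankLE 2 1 E₁ := by
        rintro ⟨x₁, y₁, h₁, a₁, b₁⟩ h6
        exact not_rank_zero (D₁.sub h₁) ((rank_up D₁ h₁ a₁ b₁ 0).mp h6)
      have htd2 : TD z₂ → ¬ Cfsg.PRankLE 2 1 E₂ := by
        rintro ⟨x₁, y₁, h₁, a₁, b₁⟩ h6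
        exact not_rank_zero (D₂.sub h₁) ((rank_up D₂ h₁ a₁ b₁ 0).mp h6)
      by_cases t1 : TD z₁ <;> by_cases t2 : TD z₂
      · exact iso_eight_td D₁ D₂ c1 c2 t1 t2
      · exact absurd ((hr 1).mpr (rank_one_of_not_td D₂ t2)) (htd1 t1)
      · exact absurd ((hr 1).mp (rank_one_of_not_td D₁ t1)) (htd2 t2)
      · exact iso_eight_tq D₁ D₂ c1 c2 ((D₁.td_or_tq hab).resolve_left t1) ((D₂.td_or_tq hab2).resolve_left t2)

end Cfsg.Agent.H2.ExRank
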