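import Cfsg.Agent.H2.PUtil
import Cfsg.Agent.Lib.Nilp
import Cfsg.Agent.Lib.Cores
import Cfsg.Prelude
import Mathlib

/-! A criterion for the derived subgroup to lie in the Fitting subgroup. -/

set_option autoImplicit false

namespace Cfsg.Agent.H2.FitComm

open Subgroup Cfsg.Agent.Lib
open scoped commutatorElement

variable {G : Type*} [Group G] [Finite G]

theorem sylow_fit_le {s : ℕ} [Fact s.Prime] (P : Sylow s (Cfsg.fittingSubgroup G)) :
    (P : Subgroup (Cfsg.fittingSubgroup G)).map (Cfsg.fittingSubgroup G).subtype ≤ Cfsg.pCore s G := by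
  haveI hn : Group.IsNilpotent (Cfsg.fittingSubgroup G) := Cores.fitting_nilpotent
  haveI hF : (Cfsg.fittingSubgroup G).Normal := Cores.fitting_normal
  have hPn : (P : Subgroup (Cfsg.fittingSubgroup G)).Normal := PUtil.sylow_normal_of_nilpotent hn P
  have hPc : (P : Subgroup (Cfsg.fittingSubgroup G)).Characteristic := P.characteristic_of_normal hPn
  exact Cores.le_pCore inferInstance (P.isPGroup'.map _)

theorem fit_le_of {T : Subgroup G} (h : ∀ s : ℕ, s.Prime → Cfsg.pCore s G ≤ T) : Cfsg.fittingSubgroup G ≤ T := by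
  have h1 : T.subgroupOf (Cfsg.fittingSubgroup G) = ⊤ := by
    apply Cores.eq_top_of_sylow_le
    intro s hs
    haveI : Fact s.Prime := ⟨hs⟩
    obtain ⟨P⟩ := (inferInstance : Nonempty (Sylow s (Cfsg.fittingSubgroup G)))
    refine ⟨P, fun x hx => ?_⟩
    rw [mem_subgroupOf]
    exact h s hs (sylow_fit_le P ⟨x, hx, rfl⟩)
  rwa [subgroupOf_eq_top] at h1

theorem mem_cent_fit {x : G} (h : ∀ s : ℕ, s.Prime → x ∈ centralizer (Cfsg.pCore s G : Set G)) :
    x ∈ centralizer (Cfsg.fittingSubgroup G : Set G) := by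
  have h1 : Cfsg.fittingSubgroup G ≤ centralizer {x} := by
    apply fit_le_of
    intro s hs y hy
    rw [mem_centralizer_singleton_iff]
    exact (mem_centralizer_iff.1 (h s hs) y hy)
  rw [mem_centralizer_iff]
  intro y hy
  exact mem_centralizer_singleton_iff.1 (h1 hy)

theorem mem_pCore_of_mem_fit {s : ℕ} [Fact s.Prime] {x : G} (hx : x ∈ Cfsg.fittingSubgroup G) {k : ℕ} (hk : x ^ s ^ k = 1) :
    x ∈ Cfsg.pCore s G := by
  have h1 : IsPGroup s (zpowers (⟨x, hx⟩ : Cfsg.fittingSubgroup G)) := by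
    rintro ⟨_, i, rfl⟩
    refine ⟨k, Subtype.ext (Subtype.ext ?_)⟩
    show (x ^ i) ^ s ^ k = 1
    rw [← zpow_natCast, ← zpow_mul, mul_comm, zpow_mul, zpow_natCast, hk, one_zpow]
  obtain ⟨P, hP⟩ := h1.exists_le_sylow
  exact sylow_fit_le P ⟨_, hP (mem_zpowers _), rfl⟩

/-- a power with exponent coprime to the order generates -/
theorem mem_of_pow_mem {x : G} {r s k j : ℕ} (hr : r.Prime) (hs : s.Prime) (hrs : r ≠ s) (hx : x ^ r ^ k = 1) {T : Subgroup G} (h : x ^ s ^ j ∈ T) :
    x ∈ T := by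
  have hcop : (orderOf x).Coprime (s ^ j) := by
    apply Nat.Coprime.pow_right
    exact Nat.Coprime.coprime_dvd_left (_root_.orderOf_dvd_of_pow_eq_one hx) (Nat.Coprime.pow_left k ((Nat.coprime_primes hr hs).2 hrs))
  obtain ⟨m, hm⟩ := exists_pow_eq_self_of_coprime (n := s ^ j) (x := x) hcop.symm
  rw [← hm]
  exact pow_mem h m

theorem main [hs : Group.IsSolvable G] {D : Subgroup G} [hD : D.Normal]
    (h : ∀ s : ℕ, s.Prime → ∀ x ∈ D, ∃ k : ℕ, x ^ s ^ k ∈ centralizer (Cfsg.pCore s G : Set G)) :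
    D ≤ Cfsg.fittingSubgroup G := by
  classical
  haveI hF : (Cfsg.fittingSubgroup G).Normal := Cores.fitting_normal
  have key : ∀ q : ℕ, q.Prime → ∀ x ∈ D, ∀ j : ℕ, x ^ q ^ j = 1 → x ∈ Cfsg.fittingSubgroup G := by
    intro q hq x hx j hj
    haveI : Fact q.Prime := ⟨hq⟩
    let C : Subgroup G := ⨅ s : {s : ℕ // s.Prime ∧ s ≠ q}, centralizer (Cfsg.pCore (s : ℕ) G : Set G)
    have hCmem : ∀ y, y ∈ C ↔ ∀ s : ℕ, s.Prime → s ≠ q → y ∈ centralizer (Cfsg.pCore s G : Set G) := by
      intro y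
      rw [mem_iInf]
      exact ⟨fun h s h1 h2 => h ⟨s, h1, h2⟩, fun h s => h s s.2.1 s.2.2⟩
    have hCn : C.Normal := by
      refine ⟨fun y hy g => ?_⟩
      rw [hCmem] at hy ⊢
      intro s h1 h2
      haveI := Cores.pCore_normal (G := G) s
      exact (inferInstance : (centralizer (Cfsg.pCore s G : Set G)).Normal).conj_mem y (hy s h1 h2) g
    let H : Subgroup G := D ⊓ C
    have hHn : H.Normal := inferInstance
    -- primary elements for other primes are central
    have hcen : ∀ r : ℕ, r.Prime → r ≠ q → ∀ y ∈ H, ∀ k : ℕ, y ^ r ^ k = 1 → ∀ z ∈ H, y * z = z * y := by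
      intro r hr hrq y hy k hk z hz
      haveI : Fact r.Prime := ⟨hr⟩
      have h1 : y ∈ centralizer (Cfsg.fittingSubgroup G : Set G) := by
        apply mem_cent_fit
        intro s hs
        by_cases hsq : s = q
        · obtain ⟨i, hi⟩ := h s hs y hy.1
          exact mem_of_pow_mem hr hs (by rw [hsq]; exact hrq) hk hi
        · exact (hCmem y).1 hy.2 s hs hsq
      have h2 := Nilp.centralizer_fitting_le h1
      have h3 := mem_pCore_of_mem_fit h2 hk
      exact mem_centralizer_iff.1 ((hCmem z).1 hz.2 r hr hrq) y h3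
    have hnil : Group.IsNilpotent H := by
      apply ((Group.isNilpotent_of_finite_tfae (G := H)).out 0 3).2
      intro r hr P
      by_cases hrq : r = q
      · subst hrq
        rw [← normalizer_eq_top_iff]
        apply Cores.eq_top_of_sylow_le
        intro t ht
        haveI : Fact t.Prime := ⟨ht⟩
        by_cases htr : t = r
        · subst htr
          exact ⟨P, le_normalizer⟩
        · obtain ⟨T⟩ := (inferInstance : Nonempty (Sylow t H))
          refine ⟨T, fun y hy => ?_⟩
          obtain ⟨k, hk⟩ := T.isPGroup' ⟨y, hy⟩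
          have hk' : (y : G) ^ t ^ k = 1 := congrArg (fun z : T => ((z : H) : G)) hk
          have h1 : y ∈ centralizer ((P : Subgroup H) : Set H) := by
            rw [mem_centralizer_iff]
            intro z _
            exact (Subtype.ext (hcen t ht htr y y.2 k hk' z z.2)).symm
          exact centralizer_le_normalizer _ h1
      · refine ⟨fun y hy g => ?_⟩
        obtain ⟨k, hk⟩ := P.isPGroup' ⟨y, hy⟩
        have hk' : (y : G) ^ r ^ k = 1 := congrArg (fun z : P => ((z : H) : G)) hk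
        have h1 : y * g = g * y := Subtype.ext (hcen r hr.out hrq y y.2 k hk' g g.2)
        rw [← h1, mul_assoc, mul_inv_cancel, mul_one]
        exact hy
    have hHF : H ≤ Cfsg.fittingSubgroup G := Cores.le_fitting hHn hnil
    apply hHF
    refine ⟨hx, (hCmem x).2 fun s hs hsq => ?_⟩
    obtain ⟨i, hi⟩ := h s hs x hx
    exact mem_of_pow_mem hq hs (Ne.symm hsq) hj hi
  have h1 : (Cfsg.fittingSubgroup G).subgroupOf D = ⊤ := by
    apply Cores.eq_top_of_sylow_le
    intro q hq
    haveI : Fact q.Prime := ⟨hq⟩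
    obtain ⟨P⟩ := (inferInstance : Nonempty (Sylow q D))
    refine ⟨P, fun y hy => ?_⟩
    obtain ⟨k, hk⟩ := P.isPGroup' ⟨y, hy⟩
    have hk' : (y : G) ^ q ^ k = 1 := congrArg (fun z : P => ((z : D) : G)) hk
    exact key q hq y y.2 k hk'
  rwa [subgroupOf_eq_top] at h1

end Cfsg.Agent.H2.FitComm
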