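import Cfsg.Agent.H2.OddStab
import Cfsg.Agent.Lib.PSolB
import Cfsg.Agent.Lib.HallHigman
import Cfsg.Agent.Lib.ZJeB

set_option autoImplicit false
set_option linter.unusedSectionVars false

namespace Cfsg.Agent.H2.OddStabB

open Subgroup Cfsg.Agent.Lib Cfsg.Agent.H2.OddStab

theorem cpc {G : Type*} [Group G] [Finite G] {p : ℕ} [Fact p.Prime] (hs : Group.IsSolvable G) (h : Cfsg.pPrimeCore p G = ⊥) :
    centralizer (Cfsg.pCore p G : Set G) ≤ Cfsg.pCore p G :=
  HallHigman.centralizer_pCore_le p (PSolB.of_isSolvable (Nat.card G) G p le_rfl hs) h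

theorem quad_of {G : Type*} [Group G] {P B : Subgroup G} (hPB : P ≤ normalizer (B : Set G)) (hB : ∀ x ∈ B, ∀ y ∈ B, x * y = y * x)
    {b : G} (hb : b ∈ B) : ⁅⁅P, zpowers b⁆, zpowers b⁆ = ⊥ := by
  have hz : zpowers b ≤ B := zpowers_le.2 hb
  have h1 : ⁅P, zpowers b⁆ ≤ B := by
    rw [commutator_le]
    intro x hx y hy
    rw [_root_.commutatorElement_def]
    exact B.mul_mem ((mem_normalizer_iff.1 (hPB hx) y).1 (hz hy)) (B.inv_mem (hz hy))
  rw [eq_bot_iff, commutator_le]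
  intro x hx y hy
  rw [mem_bot, _root_.commutatorElement_eq_one_iff_mul_comm]
  exact hB x (h1 hx) y (hz hy)

theorem odd_quot {G : Type*} [Group G] [Finite G] (h : Odd (Nat.card G)) (N : Subgroup G) [N.Normal] : Odd (Nat.card (G ⧸ N)) :=
  Odd.of_dvd_nat h (Subgroup.card_quotient_dvd_card N)

/-- an abelian normal subgroup of a Sylow subgroup lies in the core, reduced case -/
theorem mem_core {G : Type*} [Group G] [Finite G] {p : ℕ} [Fact p.Prime] (hs : Group.IsSolvable G) (h : Cfsg.pPrimeCore p G = ⊥)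
    (hp : p ≠ 2) (hodd : Odd (Nat.card G)) {A : Subgroup G} (hA : ∀ x ∈ A, ∀ y ∈ A, x * y = y * x)
    (hQ : Cfsg.pCore p G ≤ normalizer (A : Set G)) : A ≤ Cfsg.pCore p G := by
  haveI := Cores.pCore_normal (G := G) p
  have hc := cpc hs h
  intro a ha
  have h1 := stable_normal (stable_of_odd hp hodd) (Cfsg.pCore p G) (Cores.pCore_isPGroup p) (quad_of hQ hA ha)
  have h2 : IsPGroup p (QuotientGroup.mk' (centralizer (Cfsg.pCore p G : Set G))).ker := by
    rw [QuotientGroup.ker_mk']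
    exact (Cores.pCore_isPGroup p).to_le hc
  exact Cores.comap_pCore_le_of_ker _ h2 h1

theorem J_map_of_inj' {G H : Type*} [Group G] [Finite G] [Group H] [Finite H] {p : ℕ} (f : G →* H) (X : Subgroup G)
    (hf' : ∀ x ∈ X, f x = 1 → x = 1) : (Cfsg.thompsonSubgroupOf p X).map f = Cfsg.thompsonSubgroupOf p (X.map f) := by
  rw [ZJe.J_eq, ZJe.J_eq]
  apply le_antisymm
  · rw [map_le_iff_le_comap]
    refine sSup_le fun A hA => ?_
    rw [← map_le_iff_le_comap]
    exact le_sSup (PStabZ.fam_map_of_inj hf' hA)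
  · refine sSup_le fun B hB => ?_
    have h1 := PStabZ.fam_comap_of_inj hf' hB
    have h2 := map_mono (f := f) (le_sSup h1)
    rwa [PStabZ.map_comap_inf hB.1] at h2

theorem Zc_map_of_inj' {G H : Type*} [Group G] [Finite G] [Group H] [Finite H] {p : ℕ} (f : G →* H) (X : Subgroup G)
    (hf' : ∀ x ∈ X, f x = 1 → x = 1) : (Cfsg.centerThompsonOf p X).map f = Cfsg.centerThompsonOf p (X.map f) := by
  have hJX : Cfsg.thompsonSubgroupOf p X ≤ X := Subgroup.map_subtype_le _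
  unfold Cfsg.centerThompsonOf
  rw [← J_map_of_inj' f X hf']
  ext y
  constructor
  · rintro ⟨x, ⟨hx1, hx2⟩, rfl⟩
    refine ⟨⟨x, hx1, rfl⟩, ?_⟩
    show f x ∈ centralizer _
    rw [mem_centralizer_iff]
    rintro _ ⟨z, hz, rfl⟩
    rw [← map_mul, mem_centralizer_iff.1 hx2 z hz, map_mul]
  · rintro ⟨⟨x, hx1, rfl⟩, hx2⟩
    refine ⟨x, ⟨hx1, ?_⟩, rfl⟩
    show x ∈ centralizer _
    rw [mem_centralizer_iff]
    intro z hz
    have h1 := mem_centralizer_iff.1 hx2 (f z) ⟨z, hz, rfl⟩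
    have h2 : f (z * x * z⁻¹ * x⁻¹) = 1 := by
      rw [map_mul, map_mul, map_mul, map_inv, map_inv, h1]; group
    have h3 := hf' _ (X.mul_mem (X.mul_mem (X.mul_mem (hJX hz) (hJX hx1)) (X.inv_mem (hJX hz))) (X.inv_mem (hJX hx1))) h2
    exact mul_inv_eq_iff_eq_mul.1 (mul_inv_eq_one.1 h3)

end Cfsg.Agent.H2.OddStabB
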