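import Cfsg.Agent.H2.TwoDimB
import Cfsg.Agent.H2.OddStabB
import Cfsg.Agent.Lib.PNilp
import Cfsg.Agent.Lib.PCon
import Cfsg.Prelude
import Mathlib

/-! Solvable groups of odd order of `p`-rank at most two: common consequences. -/

set_option autoImplicit false

namespace Cfsg.Agent.H2.R2Core

open Subgroup Cfsg.Agent.Lib Cfsg.Agent.Lib.Cores
open scoped commutatorElement

variable {G : Type*} [Group G] [Finite G] {p : ℕ} [Fact p.Prime]

theorem rank_sub {k : ℕ} {G : Type*} [Group G] (h : Cfsg.PRankLE p k G) (H : Subgroup G) : Cfsg.PRankLE p k H := by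
  intro A hA hA1
  have h1 := h (A.map H.subtype) (by
    rw [PUtil.isMulCommutative_iff] at hA ⊢
    rintro _ ⟨x, hx, rfl⟩ _ ⟨y, hy, rfl⟩
    exact congrArg Subtype.val (hA x hx y hy)) (by
    rintro _ ⟨x, hx, rfl⟩
    exact congrArg Subtype.val (hA1 x hx))
  rwa [Nat.card_congr (A.equivMapOfInjective _ H.subtype_injective).symm.toEquiv] at h1

/-- the rank of a quotient by a normal `p'`-subgroup -/
theorem rank_quot {k : ℕ} (h : Cfsg.PRankLE p k G) (N : Subgroup G) [N.Normal] (hN : (Nat.card N).Coprime p) :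
    Cfsg.PRankLE p k (G ⧸ N) := by
  have hpp : p.Prime := Fact.out
  intro A hA hA1
  have hAp : IsPGroup p A := fun x => ⟨1, Subtype.ext (by rw [pow_one]; exact hA1 x x.2)⟩
  let B : Subgroup G := A.comap (QuotientGroup.mk' N)
  obtain ⟨S⟩ : Nonempty (Sylow p B) := inferInstance
  let T : Subgroup G := (S : Subgroup B).map B.subtype
  have hTp : IsPGroup p T := S.isPGroup'.map _
  have hTB : T ≤ B := map_subtype_le _
  have hTN : ∀ x ∈ T, x ∈ N → x = 1 := by
    intro x hx hxN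
    obtain ⟨j, hj⟩ := hTp ⟨x, hx⟩
    have hj' : x ^ p ^ j = 1 := congrArg Subtype.val hj
    have h1 := _root_.orderOf_dvd_of_pow_eq_one hj'
    have h2 : orderOf x ∣ Nat.card N := by
      have := _root_.orderOf_dvd_natCard (⟨x, hxN⟩ : N)
      rwa [Subgroup.orderOf_mk] at this
    exact _root_.orderOf_eq_one_iff.1 (Nat.eq_one_of_dvd_coprimes (hN.symm.pow_left j) h1 h2)
  have hinj : Set.InjOn (QuotientGroup.mk' N) T := by
    intro x hx y hy hxy
    have h1 : x⁻¹ * y ∈ N := QuotientGroup.eq.1 hxy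
    have h2 := hTN _ (mul_mem (inv_mem hx) hy) h1
    exact inv_mul_eq_one.1 h2
  have hcomm : ∀ x ∈ T, ∀ y ∈ T, x * y = y * x := by
    intro x hx y hy
    apply hinj (mul_mem hx hy) (mul_mem hy hx)
    rw [map_mul, map_mul]
    exact (PUtil.isMulCommutative_iff.1 hA) _ (hTB hx) _ (hTB hy)
  have hexp : ∀ x ∈ T, x ^ p = 1 := by
    intro x hx
    apply hinj (pow_mem hx p) (one_mem _)
    rw [map_pow, map_one]
    exact hA1 _ (hTB hx)
  have h3 := h T (PUtil.isMulCommutative_iff.2 hcomm) hexp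
  refine le_trans ?_ h3
  -- card A divides card T
  obtain ⟨n, hn⟩ := IsPGroup.iff_card.1 hAp
  have h4 : Nat.card A ∣ Nat.card B := by
    have := card_comap_eq (QuotientGroup.mk' N) (QuotientGroup.mk'_surjective N) A
    exact ⟨_, this.trans (mul_comm _ _)⟩ 
  have h5 : Nat.card T = Nat.card S := Nat.card_congr ((S : Subgroup B).equivMapOfInjective _ B.subtype_injective).symm.toEquiv
  have h6 : p ^ n ∣ Nat.card S := by
    rw [hn] at h4
    exact S.pow_dvd_card_of_pow_dvd_card h4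
  rw [h5, hn]
  exact Nat.le_of_dvd Nat.card_pos h6

/-- the common conclusions -/
theorem conseq (hodd : Odd (Nat.card G)) (h1 : commutator G ≤ Cfsg.pPrimePCore p G)
    (h2 : ∀ q : ℕ, q.Prime → q ∣ (Cfsg.pPrimeCore p G).index → q ≤ p) :
    (∀ q : ℕ, q.Prime → q ∣ (Cfsg.pPrimeCore p G).index → q ≤ p) ∧
      ((p = 3 ∨ ∀ q : ℕ, q.Prime → q ∣ Nat.card G → p ≤ q) → Cfsg.HasNormalPComplement p G) ∧
      Cfsg.HasNormalPComplement p ↥(commutator G) ∧
      (∀ L : Subgroup ↥(commutator G), (Nat.card L).Coprime p → L ≤ Cfsg.pPrimeCore p ↥(commutator G)) ∧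
      commutator G ≤ Cfsg.pPrimePCore p G ∧ ((Cfsg.pPrimePCore p G).index).Coprime p := by
  have hpp : p.Prime := Fact.out
  haveI hNn : (Cfsg.pPrimeCore p G).Normal := Cores.pPrimeCore_normal p
  have hNil : PNilp.PNil p ↥(commutator G) := by
    have hL : PNilp.PNil p ↥(Cfsg.pPrimePCore p G) := by
      refine ⟨(Cfsg.pPrimeCore p G).subgroupOf (Cfsg.pPrimePCore p G), inferInstance, ?_, ?_⟩
      · rw [Nat.card_congr (Subgroup.subgroupOfEquivOfLe (PCon.pPrimeCore_le_pPrimePCore p)).toEquiv]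
        exact pPrimeCore_coprime p
      · have h3 := Subgroup.relIndex_ker (K := Cfsg.pPrimePCore p G) (QuotientGroup.mk' (Cfsg.pPrimeCore p G))
        rw [QuotientGroup.ker_mk', PCon.pPrimePCore_map] at h3
        obtain ⟨k, hk⟩ := IsPGroup.iff_card.1 (pCore_isPGroup (G := G ⧸ Cfsg.pPrimeCore p G) p)
        exact ⟨k, by rw [← hk, ← h3]; rfl⟩
    exact hL.of_le h1
  refine ⟨h2, ?_, PNilp.hasNormalPComplement_iff.2 hNil, ?_, h1, ?_⟩
  · intro h3
    rw [PNilp.hasNormalPComplement_iff, PNilp.pNil_iff_core]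
    refine ⟨_, Nat.eq_prime_pow_of_unique_prime_dvd (Nat.ne_of_gt Nat.card_pos : (Cfsg.pPrimeCore p G).index ≠ 0) ?_⟩
    intro q hq hqd
    have h4 := h2 q hq hqd
    have h5 : q ∣ Nat.card G := hqd.trans (Subgroup.index_dvd_card _)
    rcases h3 with h3 | h3
    · rw [h3] at h4 ⊢
      have h6 : q ≠ 2 := by
        rintro rfl
        obtain ⟨k, hk⟩ := hodd
        omega
      have := hq.two_le
      omega
    · exact le_antisymm h4 (h3 q hq h5)
  · intro L hL x hx
    rw [PNilp.mem_iff_coprime (Cores.pPrimeCore_normal p) (pPrimeCore_coprime p) (PNilp.pNil_iff_core.1 hNil)]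
    refine Nat.Coprime.coprime_dvd_left ?_ hL
    have := _root_.orderOf_dvd_natCard (⟨x, hx⟩ : L)
    rwa [Subgroup.orderOf_mk] at this
  · -- index
    have h3 : (Cfsg.pPrimePCore p G).index = (Cfsg.pCore p (G ⧸ Cfsg.pPrimeCore p G)).index := by
      unfold Cfsg.pPrimePCore
      exact index_comap_of_surjective _ (QuotientGroup.mk'_surjective _)
    rw [h3]
    obtain ⟨S⟩ : Nonempty (Sylow p (G ⧸ Cfsg.pPrimeCore p G)) := inferInstance
    have h4 : commutator (G ⧸ Cfsg.pPrimeCore p G) ≤ Cfsg.pCore p (G ⧸ Cfsg.pPrimeCore p G) := by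
      rw [_root_.commutator_def, commutator_le]
      intro x _ y _
      obtain ⟨x, rfl⟩ := QuotientGroup.mk_surjective x
      obtain ⟨y, rfl⟩ := QuotientGroup.mk_surjective y
      have h5 : ⁅x, y⁆ ∈ Cfsg.pPrimePCore p G := h1 (by
        rw [_root_.commutator_def]
        exact commutator_mem_commutator (mem_top _) (mem_top _))
      exact h5
    have h5 : (S : Subgroup (G ⧸ Cfsg.pPrimeCore p G)).Normal := by
      refine ⟨fun s hs g => ?_⟩
      have h6 : ⁅g, s⁆ ∈ (S : Subgroup (G ⧸ Cfsg.pPrimeCore p G)) := pCore_le_sylow S (h4 (by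
        rw [_root_.commutator_def]
        exact commutator_mem_commutator (mem_top _) (mem_top _)))
      have h7 : g * s * g⁻¹ = ⁅g, s⁆ * s := by rw [_root_.commutatorElement_def]; group
      rw [h7]
      exact mul_mem h6 hs
    have h6 : Cfsg.pCore p (G ⧸ Cfsg.pPrimeCore p G) = S := le_antisymm (pCore_le_sylow S) (le_pCore h5 S.isPGroup')
    rw [h6, Nat.coprime_comm, hpp.coprime_iff_not_dvd]
    exact S.not_dvd_index

/-- information on `G / O_{p'}(G)` -/
theorem info [Group.IsSolvable G] (hodd : Odd (Nat.card G)) (hp : p ≠ 2)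
    (hcore : Cfsg.pPrimeCore p G = ⊥) (hr : Cfsg.PRankLE p 2 ↥(Cfsg.pCore p G)) :
    commutator G ≤ Cfsg.pCore p G ∧ ∀ q : ℕ, q.Prime → q ∣ Nat.card G → q ≤ p := by
  have hpp : p.Prime := Fact.out
  have hs : Group.IsSolvable G := inferInstance
  have hC := OddStabB.cpc (p := p) hs hcore
  have hRn : (Cfsg.pCore p G).Normal := Cores.pCore_normal p
  have hRp := pCore_isPGroup (G := G) p
  have hA : (⊤ : Subgroup G) ≤ normalizer ((Cfsg.pCore p G : Subgroup G) : Set G) := by rw [normalizer_eq_top]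
  let φ : G →* MulAut (Cfsg.pCore p G) := (TwoDimB.cj hA).comp (Subgroup.topEquiv (G := G)).symm.toMonoidHom
  have hφ : ∀ x : G, φ x = 1 → x ∈ Cfsg.pCore p G := fun x hx => hC ((TwoDimB.cj_eq_one hA _).1 hx)
  constructor
  · apply le_pCore (inferInstance : (commutator G).Normal)
    rintro ⟨x, hx⟩
    obtain ⟨k, hk⟩ := TwoDimB.comm_pow hs hodd hp hRp hr φ x hx
    rw [← map_pow] at hk
    obtain ⟨j, hj⟩ := hRp ⟨_, hφ _ hk⟩
    refine ⟨k + j, Subtype.ext ?_⟩
    have h1 : (x ^ p ^ k) ^ p ^ j = 1 := congrArg Subtype.val hj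
    show x ^ p ^ (k + j) = 1
    rw [pow_add, pow_mul]; exact h1
  · intro q hq hqG
    by_contra hlt
    push Not at hlt
    haveI : Fact q.Prime := ⟨hq⟩
    obtain ⟨x, hx⟩ := exists_prime_orderOf_dvd_card' (G := G) q hqG
    have h1 : orderOf (φ x) = q := by
      have h2 : orderOf (φ x) ∣ q := by rw [← hx]; exact orderOf_map_dvd φ x
      rcases (Nat.dvd_prime hq).1 h2 with h3 | h3
      · exfalso
        rw [_root_.orderOf_eq_one_iff] at h3
        obtain ⟨k, hk⟩ := hRp ⟨x, hφ x h3⟩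
        have h4 : x ^ p ^ k = 1 := congrArg Subtype.val hk
        have h5 := _root_.orderOf_dvd_of_pow_eq_one h4
        rw [hx] at h5
        have h6 := hq.dvd_of_dvd_pow h5
        have := (Nat.prime_dvd_prime_iff_eq hq hpp).1 h6
        omega
      · exact h3
    have h2 := TwoDimB.prime_dvd hp hRp hr (φ x) hq (by omega) h1
    have hp2 := hpp.two_le
    have hq2 : q ≠ 2 := by omega
    rcases hq.dvd_mul.1 h2 with h3 | h3
    · have := Nat.le_of_dvd (by omega) h3
      omega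
    · have h4 := Nat.le_of_dvd (by omega) h3
      have h5 : q = p + 1 := by omega
      rcases hq.eq_two_or_odd' with h6 | h6
      · omega
      · rcases hpp.eq_two_or_odd' with h7 | h7
        · exact hp h7
        · obtain ⟨a, ha⟩ := h6
          obtain ⟨b, hb⟩ := h7
          omega

/-- lifting the information from the quotient -/
theorem lift (hs : Group.IsSolvable G) (hodd : Odd (Nat.card G)) (hp : p ≠ 2)
    (hr : Cfsg.PRankLE p 2 ↥(Cfsg.pCore p (G ⧸ Cfsg.pPrimeCore p G))) :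
    commutator G ≤ Cfsg.pPrimePCore p G ∧ ∀ q : ℕ, q.Prime → q ∣ (Cfsg.pPrimeCore p G).index → q ≤ p := by
  haveI hNn : (Cfsg.pPrimeCore p G).Normal := Cores.pPrimeCore_normal p
  have hodd' : Odd (Nat.card (G ⧸ Cfsg.pPrimeCore p G)) := Odd.of_dvd_nat hodd (Subgroup.card_quotient_dvd_card _)
  have h := info (G := G ⧸ Cfsg.pPrimeCore p G) (p := p) hodd' hp (pPrimeCore_quotient_pPrimeCore p) hr
  refine ⟨?_, fun q hq hqd => h.2 q hq (by rwa [Subgroup.index_eq_card] at hqd)⟩
  rw [_root_.commutator_def, commutator_le]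
  intro x _ y _
  have h5 : ⁅(x : G ⧸ Cfsg.pPrimeCore p G), (y : G ⧸ Cfsg.pPrimeCore p G)⁆ ∈ Cfsg.pCore p (G ⧸ Cfsg.pPrimeCore p G) := h.1 (by
    rw [_root_.commutator_def]
    exact commutator_mem_commutator (mem_top _) (mem_top _))
  exact h5

end Cfsg.Agent.H2.R2Core
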