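import Cfsg.Agent.H2.FitComm
import Cfsg.Agent.H2.R2Core
import Cfsg.Agent.Lib.Hall
import Cfsg.Prelude
import Mathlib

/-! Solvable groups of odd order whose Fitting subgroup has rank at most two. -/

set_option autoImplicit false

namespace Cfsg.Agent.H2.FitCommB

open Subgroup Cfsg.Agent.Lib Cfsg.Agent.Lib.Hall
open scoped commutatorElement

universe u

theorem rank_inj {p k : ℕ} {H K : Type*} [Group H] [Group K] (f : H →* K) (hf : Function.Injective f) (h : Cfsg.PRankLE p k K) :
    Cfsg.PRankLE p k H := by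
  intro A hA hA1
  have h1 := h (A.map f) (by
    rw [PUtil.isMulCommutative_iff] at hA ⊢
    rintro _ ⟨x, hx, rfl⟩ _ ⟨y, hy, rfl⟩
    rw [← map_mul, hA x hx y hy, map_mul]) (by
    rintro _ ⟨x, hx, rfl⟩
    rw [← map_pow, hA1 x hx, map_one])
  rwa [Nat.card_congr (A.equivMapOfInjective _ hf).symm.toEquiv] at h1

theorem rank_le {p k : ℕ} {G : Type*} [Group G] {H K : Subgroup G} (hHK : H ≤ K) (h : Cfsg.PRankLE p k K) : Cfsg.PRankLE p k H :=
  rank_inj (Subgroup.inclusion hHK) (Subgroup.inclusion_injective hHK) h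

variable {G : Type u} [Group G] [Finite G]

theorem conj_one {N : Subgroup G} [N.Normal] {x : G} : MulAut.conjNormal (H := N) x = 1 ↔ x ∈ centralizer (N : Set G) := by
  constructor
  · intro h
    rw [mem_centralizer_iff]
    intro y hy
    have h1 := congrArg (fun f : MulAut N => ((f ⟨y, hy⟩ : N) : G)) h
    have h2 : x * y * x⁻¹ = y := h1
    calc y * x = (x * y * x⁻¹) * x := by rw [h2]
      _ = _ := by group
  · intro h
    ext y
    show x * y * x⁻¹ = y
    rw [mem_centralizer_iff] at h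
    rw [← h y y.2]; group

theorem core_two (hodd : Odd (Nat.card G)) : Cfsg.pCore 2 G = ⊥ := by
  haveI : Fact (Nat.Prime 2) := ⟨Nat.prime_two⟩
  obtain ⟨k, hk⟩ := IsPGroup.iff_card.1 (Cores.pCore_isPGroup (G := G) 2)
  rcases Nat.eq_zero_or_pos k with h | h
  · rw [h, pow_zero] at hk
    exact Subgroup.card_eq_one.1 hk
  · exfalso
    have h1 : 2 ∣ Nat.card G := by
      refine dvd_trans ?_ (Subgroup.card_subgroup_dvd_card (Cfsg.pCore 2 G))
      rw [hk]; exact dvd_pow_self 2 h.ne'
    obtain ⟨j, hj⟩ := hodd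
    omega

theorem acts (hs : Group.IsSolvable G) (hodd : Odd (Nat.card G)) {s : ℕ} (hsp : s.Prime) (hr : Cfsg.PRankLE s 2 (Cfsg.pCore s G)) :
    ∀ x ∈ commutator G, ∃ k : ℕ, x ^ s ^ k ∈ centralizer (Cfsg.pCore s G : Set G) := by
  intro x hx
  haveI : Fact s.Prime := ⟨hsp⟩
  haveI := Cores.pCore_normal (G := G) s
  by_cases h2 : s = 2
  · refine ⟨0, ?_⟩
    subst h2
    rw [core_two hodd, mem_centralizer_iff]
    intro y hy
    rw [SetLike.mem_coe, mem_bot] at hy
    rw [hy, one_mul, mul_one]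
  · obtain ⟨k, hk⟩ := TwoDimB.comm_pow hs hodd h2 (Cores.pCore_isPGroup s) hr (MulAut.conjNormal (H := Cfsg.pCore s G)) x hx
    refine ⟨k, ?_⟩
    rw [← map_pow, conj_one] at hk
    exact hk

theorem cent_of_big (hodd : Odd (Nat.card G)) {r : ℕ} (hrp : r.Prime) (hr : Cfsg.PRankLE r 2 (Cfsg.pCore r G)) {h : G}
    (hh : ∀ q : ℕ, q.Prime → q ∣ orderOf h → r < q) : h ∈ centralizer (Cfsg.pCore r G : Set G) := by
  haveI : Fact r.Prime := ⟨hrp⟩
  haveI := Cores.pCore_normal (G := G) r
  by_cases h2 : r = 2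
  · subst h2
    rw [core_two hodd, mem_centralizer_iff]
    intro y hy
    rw [SetLike.mem_coe, mem_bot] at hy
    rw [hy, one_mul, mul_one]
  rw [← conj_one]
  by_contra hne
  set f := MulAut.conjNormal (H := Cfsg.pCore r G) h with hf
  have h1 : orderOf f ≠ 1 := fun h => hne (_root_.orderOf_eq_one_iff.1 h)
  obtain ⟨q, hq, hqd⟩ := Nat.exists_prime_and_dvd h1
  have h3 : orderOf f ∣ orderOf h := orderOf_map_dvd _ h
  have h4 := hh q hq (hqd.trans h3)
  obtain ⟨m, hm⟩ := hqd
  have hm0 : m ≠ 0 := by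
    rintro rfl
    rw [mul_zero] at hm
    exact (orderOf_pos f).ne' hm
  have h5 : orderOf (f ^ m) = q := by
    rw [orderOf_pow_of_dvd hm0 ⟨q, by rw [hm, mul_comm]⟩, hm, Nat.mul_div_cancel _ (Nat.pos_of_ne_zero hm0)]
  have h6 := TwoDimB.prime_dvd h2 (Cores.pCore_isPGroup r) hr (f ^ m) hq (by omega) h5
  have hr2 := hrp.two_le
  rcases hq.dvd_mul.1 h6 with h7 | h7
  · have := Nat.le_of_dvd (by omega) h7
    omega
  · have h8 := Nat.le_of_dvd (by omega) h7
    have h9 : q = r + 1 := by omega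
    rcases hq.eq_two_or_odd' with h10 | h10
    · omega
    · rcases hrp.eq_two_or_odd' with h11 | h11
      · exact h2 h11
      · obtain ⟨a, ha⟩ := h10
        obtain ⟨b, hb⟩ := h11
        omega

/-- a `π`-subgroup normalizing a Hall `π`-subgroup lies in it -/
theorem le_of_norm {π : Set ℕ} {H K : Subgroup G} (hH : IsHall π H) (hK : PiNum π (Nat.card K)) (h : K ≤ normalizer (H : Set G)) : K ≤ H := by
  have h1 : PiNum π (Nat.card (H ⊔ K : Subgroup G)) := by
    refine PiNum.of_dvd (PiNum.mul hH.1 hK) ?_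
    exact Cores.card_sup_dvd h
  rw [hH.eq_of_le h1 le_sup_left]
  exact le_sup_right

theorem tower (hs : Group.IsSolvable G) (hodd : Odd (Nat.card G)) (hr : ∀ s : ℕ, s.Prime → Cfsg.PRankLE s 2 (Cfsg.pCore s G))
    (hF : commutator G ≤ Cfsg.fittingSubgroup G) (p : ℕ) :
    ∃ N : Subgroup G, N.Characteristic ∧ Cfsg.IsPiHall {q | q.Prime ∧ p < q} N := by
  obtain ⟨H, hH⟩ := exists_isHall (sep_of_solvable {q | q.Prime ∧ p < q} hs)
  have hcent : ∀ r : ℕ, r.Prime → r ≤ p → ∀ h ∈ H, h ∈ centralizer (Cfsg.pCore r G : Set G) := by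
    intro r hrp hrle h hh
    apply cent_of_big hodd hrp (hr r hrp)
    intro q hq hqd
    have h1 : orderOf h ∣ Nat.card H := by
      have := _root_.orderOf_dvd_natCard (⟨h, hh⟩ : H)
      rwa [Subgroup.orderOf_mk] at this
    exact lt_of_le_of_lt hrle (hH.1 q hq (hqd.trans h1)).2
  have hFN : Cfsg.fittingSubgroup G ≤ normalizer (H : Set G) := by
    apply FitComm.fit_le_of
    intro s hsp
    haveI : Fact s.Prime := ⟨hsp⟩
    haveI := Cores.pCore_normal (G := G) s
    by_cases hsle : s ≤ p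
    · intro x hx
      apply centralizer_le_normalizer
      rw [mem_centralizer_iff]
      intro h hh
      exact ((mem_centralizer_iff.1 (hcent s hsp hsle h hh)) x hx).symm
    · have h1 : Cfsg.pCore s G ≤ H := by
        have h2 : PiNum {q | q.Prime ∧ p < q} (Nat.card (Cfsg.pCore s G)) :=
          piNum_of_isPGroup hsp (show s ∈ {q | q.Prime ∧ p < q} from ⟨hsp, by omega⟩) (Cores.pCore_isPGroup s)
        have h3 : PiNum {q | q.Prime ∧ p < q} (Nat.card (Cfsg.pCore s G ⊔ H : Subgroup G)) := by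
          refine PiNum.of_dvd (PiNum.mul h2 hH.1) ?_
          exact Cores.card_sup_dvd (by rw [normalizer_eq_top]; exact le_top)
        rw [hH.eq_of_le h3 le_sup_right]
        exact le_sup_left
      exact h1.trans le_normalizer
  have hle : ∀ g h : G, h ∈ H → g * h * g⁻¹ ∈ normalizer (H : Set G) := by
    intro g h hh
    have h1 : g * h * g⁻¹ = ⁅g, h⁆ * h := by rw [_root_.commutatorElement_def]; group
    rw [h1]
    refine mul_mem (hFN (hF ?_)) (le_normalizer hh)
    rw [_root_.commutator_def]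
    exact commutator_mem_commutator (mem_top _) (mem_top _)
  have hn : H.Normal := by
    refine ⟨fun h hh g => ?_⟩
    have h2 : H.map (MulAut.conj g).toMonoidHom ≤ H := by
      apply le_of_norm hH
      · exact PiNum.of_dvd hH.1 (Subgroup.card_dvd_of_surjective ((MulAut.conj g).toMonoidHom.subgroupMap H) ((MulAut.conj g).toMonoidHom.subgroupMap_surjective H))
      · rintro _ ⟨y, hy, rfl⟩
        exact hle g y hy
    exact h2 ⟨h, hh, rfl⟩
  refine ⟨H, ?_, hH⟩
  rw [characteristic_iff_map_le]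
  intro φ
  apply le_of_norm hH
  · exact PiNum.of_dvd hH.1 (Subgroup.card_dvd_of_surjective (φ.toMonoidHom.subgroupMap H) (φ.toMonoidHom.subgroupMap_surjective H))
  · rw [normalizer_eq_top]; exact le_top

theorem char_normal (hF : commutator G ≤ Cfsg.fittingSubgroup G) (q : ℕ) [Fact q.Prime] (S : Sylow q G) (T : Subgroup ↥(S : Subgroup G))
    (hT : T.Characteristic) (hT1 : T.map (S : Subgroup G).subtype ≤ ⁅(S : Subgroup G), (S : Subgroup G)⁆) :
    (T.map (S : Subgroup G).subtype).Normal := by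
  haveI hFn : (Cfsg.fittingSubgroup G).Normal := Cores.fitting_normal
  have hTO : T.map (S : Subgroup G).subtype ≤ Cfsg.pCore q G := by
    intro x hx
    have h1 : x ∈ commutator G := by
      rw [_root_.commutator_def]
      exact commutator_mono le_top le_top (hT1 hx)
    obtain ⟨y, hy, rfl⟩ := hx
    obtain ⟨k, hk⟩ := S.isPGroup' y
    exact FitComm.mem_pCore_of_mem_fit (hF h1) (k := k) (congrArg Subtype.val hk)
  rw [← normalizer_eq_top_iff, eq_top_iff]
  -- F ≤ S ⊔ C(O_q)
  have h1 : Cfsg.fittingSubgroup G ≤ (S : Subgroup G) ⊔ centralizer (Cfsg.pCore q G : Set G) := by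
    apply FitComm.fit_le_of
    intro s hsp
    haveI : Fact s.Prime := ⟨hsp⟩
    by_cases hsq : s = q
    · subst hsq
      exact (Cores.pCore_le_sylow S).trans le_sup_left
    · refine le_trans ?_ le_sup_right
      haveI := Cores.pCore_normal (G := G) s
      haveI := Cores.pCore_normal (G := G) q
      have h4 : ⁅Cfsg.pCore s G, Cfsg.pCore q G⁆ ≤ Cfsg.pCore s G ⊓ Cfsg.pCore q G := Subgroup.commutator_le_inf _ _
      have h5 : Cfsg.pCore s G ⊓ Cfsg.pCore q G = ⊥ :=
        (IsPGroup.disjoint_of_ne s q hsq _ _ (Cores.pCore_isPGroup s) (Cores.pCore_isPGroup q)).eq_bot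
      rwa [h5, le_bot_iff, commutator_eq_bot_iff_le_centralizer] at h4
  -- Frattini
  let L : Subgroup G := (S : Subgroup G) ⊔ Cfsg.fittingSubgroup G
  have hSL : (S : Subgroup G) ≤ L := le_sup_left
  haveI hLn : L.Normal := by
    refine ⟨fun x hx g => ?_⟩
    have h2 : g * x * g⁻¹ = ⁅g, x⁆ * x := by rw [_root_.commutatorElement_def]; group
    rw [h2]
    refine mul_mem ((le_sup_right : Cfsg.fittingSubgroup G ≤ L) (hF ?_)) hx
    rw [_root_.commutator_def]
    exact commutator_mem_commutator (mem_top _) (mem_top _)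
  have hfr := Sylow.normalizer_sup_eq_top (S.subtype hSL)
  have he : ((S.subtype hSL : Subgroup L).map L.subtype) = S := by
    rw [Sylow.coe_subtype, Subgroup.map_subgroupOf_eq_of_le hSL]
  rw [he] at hfr
  rw [← hfr]
  have hNS : normalizer ((S : Subgroup G) : Set G) ≤ normalizer ((T.map (S : Subgroup G).subtype : Subgroup G) : Set G) :=
    MinAct.normalizer_le_normalizer_char T
  have hC : centralizer (Cfsg.pCore q G : Set G) ≤ normalizer ((T.map (S : Subgroup G).subtype : Subgroup G) : Set G) :=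
    (centralizer_le hTO).trans (centralizer_le_normalizer _)
  refine sup_le hNS (sup_le (le_normalizer.trans hNS) (h1.trans (sup_le (le_normalizer.trans hNS) hC)))

end Cfsg.Agent.H2.FitCommB
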