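import Mathlib

set_option autoImplicit false

/-! Gaussian periods of a multiplicatively closed subset of a finite field. -/

namespace Cfsg.Agent.H2.GPeriod

open scoped ComplexConjugate

variable {F : Type*} [Field F] [Fintype F] [DecidableEq F]

/-- the period -/
noncomputable def S (U : Finset F) (ψ : AddChar F ℂ) : ℂ := ∑ u ∈ U, ψ u

/-- the dilate of a character -/
noncomputable def dil (w : F) (ψ : AddChar F ℂ) : AddChar F ℂ where
  toFun x := ψ (w * x)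
  map_zero_eq_one' := by simp
  map_add_eq_mul' := by intro a b; rw [mul_add, AddChar.map_add_eq_mul]

theorem dil_apply (w : F) (ψ : AddChar F ℂ) (x : F) : dil w ψ x = ψ (w * x) := rfl

theorem conj_S (U : Finset F) (ψ : AddChar F ℂ) : conj (S U ψ) = ∑ u ∈ U, ψ (-u) := by
  rw [S, map_sum]
  exact Finset.sum_congr rfl fun u _ => (AddChar.map_neg_eq_conj ψ u).symm

theorem sum_normSq (U : Finset F) : ∑ ψ : AddChar F ℂ, ‖S U ψ‖ ^ 2 = (Fintype.card F : ℝ) * U.card := by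
  have h1 : ∑ ψ : AddChar F ℂ, (S U ψ) * conj (S U ψ) = (Fintype.card F : ℂ) * U.card := by
    have h2 : ∀ ψ : AddChar F ℂ, (S U ψ) * conj (S U ψ) = ∑ u ∈ U, ∑ v ∈ U, ψ (u - v) := by
      intro ψ
      rw [conj_S, S, Finset.sum_mul_sum]
      refine Finset.sum_congr rfl fun u _ => Finset.sum_congr rfl fun v _ => ?_
      rw [sub_eq_add_neg, AddChar.map_add_eq_mul]
    simp_rw [h2]
    rw [Finset.sum_comm]
    have h3 : ∀ u ∈ U, ∑ ψ : AddChar F ℂ, ∑ v ∈ U, ψ (u - v) = (Fintype.card F : ℂ) := by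
      intro u hu
      rw [Finset.sum_comm]
      simp_rw [AddChar.sum_apply_eq_ite]
      rw [Finset.sum_eq_single u]
      · rw [sub_self, if_pos rfl]
      · intro v _ hv
        rw [if_neg (fun h => hv (sub_eq_zero.mp h).symm)]
      · intro h; exact absurd hu h
    rw [Finset.sum_congr rfl h3, Finset.sum_const, nsmul_eq_mul, mul_comm]
  have h4 : ∀ ψ : AddChar F ℂ, (S U ψ) * conj (S U ψ) = ((‖S U ψ‖ ^ 2 : ℝ) : ℂ) := by
    intro ψ
    rw [Complex.mul_conj, Complex.normSq_eq_norm_sq]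
  simp_rw [h4] at h1
  rw [← Complex.ofReal_sum] at h1
  exact_mod_cast h1

theorem S_zero (U : Finset F) : S U 0 = U.card := by
  simp [S]

theorem S_dil {U : Finset F} (h0 : (0 : F) ∉ U) (hmul : ∀ w ∈ U, ∀ u, w * u ∈ U ↔ u ∈ U) {w : F} (hw : w ∈ U) (ψ : AddChar F ℂ) :
    S U (dil w ψ) = S U ψ := by
  have hw0 : w ≠ 0 := fun h => h0 (h ▸ hw)
  unfold S
  simp_rw [dil_apply]
  refine Finset.sum_bij (fun u _ => w * u) (fun u hu => (hmul w hw u).mpr hu) (fun a _ b _ h => mul_left_cancel₀ hw0 h) ?_ (fun _ _ => rfl)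
  intro b hb
  refine ⟨w⁻¹ * b, ?_, by rw [mul_inv_cancel_left₀ hw0]⟩
  rw [← hmul w hw, mul_inv_cancel_left₀ hw0]; exact hb

theorem dil_inj {ψ : AddChar F ℂ} (hψ : ψ ≠ 0) {w w' : F} (h : dil w ψ = dil w' ψ) : w = w' := by
  by_contra hne
  apply hψ
  ext x
  have h1 : w - w' ≠ 0 := sub_ne_zero.mpr hne
  have h2 : dil w ψ ((w - w')⁻¹ * x) = dil w' ψ ((w - w')⁻¹ * x) := by rw [h]
  rw [dil_apply, dil_apply] at h2
  have h3 : ψ x = ψ (w * ((w - w')⁻¹ * x)) * ψ (-(w' * ((w - w')⁻¹ * x))) := by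
    rw [← AddChar.map_add_eq_mul, ← sub_eq_add_neg, ← sub_mul, mul_inv_cancel_left₀ h1]
  rw [h3, h2, ← AddChar.map_add_eq_mul, add_neg_cancel, AddChar.map_zero_eq_one]
  rfl

theorem dil_ne_zero {ψ : AddChar F ℂ} (hψ : ψ ≠ 0) {w : F} (hw : w ≠ 0) : dil w ψ ≠ 0 := by
  intro h
  apply hw
  apply dil_inj hψ
  rw [h]
  ext x
  rw [dil_apply, zero_mul, AddChar.map_zero_eq_one]; rfl

theorem sum_ne (U : Finset F) : ∑ ψ ∈ Finset.univ.erase (0 : AddChar F ℂ), ‖S U ψ‖ ^ 2 = (Fintype.card F : ℝ) * U.card - (U.card : ℝ) ^ 2 := by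
  have h1 := sum_normSq U
  rw [← Finset.add_sum_erase _ _ (Finset.mem_univ (0 : AddChar F ℂ)), S_zero] at h1
  have h2 : ‖(U.card : ℂ)‖ = U.card := Complex.norm_natCast _
  rw [h2] at h1
  linarith

theorem bound {U : Finset F} (h0 : (0 : F) ∉ U) (hne : U.Nonempty) (hmul : ∀ w ∈ U, ∀ u, w * u ∈ U ↔ u ∈ U) {ψ : AddChar F ℂ} (hψ : ψ ≠ 0) :
    ‖S U ψ‖ ^ 2 ≤ (Fintype.card F : ℝ) - U.card := by
  classical
  have h1 : (U.card : ℝ) * ‖S U ψ‖ ^ 2 ≤ (Fintype.card F : ℝ) * U.card - (U.card : ℝ) ^ 2 := by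
    rw [← sum_ne]
    have h2 : (U.card : ℝ) * ‖S U ψ‖ ^ 2 = ∑ w ∈ U, ‖S U (dil w ψ)‖ ^ 2 := by
      rw [Finset.sum_congr rfl fun w hw => by rw [S_dil h0 hmul hw], Finset.sum_const, nsmul_eq_mul]
    rw [h2]
    have h3 : ∑ w ∈ U, ‖S U (dil w ψ)‖ ^ 2 = ∑ χ ∈ U.image (fun w => dil w ψ), ‖S U χ‖ ^ 2 := by
      rw [Finset.sum_image]
      intro a _ b _ h
      exact dil_inj hψ h
    rw [h3]
    apply Finset.sum_le_sum_of_subset_of_nonneg
    · intro χ hχ
      obtain ⟨w, hw, rfl⟩ := Finset.mem_image.mp hχ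
      exact Finset.mem_erase.mpr ⟨dil_ne_zero hψ (fun h => h0 (h ▸ hw)), Finset.mem_univ _⟩
    · intro i _ _; positivity
  have h4 : (0 : ℝ) < U.card := by exact_mod_cast hne.card_pos
  nlinarith

/-- the number of representations -/
theorem count (U : Finset F) (c : F) :
    ∑ ψ : AddChar F ℂ, S U ψ ^ 2 * ψ (-c) = (Fintype.card F : ℂ) * (U.filter (fun u => c - u ∈ U)).card := by
  have h2 : ∀ ψ : AddChar F ℂ, S U ψ ^ 2 * ψ (-c) = ∑ u ∈ U, ∑ v ∈ U, ψ (u + v - c) := by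
    intro ψ
    rw [S, sq, Finset.sum_mul_sum, Finset.sum_mul]
    refine Finset.sum_congr rfl fun u _ => ?_
    rw [Finset.sum_mul]
    refine Finset.sum_congr rfl fun v _ => ?_
    rw [sub_eq_add_neg, AddChar.map_add_eq_mul, AddChar.map_add_eq_mul]
  simp_rw [h2]
  rw [Finset.sum_comm]
  have h3 : ∀ u ∈ U, ∑ ψ : AddChar F ℂ, ∑ v ∈ U, ψ (u + v - c) = if c - u ∈ U then (Fintype.card F : ℂ) else 0 := by
    intro u _
    rw [Finset.sum_comm]
    simp_rw [AddChar.sum_apply_eq_ite]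
    split_ifs with h
    · rw [Finset.sum_eq_single (c - u)]
      · rw [if_pos (by ring)]
      · intro v _ hv
        rw [if_neg (fun h' => hv (by linear_combination h'))]
      · intro h'; exact absurd h h'
    · apply Finset.sum_eq_zero
      intro v hv
      rw [if_neg]
      intro h'
      apply h
      have : c - u = v := by linear_combination (-1 : F) * h'
      rw [this]; exact hv
  rw [Finset.sum_congr rfl h3, ← Finset.sum_filter, Finset.sum_const, nsmul_eq_mul, mul_comm]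

theorem count_dil {U : Finset F} (h0 : (0 : F) ∉ U) (hmul : ∀ w ∈ U, ∀ u, w * u ∈ U ↔ u ∈ U) {w : F} (hw : w ∈ U) (c : F) :
    (U.filter (fun u => w * c - u ∈ U)).card = (U.filter (fun u => c - u ∈ U)).card := by
  have hw0 : w ≠ 0 := fun h => h0 (h ▸ hw)
  symm
  refine Finset.card_bij (fun u _ => w * u) ?_ (fun a _ b _ h => mul_left_cancel₀ hw0 h) ?_
  · intro u hu
    obtain ⟨h1, h2⟩ := Finset.mem_filter.mp hu
    refine Finset.mem_filter.mpr ⟨(hmul w hw u).mpr h1, ?_⟩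
    rw [← mul_sub]
    exact (hmul w hw _).mpr h2
  · intro b hb
    obtain ⟨h1, h2⟩ := Finset.mem_filter.mp hb
    refine ⟨w⁻¹ * b, Finset.mem_filter.mpr ⟨?_, ?_⟩, by rw [mul_inv_cancel_left₀ hw0]⟩
    · rw [← hmul w hw, mul_inv_cancel_left₀ hw0]; exact h1
    · rw [← hmul w hw, mul_sub, mul_inv_cancel_left₀ hw0]; exact h2

theorem main {U : Finset F} (h0 : (0 : F) ∉ U) (hne : U.Nonempty) (hmul : ∀ w ∈ U, ∀ u, w * u ∈ U ↔ u ∈ U) {c : F} (hc : c ≠ 0) :
    (U.card : ℝ) ^ 2 - (Fintype.card F : ℝ) * (U.filter (fun u => c - u ∈ U)).card ≤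
      ((Fintype.card F : ℝ) - U.card) * Real.sqrt ((Fintype.card F : ℝ) - U.card) := by
  obtain ⟨E, hE⟩ : ∃ E, E = (U.filter (fun u => c - u ∈ U)).card := ⟨_, rfl⟩
  have hT : ∀ ψ : AddChar F ℂ, ∑ w ∈ U, ψ (-(w * c)) = conj (S U (dil c ψ)) := by
    intro ψ
    rw [conj_S]
    refine Finset.sum_congr rfl fun w _ => ?_
    rw [dil_apply]; congr 1; ring
  have h1 : (U.card : ℂ) * ((Fintype.card F : ℂ) * E) = ∑ ψ : AddChar F ℂ, S U ψ ^ 2 * conj (S U (dil c ψ)) := by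
    have h2 : ∀ w ∈ U, (Fintype.card F : ℂ) * E = ∑ ψ : AddChar F ℂ, S U ψ ^ 2 * ψ (-(w * c)) := by
      intro w hw
      rw [count, count_dil h0 hmul hw, hE]
    rw [← nsmul_eq_mul, ← Finset.sum_const, Finset.sum_congr rfl h2, Finset.sum_comm]
    refine Finset.sum_congr rfl fun ψ _ => ?_
    rw [← hT, Finset.mul_sum]
  rw [← Finset.add_sum_erase _ _ (Finset.mem_univ (0 : AddChar F ℂ))] at h1
  have h3 : dil c (0 : AddChar F ℂ) = 0 := by ext x; rw [dil_apply]; rfl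
  rw [h3, S_zero, Complex.conj_natCast] at h1
  have h4 : ‖∑ ψ ∈ Finset.univ.erase (0 : AddChar F ℂ), S U ψ ^ 2 * conj (S U (dil c ψ))‖ ≤
      ((Fintype.card F : ℝ) * U.card - (U.card : ℝ) ^ 2) * Real.sqrt ((Fintype.card F : ℝ) - U.card) := by
    rw [← sum_ne, Finset.sum_mul]
    refine (norm_sum_le _ _).trans (Finset.sum_le_sum fun ψ hψ => ?_)
    rw [norm_mul, norm_pow, RCLike.norm_conj]
    apply mul_le_mul_of_nonneg_left _ (by positivity)
    apply Real.le_sqrt_of_sq_le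
    exact bound h0 hne hmul (dil_ne_zero (Finset.mem_erase.mp hψ).1 hc)
  have h5 : ∑ ψ ∈ Finset.univ.erase (0 : AddChar F ℂ), S U ψ ^ 2 * conj (S U (dil c ψ)) =
      (((U.card : ℝ) * ((Fintype.card F : ℝ) * E) - (U.card : ℝ) ^ 3 : ℝ) : ℂ) := by
    push_cast
    linear_combination -h1
  rw [h5, Complex.norm_real, Real.norm_eq_abs] at h4
  have h6 := (abs_le.mp h4).1
  have h7 : (0 : ℝ) < U.card := by exact_mod_cast hne.card_pos
  rw [← hE]
  have h8 : (U.card : ℝ) * ((U.card : ℝ) ^ 2 - (Fintype.card F : ℝ) * E) ≤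
      (U.card : ℝ) * (((Fintype.card F : ℝ) - U.card) * Real.sqrt ((Fintype.card F : ℝ) - U.card)) := by
    nlinarith
  exact le_of_mul_le_mul_left h8 h7

end Cfsg.Agent.H2.GPeriod
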