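import Mathlib
import Cfsg.Agent.H2.GPeriod

set_option autoImplicit false

/-! Norm one pairs. -/

namespace Cfsg.Agent.H2.GPeriodB

open Polynomial

theorem norm_sub_root {K : Type*} [Field K] (f : K[X]) (hm : f.Monic) [Fact (Irreducible f)] (c : K) :
    Algebra.norm K (algebraMap K (AdjoinRoot f) c - AdjoinRoot.root f) = f.eval c := by
  classical
  have h0 : f ≠ 0 := hm.ne_zero
  let pb := AdjoinRoot.powerBasis h0
  have h1 : (Algebra.leftMulMatrix pb.basis pb.gen).charpoly = f := by
    rw [charpoly_leftMulMatrix]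
    exact AdjoinRoot.minpoly_powerBasis_gen_of_monic hm
  have hgen : pb.gen = AdjoinRoot.root f := AdjoinRoot.powerBasis_gen h0
  rw [Algebra.norm_eq_matrix_det pb.basis, ← hgen]
  conv_rhs => rw [← h1]
  rw [Matrix.eval_charpoly]
  congr 1
  rw [map_sub]
  congr 1
  rw [AlgHom.commutes]
  rfl

theorem exists_no_root (p : ℕ) [Fact p.Prime] (hp : p ≠ 2) : ∃ s : ZMod p, ∀ x : ZMod p, x ^ 3 - s * x ^ 2 + (2 * s - 3) * x - 1 ≠ 0 := by
  classical
  have h2 : (2 : ZMod p) ≠ 0 := by
    intro h
    have h1 : ((2 : ℕ) : ZMod p) = 0 := by exact_mod_cast h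
    rw [ZMod.natCast_eq_zero_iff] at h1
    exact hp ((Nat.prime_dvd_prime_iff_eq Fact.out Nat.prime_two).mp h1)
  let T : Finset (ZMod p) := (Finset.univ.erase 0)
  have hT : T.card < Fintype.card (ZMod p) := by
    rw [Finset.card_erase_of_mem (Finset.mem_univ _), Finset.card_univ]
    exact Nat.sub_lt Fintype.card_pos Nat.one_pos
  obtain ⟨s, hs⟩ : ∃ s : ZMod p, s ∉ T.image (fun x => (x ^ 3 - 3 * x - 1) / (x ^ 2 - 2 * x)) := by
    by_contra hcon
    push Not at hcon
    have h3 : (Finset.univ : Finset (ZMod p)) ⊆ T.image (fun x => (x ^ 3 - 3 * x - 1) / (x ^ 2 - 2 * x)) := fun x _ => hcon x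
    have h4 := (Finset.card_le_card h3).trans Finset.card_image_le
    rw [Finset.card_univ] at h4
    omega
  refine ⟨s, fun x hx => ?_⟩
  have hx0 : x ≠ 0 := by
    rintro rfl
    apply one_ne_zero (α := ZMod p)
    linear_combination -hx
  have hx2 : x - 2 ≠ 0 := by
    intro h
    have : x = 2 := by linear_combination h
    subst this
    apply one_ne_zero (α := ZMod p)
    linear_combination hx
  apply hs
  refine Finset.mem_image.mpr ⟨x, Finset.mem_erase.mpr ⟨hx0, Finset.mem_univ _⟩, ?_⟩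
  have h5 : x ^ 2 - 2 * x ≠ 0 := by
    have : x ^ 2 - 2 * x = x * (x - 2) := by ring
    rw [this]; exact mul_ne_zero hx0 hx2
  rw [div_eq_iff h5]
  linear_combination hx

theorem cubic (p : ℕ) [Fact p.Prime] (hp : p ≠ 2) : ∃ a : GaloisField p 3, a ≠ 1 ∧ Algebra.norm (ZMod p) a = 1 ∧ Algebra.norm (ZMod p) (2 - a) = 1 := by
  obtain ⟨s, hs⟩ := exists_no_root p hp
  obtain ⟨f, hf⟩ : ∃ f : (ZMod p)[X], f = X ^ 3 + C (-s) * X ^ 2 + C (2 * s - 3) * X + C (-1) := ⟨_, rfl⟩
  have hdeg : f.natDegree = 3 := by rw [hf]; compute_degree!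
  have hmon : f.Monic := by rw [hf]; monicity!
  have heval : ∀ x, f.eval x = x ^ 3 - s * x ^ 2 + (2 * s - 3) * x - 1 := by
    intro x; rw [hf]; simp; ring
  have hirr : Irreducible f := by
    apply Polynomial.irreducible_of_degree_le_three_of_not_isRoot
    · rw [hdeg]; simp
    · intro x hx
      rw [IsRoot.def, heval] at hx
      exact hs x hx
  haveI : Fact (Irreducible f) := ⟨hirr⟩
  haveI hfin : Module.Finite (ZMod p) (AdjoinRoot f) := (AdjoinRoot.powerBasis hmon.ne_zero).finite
  haveI : Finite (AdjoinRoot f) := Module.finite_of_finite (ZMod p)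
  have hfr : Module.finrank (ZMod p) (AdjoinRoot f) = 3 := by
    rw [(AdjoinRoot.powerBasis hmon.ne_zero).finrank, AdjoinRoot.powerBasis_dim, hdeg]
  have hcard : Nat.card (AdjoinRoot f) = p ^ 3 := by
    have h1 := Module.natCard_eq_pow_finrank (K := ZMod p) (V := AdjoinRoot f)
    rw [Nat.card_zmod, hfr] at h1
    exact h1
  let e := GaloisField.algEquivGaloisField p 3 hcard
  have hn : ∀ c : ZMod p, Algebra.norm (ZMod p) (algebraMap (ZMod p) (GaloisField p 3) c - e (AdjoinRoot.root f)) = f.eval c := by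
    intro c
    rw [← norm_sub_root f hmon c, ← Algebra.norm_eq_of_algEquiv e, map_sub e, AlgEquiv.commutes]
  refine ⟨e (AdjoinRoot.root f), ?_, ?_, ?_⟩
  · intro h
    have h1 := hn 1
    rw [h, map_one, sub_self, Algebra.norm_zero, heval] at h1
    exact hs 1 h1.symm
  · have h1 := hn 0
    rw [map_zero, zero_sub, heval] at h1
    have h2 : Algebra.norm (ZMod p) (-(1 : GaloisField p 3)) = -1 := by
      have h3 : (-(1 : GaloisField p 3)) = algebraMap (ZMod p) (GaloisField p 3) (-1) := by rw [map_neg, map_one]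
      rw [h3, Algebra.norm_algebraMap, GaloisField.finrank p (by norm_num)]; ring
    have h4 : e (AdjoinRoot.root f) = (-1) * (-e (AdjoinRoot.root f)) := by ring
    rw [h4, map_mul, h2, h1]; ring
  · have h1 := hn 2
    rw [heval] at h1
    have h2 : algebraMap (ZMod p) (GaloisField p 3) 2 = 2 := by exact map_ofNat _ 2
    rw [h2] at h1
    rw [h1]; ring

theorem card_norm_one (p q : ℕ) [Fact p.Prime] [Fact q.Prime] :
    Nat.card {x : GaloisField p q // Algebra.norm (ZMod p) x = 1} * (p - 1) = p ^ q - 1 := by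
  classical
  have hq : q ≠ 0 := (Fact.out : q.Prime).ne_zero
  let f := Units.map (Algebra.norm (ZMod p) (S := GaloisField p q))
  have hf : Function.Surjective f := FiniteField.unitsMap_norm_surjective _ _
  have h1 : Nat.card (MonoidHom.ker f) * (MonoidHom.ker f).index = Nat.card (GaloisField p q)ˣ := Subgroup.card_mul_index _
  rw [Subgroup.index_ker, MonoidHom.range_eq_top.mpr hf, Subgroup.card_top, Nat.card_units, Nat.card_units, Nat.card_zmod,
    GaloisField.card p q hq] at h1
  rw [← h1]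
  congr 1
  apply Nat.card_congr
  refine ⟨fun x => ⟨Units.mk0 x.1 (by rintro h; have := x.2; rw [h, Algebra.norm_zero] at this; exact zero_ne_one this), ?_⟩,
    fun x => ⟨x.1.1, ?_⟩, fun x => rfl, fun x => ?_⟩
  · rw [MonoidHom.mem_ker]; exact Units.ext x.2
  · have h2 := MonoidHom.mem_ker.mp x.2
    exact congrArg Units.val h2
  · apply Subtype.ext; apply Units.ext; rfl

end Cfsg.Agent.H2.GPeriodB
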