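import Mathlib
import Cfsg.Agent.Lib.Hall
import Cfsg.Agent.Lib.Nilp
import Cfsg.Agent.Lib.Coprime
import Cfsg.Agent.Lib.CoprimeB
import Cfsg.Prelude.Def_OddOrderLocal

set_option autoImplicit false

/-! Hall subgroups and coprime action on solvable groups. -/

open Subgroup Cfsg.Agent.Lib.Basic Cfsg.Agent.Lib.Cores Cfsg.Agent.Lib.Hall Cfsg.Agent.Lib.SchurZas
open scoped Pointwise commutatorElement

namespace Cfsg.Agent.H2.HallA

universe u
variable {X : Type u} [Group X] [Finite X]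

/-- `π ∪ π(A)` -/
def sig (π : Set ℕ) (A : Subgroup X) : Set ℕ := π ∪ {p | p.Prime ∧ p ∣ Nat.card A}

theorem sep (π : Set ℕ) {A G : Subgroup X} (hAG : A ≤ normalizer (G : Set X)) (hsolv : Group.IsSolvable G) :
    Cfsg.Agent.Lib.Hall.Sep (sig π A) ↥(G ⊔ A) := by
  intro Q _ f hf hQ
  haveI : Finite Q := Finite.of_surjective f hf
  have hGn : (G.subgroupOf (G ⊔ A)).Normal := normal_subgroupOf_sup hAG
  haveI hGbn : ((G.subgroupOf (G ⊔ A)).map f).Normal := Normal.map hGn _ hf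
  by_cases hG : (G.subgroupOf (G ⊔ A)).map f = ⊥
  · -- `Q` is a quotient of `A`
    refine ⟨⊤, inferInstance, ?_, Or.inl ?_⟩
    · exact top_ne_bot
    · have hsurj : Function.Surjective (f.comp (inclusion (le_sup_right : A ≤ G ⊔ A))) := by
        intro q
        obtain ⟨⟨x, hx⟩, rfl⟩ := hf q
        obtain ⟨g, hg, a, ha, rfl⟩ := (mem_sup_iff_left hAG).1 hx
        refine ⟨⟨a, ha⟩, ?_⟩
        have h1 : (⟨g * a, hx⟩ : ↥(G ⊔ A)) = ⟨g, le_sup_left (a := G) (b := A) hg⟩ * ⟨a, le_sup_right (a := G) (b := A) ha⟩ := rfl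
        have h2 : f ⟨g, le_sup_left (a := G) (b := A) hg⟩ = 1 := by
          rw [← mem_bot, ← hG]
          exact ⟨_, mem_subgroupOf.2 hg, rfl⟩
        rw [h1, map_mul, h2, one_mul]
        rfl
      intro p hp hd
      right
      refine ⟨hp, hd.trans ?_⟩
      rw [card_top]
      exact card_dvd_of_surjective _ hsurj
  · obtain ⟨M, hMn, hM1, hMle, hmin⟩ := exists_minimal_normal _ hG
    have hs : Group.IsSolvable M := isSolvable_of_le hMle (isSolvable_map f (isSolvable_subgroupOf _ hsolv))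
    obtain ⟨hc, p, hp, hpM⟩ := Cfsg.Agent.Lib.Nilp.minimal_normal_solvable_elementary hs hM1 hmin
    have hMp : IsPGroup p M := Cfsg.Agent.Lib.Nilp.isPGroup_of_pow_eq_one hpM
    refine ⟨M, hMn, hM1, ?_⟩
    by_cases hpπ : p ∈ sig π A
    · left; exact piNum_of_isPGroup hp hpπ hMp
    · right; exact piNum'_of_isPGroup hp hpπ hMp

theorem cond (π : Set ℕ) {A G : Subgroup X} (hAG : A ≤ normalizer (G : Set X)) (hsolv : Group.IsSolvable G) :
    SolvCond (sig π A) ↥(G ⊔ A) := by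
  intro Q _ f hf K M hMn _ hM
  haveI : Finite Q := Finite.of_surjective f hf
  right
  have hGn : (G.subgroupOf (G ⊔ A)).Normal := normal_subgroupOf_sup hAG
  set Gb := (G.subgroupOf (G ⊔ A)).map f with hGb
  haveI hGbn : Gb.Normal := Normal.map hGn _ hf
  have hGs : Group.IsSolvable Gb := isSolvable_map f (isSolvable_subgroupOf _ hsolv)
  apply isSolvable_of_le _ hGs
  intro x hx
  rw [← QuotientGroup.eq_one_iff, ← orderOf_eq_one_iff]
  by_contra hne
  obtain ⟨p, hp, hpd⟩ := Nat.exists_prime_and_dvd hne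
  have h1 : orderOf (x : Q ⧸ Gb) ∣ Nat.card M := by
    have h3 : orderOf (x : Q ⧸ Gb) ∣ orderOf x := orderOf_map_dvd (QuotientGroup.mk' Gb) x
    have h4 : orderOf (⟨x, hx⟩ : M) ∣ Nat.card M := orderOf_dvd_natCard _
    rw [Subgroup.orderOf_mk] at h4
    exact h3.trans h4
  have h2 : orderOf (x : Q ⧸ Gb) ∣ Nat.card A := by
    refine (_root_.orderOf_dvd_natCard _).trans ?_
    have hsurj : Function.Surjective (((QuotientGroup.mk' Gb).comp f).comp (inclusion (le_sup_right : A ≤ G ⊔ A))) := by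
      intro q
      obtain ⟨y, rfl⟩ := QuotientGroup.mk'_surjective Gb q
      obtain ⟨⟨x, hx⟩, rfl⟩ := hf y
      obtain ⟨g, hg, a, ha, rfl⟩ := (mem_sup_iff_left hAG).1 hx
      refine ⟨⟨a, ha⟩, ?_⟩
      have h1 : (⟨g * a, hx⟩ : ↥(G ⊔ A)) = ⟨g, le_sup_left (a := G) (b := A) hg⟩ * ⟨a, le_sup_right (a := G) (b := A) ha⟩ := rfl
      have h2 : (QuotientGroup.mk' Gb) (f ⟨g, le_sup_left (a := G) (b := A) hg⟩) = 1 := by
        apply (QuotientGroup.eq_one_iff _).2
        exact ⟨_, mem_subgroupOf.2 hg, rfl⟩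
      rw [h1, map_mul, map_mul, h2, one_mul]
      rfl
    exact card_dvd_of_surjective _ hsurj
  exact hM p hp (Or.inr ⟨hp, hpd.trans h2⟩) (hpd.trans h1)

theorem exists_ge {A G U : Subgroup X} (hAG : A ≤ normalizer (G : Set X)) (hcop : (Nat.card A).Coprime (Nat.card G))
    (hsolv : Group.IsSolvable G) (π : Set ℕ) (hUG : U ≤ G) (hUA : A ≤ normalizer (U : Set X))
    (hU : ∀ p : ℕ, p.Prime → p ∣ Nat.card U → p ∈ π) :
    ∃ H : Subgroup X, Cfsg.IsPiHallOf π H G ∧ A ≤ normalizer (H : Set X) ∧ U ≤ H := by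
  have hGn : (G.subgroupOf (G ⊔ A)).Normal := normal_subgroupOf_sup hAG
  have hUAle : U ⊔ A ≤ G ⊔ A := sup_le_sup_right hUG A
  have hUAc : PiNum (sig π A) (Nat.card ((U ⊔ A).subgroupOf (G ⊔ A))) := by
    rw [Nat.card_congr (subgroupOfEquivOfLe hUAle).toEquiv]
    intro p hp hd
    have h1 := hd.trans (card_sup_dvd hUA)
    rcases hp.dvd_mul.1 h1 with h2 | h2
    · exact Or.inl (hU p hp h2)
    · exact Or.inr ⟨hp, h2⟩
  obtain ⟨K, hK, hKge⟩ := exists_hall_ge (sep π hAG hsolv) (cond π hAG hsolv) hUAc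
  set H' : Subgroup ↥(G ⊔ A) := K ⊓ G.subgroupOf (G ⊔ A) with hH'
  set H : Subgroup X := H'.map (G ⊔ A).subtype with hH
  have hHG : H ≤ G := by
    rintro _ ⟨x, hx, rfl⟩
    exact hx.2
  have hHK : H ≤ K.map (G ⊔ A).subtype := map_mono inf_le_left
  refine ⟨H, ⟨hHG, ?_, ?_⟩, ?_, ?_⟩
  · intro p hp hd
    have h1 : p ∣ Nat.card K := by
      have h2 := hd.trans (card_dvd_of_le hHK)
      rwa [Nat.card_congr (K.equivMapOfInjective _ (G ⊔ A).subtype_injective).toEquiv.symm] at h2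
    rcases hK.1 p hp h1 with h2 | h2
    · exact h2
    · exfalso
      have h3 : p ∣ Nat.card G := hd.trans (card_dvd_of_le hHG)
      exact hp.one_lt.ne' (Nat.dvd_one.1 (hcop ▸ Nat.dvd_gcd h2.2 h3))
  · intro p hp hpπ hd
    apply hK.2 p hp (Or.inl hpπ)
    refine hd.trans ?_
    have h3 : (G.subgroupOf (G ⊔ A)).map (G ⊔ A).subtype = G := map_subgroupOf_eq_of_le le_sup_left
    have h1 : H.relIndex G = K.relIndex (G.subgroupOf (G ⊔ A)) := by
      have h4 : H.relIndex ((G.subgroupOf (G ⊔ A)).map (G ⊔ A).subtype) = (K ⊓ G.subgroupOf (G ⊔ A)).relIndex (G.subgroupOf (G ⊔ A)) :=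
        relIndex_map_map_of_injective _ _ (G ⊔ A).subtype_injective
      rw [h3] at h4
      rw [h4, inf_relIndex_right]
    rw [h1, ← Cfsg.Agent.Lib.CoprimeB.relIndex_sup_of_normalizes (N := G.subgroupOf (G ⊔ A)) (H := K)
      (by rw [normalizer_eq_top]; exact le_top)]
    exact relIndex_dvd_index_of_le le_sup_right
  · -- `A` normalizes `H`
    have hAK : ∀ a (ha : a ∈ A), (⟨a, le_sup_right (a := G) (b := A) ha⟩ : ↥(G ⊔ A)) ∈ K := by
      intro a ha
      exact hKge (mem_subgroupOf.2 (mem_sup_right ha))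
    have key : ∀ a ∈ A, ∀ x ∈ H, a * x * a⁻¹ ∈ H := by
      rintro a ha _ ⟨x, hx, rfl⟩
      have h1 := hAK a ha
      refine ⟨⟨a, le_sup_right (a := G) (b := A) ha⟩ * x * ⟨a, le_sup_right (a := G) (b := A) ha⟩⁻¹, ⟨?_, ?_⟩, rfl⟩
      · exact K.mul_mem (K.mul_mem h1 hx.1) (K.inv_mem h1)
      · exact hGn.conj_mem x hx.2 _
    intro a ha
    rw [mem_normalizer_iff]
    intro x
    constructor
    · exact key a ha x
    · intro hx
      have := key a⁻¹ (inv_mem ha) _ hx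
      have h6 : a⁻¹ * (a * x * a⁻¹) * a⁻¹⁻¹ = x := by group
      rwa [h6] at this
  · intro x hx
    refine ⟨⟨x, le_sup_left (a := G) (b := A) (hUG hx)⟩, ⟨hKge ?_, mem_subgroupOf.2 (hUG hx)⟩, rfl⟩
    exact mem_subgroupOf.2 (mem_sup_left hx)

end Cfsg.Agent.H2.HallA
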