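import Mathlib

set_option autoImplicit false
set_option linter.unusedSectionVars false

namespace Cfsg.Agent.H2.MaschkeAb

open Subgroup

theorem exists_retract {E : Type*} [CommGroup E] [Finite E] {p : ℕ} [Fact p.Prime] (hE : ∀ e : E, e ^ p = 1)
    (F : Subgroup E) : ∃ π : E →* F, ∀ f : F, π f = f := by
  letI : Module (ZMod p) (Additive E) := AddCommGroup.zmodModule (fun x => by
    rw [← ofMul_toMul x, ← ofMul_pow, hE]; rfl)
  letI : Module (ZMod p) (Additive F) := AddCommGroup.zmodModule (fun x => by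
    rw [← ofMul_toMul x, ← ofMul_pow]
    have : (x.toMul) ^ p = 1 := Subtype.ext (hE _)
    rw [this]; rfl)
  let f : Additive F →+ Additive E := MonoidHom.toAdditive F.subtype
  let fl : Additive F →ₗ[ZMod p] Additive E := AddMonoidHom.toZModLinearMap p f
  obtain ⟨g, hg⟩ := fl.exists_leftInverse_of_injective (LinearMap.ker_eq_bot.2 (fun x y h => by
    have : (f x) = f y := h
    exact Subtype.ext this))
  refine ⟨MonoidHom.toAdditive.symm g.toAddMonoidHom, fun x => ?_⟩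
  have := LinearMap.congr_fun hg (Additive.ofMul x)
  exact this

theorem maschke {E X : Type*} [CommGroup E] [Finite E] [Group X] [Finite X] {p : ℕ} [Fact p.Prime]
    (φ : X →* MulAut E) (hE : ∀ e : E, e ^ p = 1) (hX : (Nat.card X).Coprime p) (F : Subgroup E)
    (hF : ∀ x, ∀ f ∈ F, φ x f ∈ F) :
    ∃ C : Subgroup E, (∀ x, ∀ c ∈ C, φ x c ∈ C) ∧ C ⊓ F = ⊥ ∧ C ⊔ F = ⊤ := by
  classical
  haveI : Fintype X := Fintype.ofFinite X
  obtain ⟨π, hπ⟩ := exists_retract hE F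
  let ρ : E →* E :=
    { toFun := fun e => ∏ x : X, φ x (π (φ x⁻¹ e) : E)
      map_one' := by simp
      map_mul' := fun a b => by simp [Finset.prod_mul_distrib] }
  have hρ : ∀ e, ρ e = ∏ x : X, φ x (π (φ x⁻¹ e) : E) := fun _ => rfl
  have hρF : ∀ e, ρ e ∈ F := fun e => by
    rw [hρ]
    exact Subgroup.prod_mem F fun x _ => hF x _ (π _).2
  have hρf : ∀ f ∈ F, ρ f = f ^ Nat.card X := by
    intro f hf
    rw [hρ]
    have : ∀ x : X, φ x (π (φ x⁻¹ f) : E) = f := by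
      intro x
      have h1 := hπ ⟨φ x⁻¹ f, hF _ f hf⟩
      have h2 : (π (φ x⁻¹ f) : E) = φ x⁻¹ f := congrArg Subtype.val h1
      rw [h2, ← MulAut.mul_apply, ← map_mul, mul_inv_cancel, map_one, MulAut.one_apply]
    rw [Finset.prod_congr rfl (fun x _ => this x), Finset.prod_const, Finset.card_univ, Nat.card_eq_fintype_card]
  have hρy : ∀ y e, ρ (φ y e) = φ y (ρ e) := by
    intro y e
    rw [hρ, hρ, map_prod]
    refine Fintype.prod_equiv (Equiv.mulLeft y⁻¹) _ _ fun x => ?_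
    simp only [Equiv.coe_mulLeft]
    have e1 : ∀ a : E, φ y (φ (y⁻¹ * x) a) = φ x a := fun a => by
      rw [← MulAut.mul_apply, ← map_mul, mul_inv_cancel_left]
    have e2 : φ (y⁻¹ * x)⁻¹ e = φ x⁻¹ (φ y e) := by
      rw [← MulAut.mul_apply, ← map_mul, mul_inv_rev, inv_inv]
    rw [e1, e2]
  obtain ⟨m, hm⟩ : ∃ m : ℕ, ∀ e : E, e ^ (Nat.card X * m) = e := by
    obtain ⟨m, hm⟩ := Nat.exists_mul_mod_eq_one_of_coprime hX (Fact.out : p.Prime).one_lt
    refine ⟨m, fun e => ?_⟩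
    have := Nat.div_add_mod (Nat.card X * m) p
    rw [hm.2] at this
    rw [← this, pow_add, pow_mul, hE, one_pow, one_mul, pow_one]
  refine ⟨((powMonoidHom m).comp ρ).ker, ?_, ?_, ?_⟩
  · intro x c hc
    rw [MonoidHom.mem_ker] at hc ⊢
    have hc' : (ρ c) ^ m = 1 := hc
    show (ρ (φ x c)) ^ m = 1
    rw [hρy, ← map_pow, hc', map_one]
  · rw [eq_bot_iff]
    rintro c ⟨hc, hcF⟩
    have hc' : (ρ c) ^ m = 1 := hc
    rw [hρf c hcF, ← pow_mul, hm] at hc'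
    exact hc'
  · rw [eq_top_iff]
    rintro e -
    have h1 : (ρ e) ^ m ∈ F := F.pow_mem (hρF e) m
    have h2 : e * ((ρ e) ^ m)⁻¹ ∈ ((powMonoidHom m).comp ρ).ker := by
      rw [MonoidHom.mem_ker]
      show (ρ (e * ((ρ e) ^ m)⁻¹)) ^ m = 1
      rw [map_mul, map_inv, hρf _ h1, mul_pow, inv_pow, ← pow_mul ((ρ e) ^ m), hm, mul_inv_cancel]
    have := Subgroup.mul_mem_sup h2 h1
    rwa [inv_mul_cancel_right] at this

/-- restricting the action to an invariant subgroup -/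
def restr {A X : Type*} [Group A] [Group X] (φ : X →* MulAut A) (E : Subgroup A) (hE : ∀ x, ∀ e ∈ E, φ x e ∈ E) :
    X →* MulAut E where
  toFun x :=
    { toFun := fun e => ⟨φ x e, hE x e e.2⟩
      invFun := fun e => ⟨φ x⁻¹ e, hE x⁻¹ e e.2⟩
      left_inv := fun e => Subtype.ext (by
        show φ x⁻¹ (φ x e) = e
        rw [← MulAut.mul_apply, ← map_mul, inv_mul_cancel, map_one, MulAut.one_apply])
      right_inv := fun e => Subtype.ext (by
        show φ x (φ x⁻¹ e) = e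
        rw [← MulAut.mul_apply, ← map_mul, mul_inv_cancel, map_one, MulAut.one_apply])
      map_mul' := fun a b => Subtype.ext (map_mul (φ x) (a : A) (b : A)) }
  map_one' := by ext e; simp
  map_mul' x y := by ext e; simp

theorem map_eq_of_inv {A X : Type*} [Group A] [Group X] (φ : X →* MulAut A) (N : Subgroup A)
    (hN : ∀ x, ∀ e ∈ N, φ x e ∈ N) (x : X) : N.map (φ x).toMonoidHom = N := by
  apply le_antisymm
  · rintro _ ⟨a, ha, rfl⟩
    exact hN x a ha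
  · intro a ha
    refine ⟨φ x⁻¹ a, hN _ a ha, ?_⟩
    show φ x (φ x⁻¹ a) = a
    rw [← MulAut.mul_apply, ← map_mul, mul_inv_cancel, map_one, MulAut.one_apply]

/-- the action on the quotient by an invariant subgroup -/
def quot {A X : Type*} [Group A] [Group X] (φ : X →* MulAut A) (N : Subgroup A) [N.Normal]
    (hN : ∀ x, ∀ e ∈ N, φ x e ∈ N) : X →* MulAut (A ⧸ N) where
  toFun x := QuotientGroup.congr N N (φ x) (map_eq_of_inv φ N hN x)
  map_one' := by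
    ext a
    obtain ⟨a, rfl⟩ := QuotientGroup.mk_surjective a
    simp
  map_mul' x y := by
    ext a
    obtain ⟨a, rfl⟩ := QuotientGroup.mk_surjective a
    show ((φ (x * y) a : A) : A ⧸ N) = ((φ x (φ y a) : A) : A ⧸ N)
    rw [map_mul, MulAut.mul_apply]

theorem quot_apply {A X : Type*} [Group A] [Group X] (φ : X →* MulAut A) (N : Subgroup A) [N.Normal]
    (hN : ∀ x, ∀ e ∈ N, φ x e ∈ N) (x : X) (a : A) : quot φ N hN x (a : A ⧸ N) = ((φ x a : A) : A ⧸ N) := rfl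

theorem section_maschke {A X : Type*} [CommGroup A] [Finite A] [Group X] [Finite X] {p : ℕ} [Fact p.Prime]
    (φ : X →* MulAut A) (hX : (Nat.card X).Coprime p) {C F E : Subgroup A} (hCF : C ≤ F) (hFE : F ≤ E)
    (hC : ∀ x, ∀ c ∈ C, φ x c ∈ C) (hF : ∀ x, ∀ c ∈ F, φ x c ∈ F) (hE : ∀ x, ∀ c ∈ E, φ x c ∈ E)
    (hEp : ∀ e ∈ E, e ^ p ∈ C) :
    ∃ D : Subgroup A, C ≤ D ∧ D ≤ E ∧ (∀ x, ∀ d ∈ D, φ x d ∈ D) ∧ D ⊓ F = C ∧ D ⊔ F = E := by
  let N : Subgroup E := C.subgroupOf E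
  have hN : ∀ x, ∀ e ∈ N, restr φ E hE x e ∈ N := fun x e he => hC x e he
  let ψ := quot (restr φ E hE) N hN
  have hψ : ∀ x (e : E), ψ x (e : E ⧸ N) = ((restr φ E hE x e : E) : E ⧸ N) := fun _ _ => rfl
  let F₁ : Subgroup (E ⧸ N) := (F.subgroupOf E).map (QuotientGroup.mk' N)
  obtain ⟨C₁, hC₁, hC₂, hC₃⟩ := maschke (p := p) ψ (fun e => by
    obtain ⟨e, rfl⟩ := QuotientGroup.mk_surjective e
    rw [← QuotientGroup.mk_pow, QuotientGroup.eq_one_iff]
    exact hEp e e.2) hX F₁ (by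
      rintro x _ ⟨f, hf, rfl⟩
      exact ⟨restr φ E hE x f, hF x f hf, rfl⟩)
  have hmem : ∀ (a : A) (ha : a ∈ E), a ∈ (C₁.comap (QuotientGroup.mk' N)).map E.subtype ↔ (((⟨a, ha⟩ : E)) : E ⧸ N) ∈ C₁ := by
    intro a ha
    constructor
    · rintro ⟨b, hb, e⟩
      have : b = ⟨a, ha⟩ := Subtype.ext e
      rw [← this]; exact hb
    · intro h
      exact ⟨⟨a, ha⟩, h, rfl⟩
  refine ⟨(C₁.comap (QuotientGroup.mk' N)).map E.subtype, ?_, map_subtype_le _, ?_, ?_, ?_⟩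
  · intro c hc
    rw [hmem c (hFE (hCF hc))]
    have : (((⟨c, hFE (hCF hc)⟩ : E)) : E ⧸ N) = 1 := (QuotientGroup.eq_one_iff _).2 hc
    rw [this]; exact C₁.one_mem
  · rintro x _ ⟨d, hd, rfl⟩
    exact ⟨restr φ E hE x d, hC₁ x _ hd, rfl⟩
  · apply le_antisymm
    · rintro x ⟨hx', hxF⟩
      have hx := (hmem x (hFE hxF)).1 hx'
      have h1 : (((⟨x, hFE hxF⟩ : E)) : E ⧸ N) ∈ C₁ ⊓ F₁ := ⟨hx, ⟨⟨x, hFE hxF⟩, hxF, rfl⟩⟩
      rw [hC₂, mem_bot] at h1
      have h2 : (⟨x, hFE hxF⟩ : E) ∈ N := (QuotientGroup.eq_one_iff _).1 h1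
      exact h2
    · intro c hc
      refine ⟨?_, hCF hc⟩
      show c ∈ (C₁.comap (QuotientGroup.mk' N)).map E.subtype
      rw [hmem c (hFE (hCF hc))]
      have : (((⟨c, hFE (hCF hc)⟩ : E)) : E ⧸ N) = 1 := (QuotientGroup.eq_one_iff _).2 hc
      rw [this]; exact C₁.one_mem
  · apply le_antisymm (sup_le (map_subtype_le _) hFE)
    intro e he
    have h1 : (((⟨e, he⟩ : E)) : E ⧸ N) ∈ C₁ ⊔ F₁ := by rw [hC₃]; trivial
    obtain ⟨c, hc, f, ⟨f', hf', rfl⟩, hcf⟩ := Subgroup.mem_sup.1 h1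
    obtain ⟨c', rfl⟩ := QuotientGroup.mk_surjective c
    have h2 : ((c' * f' : E) : E ⧸ N) = (((⟨e, he⟩ : E)) : E ⧸ N) := hcf
    rw [QuotientGroup.eq] at h2
    have h3 : ((c' : A) * (f' : A))⁻¹ * e ∈ C := h2
    have h4 : (c' : A) ∈ (C₁.comap (QuotientGroup.mk' N)).map E.subtype := ⟨c', hc, rfl⟩
    have h5 : e = (c' : A) * ((f' : A) * (((c' : A) * (f' : A))⁻¹ * e)) := by group
    rw [h5]
    exact Subgroup.mul_mem_sup h4 (F.mul_mem hf' (hCF h3))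

variable {A X : Type*} [CommGroup A] [Finite A] [Group X] [Finite X] {p : ℕ} [Fact p.Prime]

def Inv (φ : X →* MulAut A) (B : Subgroup A) : Prop := ∀ x, ∀ b ∈ B, φ x b ∈ B

theorem Inv.map {φ : X →* MulAut A} {B : Subgroup A} (h : Inv φ B) (n : ℕ) : Inv φ (B.map (powMonoidHom n)) := by
  rintro x _ ⟨b, hb, rfl⟩
  exact ⟨φ x b, h x b hb, by simp⟩

theorem Inv.comap {φ : X →* MulAut A} {B : Subgroup A} (h : Inv φ B) (n : ℕ) : Inv φ (B.comap (powMonoidHom n)) := by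
  intro x b hb
  have hb' : b ^ n ∈ B := hb
  show (φ x b) ^ n ∈ B
  rw [← map_pow]
  exact h x _ hb'

theorem Inv.inf {φ : X →* MulAut A} {B C : Subgroup A} (h : Inv φ B) (h' : Inv φ C) : Inv φ (B ⊓ C) :=
  fun x b hb => ⟨h x b hb.1, h' x b hb.2⟩

theorem Inv.sup {φ : X →* MulAut A} {B C : Subgroup A} (h : Inv φ B) (h' : Inv φ C) : Inv φ (B ⊔ C) := by
  intro x b hb
  obtain ⟨y, hy, z, hz, rfl⟩ := Subgroup.mem_sup.1 hb
  rw [map_mul]
  exact Subgroup.mul_mem_sup (h x y hy) (h' x z hz)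

theorem Inv.bot (φ : X →* MulAut A) : Inv φ (⊥ : Subgroup A) := by
  intro x b hb
  rw [mem_bot] at hb ⊢
  rw [hb, map_one]

theorem Inv.top (φ : X →* MulAut A) : Inv φ (⊤ : Subgroup A) := fun _ _ _ => trivial

/-- main: decomposability -/
theorem decomp (hA : IsPGroup p A) (φ : X →* MulAut A) (hX : (Nat.card X).Coprime p) {B₀ : Subgroup A} (hB₀ : Inv φ B₀)
    (hBp : ∀ b ∈ B₀, b ^ p = 1) (hB0 : B₀ ≠ ⊥) (hB1 : ∃ a : A, a ∉ B₀ ∧ a ^ p = 1) :
    ∃ B C : Subgroup A, B ≠ ⊥ ∧ C ≠ ⊥ ∧ Inv φ B ∧ Inv φ C ∧ B ⊓ C = ⊥ ∧ B ⊔ C = ⊤ := by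
  classical
  have hp : p.Prime := Fact.out
  -- the exponent
  have hex : ∃ m : ℕ, ∀ a : A, a ^ p ^ m = 1 := by
    obtain ⟨m, hm⟩ := IsPGroup.iff_card.1 hA
    exact ⟨m, fun a => by rw [← hm]; exact pow_card_eq_one'⟩
  have hm := Nat.find_spec hex
  have hmin : ∀ k < Nat.find hex, ¬ ∀ a : A, a ^ p ^ k = 1 := fun k hk => Nat.find_min hex hk
  generalize Nat.find hex = m at hm hmin
  obtain ⟨k, rfl⟩ : ∃ k, m = k + 1 := by
    rcases m with _ | k
    · exfalso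
      apply hB0
      rw [eq_bot_iff]
      intro b _
      have := hm b
      rw [pow_zero, pow_one] at this
      exact this
    · exact ⟨k, rfl⟩
  have hk := hmin k (Nat.lt_succ_self k)
  let W : Subgroup A := (⊤ : Subgroup A).map (powMonoidHom (p ^ k))
  have hWne : W ≠ ⊥ := by
    intro h
    apply hk
    intro a
    have : a ^ p ^ k ∈ W := ⟨a, trivial, rfl⟩
    rw [h] at this
    exact this
  have hWp : ∀ w ∈ W, w ^ p = 1 := by
    rintro _ ⟨a, -, rfl⟩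
    show (a ^ p ^ k) ^ p = 1
    rw [← pow_mul, ← pow_succ]
    exact hm a
  obtain ⟨B₁, hB₁, hB₁W, hB₁0, hB₁1⟩ : ∃ B₁ : Subgroup A, Inv φ B₁ ∧ B₁ ≤ W ∧ B₁ ≠ ⊥ ∧ ∃ a : A, a ∉ B₁ ∧ a ^ p = 1 := by
    by_cases hW : ∃ a : A, a ∉ W ∧ a ^ p = 1
    · exact ⟨W, (Inv.top φ).map _, le_rfl, hWne, hW⟩
    · push Not at hW
      refine ⟨B₀, hB₀, fun b hb => ?_, hB0, hB1⟩
      by_contra h
      exact hW b h (hBp b hb)
  -- minimal B
  obtain ⟨B, hB⟩ := (Set.toFinite {B : Subgroup A | Inv φ B ∧ B.map (powMonoidHom (p ^ k)) = B₁}).exists_minimal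
    ⟨B₁.comap (powMonoidHom (p ^ k)), hB₁.comap _, by
      apply le_antisymm
      · rintro _ ⟨a, ha, rfl⟩; exact ha
      · intro b hb
        obtain ⟨a, -, e⟩ := hB₁W hb
        refine ⟨a, ?_, e⟩
        show (powMonoidHom (p ^ k)) a ∈ B₁
        rw [e]; exact hb⟩
  obtain ⟨hBi, hBm⟩ := hB.prop
  have hBmin : ∀ D : Subgroup A, Inv φ D → D.map (powMonoidHom (p ^ k)) = B₁ → D ≤ B → B ≤ D := fun D h1 h2 h3 => hB.2 ⟨h1, h2⟩ h3
  let K : Subgroup A := B ⊓ (⊥ : Subgroup A).comap (powMonoidHom (p ^ k))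
  have hKi : Inv φ K := hBi.inf ((Inv.bot φ).comap _)
  have hKp : K ≤ B.map (powMonoidHom p) := by
    obtain ⟨D, hCD, hDB, hDi, hDK, hDK2⟩ := section_maschke (p := p) φ hX (C := B.map (powMonoidHom p)) (F := K) (E := B)
      (by
        rintro _ ⟨b, hb, rfl⟩
        refine ⟨B.pow_mem hb p, ?_⟩
        show (b ^ p) ^ p ^ k ∈ (⊥ : Subgroup A)
        rw [mem_bot, ← pow_mul, ← pow_succ']
        exact hm b) inf_le_left (hBi.map p) hKi hBi (fun e he => ⟨e, he, rfl⟩)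
    have h1 : D.map (powMonoidHom (p ^ k)) = B₁ := by
      rw [← hBm]
      apply le_antisymm (Subgroup.map_mono hDB)
      rintro _ ⟨b, hb, rfl⟩
      rw [← hDK2] at hb
      obtain ⟨d, hd, e, he, rfl⟩ := Subgroup.mem_sup.1 hb
      refine ⟨d, hd, ?_⟩
      have h3 : e ^ p ^ k = 1 := he.2
      show d ^ p ^ k = (d * e) ^ p ^ k
      rw [mul_pow, h3, mul_one]
    have h2 := hBmin D hDi h1 hDB
    rw [← hDK]
    exact le_inf ((inf_le_left : K ≤ B).trans h2) le_rfl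
  have hBne : B ≠ ⊥ := by
    rintro rfl
    rw [Subgroup.map_bot] at hBm
    exact hB₁0 hBm.symm
  obtain ⟨C, hC⟩ := (Set.toFinite {C : Subgroup A | Inv φ C ∧ C ⊓ B = ⊥}).exists_maximal ⟨⊥, Inv.bot φ, bot_inf_eq _⟩
  obtain ⟨hCi, hCB⟩ := hC.prop
  have hCmax : ∀ D : Subgroup A, Inv φ D → D ⊓ B = ⊥ → C ≤ D → D ≤ C := fun D h1 h2 h3 => hC.2 ⟨h1, h2⟩ h3
  have hsup : B ⊔ C = ⊤ := by
    by_contra hne
    obtain ⟨a, ha, hap⟩ : ∃ a, a ∉ B ⊔ C ∧ a ^ p ∈ B ⊔ C := by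
      obtain ⟨a, ha⟩ : ∃ a, a ∉ B ⊔ C := by
        by_contra h
        push Not at h
        exact hne (eq_top_iff.2 fun x _ => h x)
      have hex2 : ∃ j, a ^ p ^ j ∈ B ⊔ C := ⟨k + 1, by rw [hm a]; exact one_mem _⟩
      have h1 := Nat.find_spec hex2
      have h2 : ∀ j < Nat.find hex2, a ^ p ^ j ∉ B ⊔ C := fun j hj => Nat.find_min hex2 hj
      generalize Nat.find hex2 = j at h1 h2
      rcases j with _ | j
      · exact absurd (by simpa using h1) ha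
      · exact ⟨a ^ p ^ j, h2 j (Nat.lt_succ_self j), by rw [← pow_mul, ← pow_succ]; exact h1⟩
    obtain ⟨b, hb, c, hc, hbc⟩ := Subgroup.mem_sup.1 hap
    have h1 : b ^ p ^ k * c ^ p ^ k = 1 := by
      rw [← mul_pow, hbc, ← pow_mul, ← pow_succ']
      exact hm a
    have h2 : b ^ p ^ k = 1 := by
      have h3 : b ^ p ^ k ∈ C ⊓ B := by
        refine ⟨?_, B.pow_mem hb _⟩
        rw [eq_inv_of_mul_eq_one_left h1]
        exact C.inv_mem (C.pow_mem hc _)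
      rw [hCB] at h3
      exact h3
    obtain ⟨b', hb', hbb⟩ := hKp (show b ∈ K from ⟨hb, h2⟩)
    have hbb' : b' ^ p = b := hbb
    have h3 : (a * b'⁻¹) ^ p = c := by
      rw [mul_pow, inv_pow, hbb', ← hbc, mul_comm b c, mul_inv_cancel_right]
    obtain ⟨C', h4, h5, h6, h7, h8⟩ := section_maschke (p := p) φ hX (C := C)
      (F := (B ⊔ C) ⊓ C.comap (powMonoidHom p)) (E := C.comap (powMonoidHom p))
      (le_inf le_sup_right (fun c hc => C.pow_mem hc p)) inf_le_right hCi ((hBi.sup hCi).inf (hCi.comap p)) (hCi.comap p)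
      (fun e he => he)
    have h9 : C' ⊓ B = ⊥ := by
      rw [eq_bot_iff, ← hCB]
      rintro x ⟨hx, hxB⟩
      refine ⟨?_, hxB⟩
      rw [← h7]
      exact ⟨hx, (le_sup_left : B ≤ B ⊔ C) hxB, h5 hx⟩
    have h10 := hCmax C' h6 h9 h4
    have h11 : a * b'⁻¹ ∈ C.comap (powMonoidHom p) := by
      show (a * b'⁻¹) ^ p ∈ C
      rw [h3]; exact hc
    rw [← h8] at h11
    have h12 : a * b'⁻¹ ∈ B ⊔ C := (sup_le (h10.trans le_sup_right) inf_le_left) h11
    apply ha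
    have := (B ⊔ C).mul_mem h12 ((le_sup_left : B ≤ B ⊔ C) hb')
    rwa [inv_mul_cancel_right] at this
  refine ⟨B, C, hBne, ?_, hBi, hCi, by rw [inf_comm]; exact hCB, hsup⟩
  rintro rfl
  rw [sup_bot_eq] at hsup
  obtain ⟨a, ha, hap⟩ := hB₁1
  apply ha
  rw [← hBm]
  have key : ∀ j, j ≤ k → ∃ x : A, x ^ p ^ j = a := by
    intro j
    induction j with
    | zero => intro _; exact ⟨a, by simp⟩
    | succ j ih =>
      intro hj
      obtain ⟨x, hx⟩ := ih (by omega)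
      have h1 : x ^ p ^ k = 1 := by
        have h2 : x ^ p ^ (j + 1) = 1 := by rw [pow_succ, pow_mul, hx, hap]
        obtain ⟨d, hd⟩ := Nat.exists_eq_add_of_le hj
        rw [hd, pow_add, pow_mul, h2, one_pow]
      obtain ⟨y, -, hy⟩ := hKp (show x ∈ K from ⟨by rw [hsup]; trivial, h1⟩)
      have hy' : y ^ p = x := hy
      exact ⟨y, by rw [pow_succ', pow_mul, hy', hx]⟩
  obtain ⟨x, hx⟩ := key k le_rfl
  exact ⟨x, by rw [hsup]; trivial, hx⟩

end Cfsg.Agent.H2.MaschkeAb
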