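import Mathlib
import Cfsg.Agent.Lib.PGrpE
import Cfsg.Agent.H2.PUtil
import Cfsg.Agent.H2.Soft
import Cfsg.Prelude.Def_OddOrderLocal

/-! Coprime actions on metacyclic `p`-groups -/

set_option autoImplicit false
set_option linter.unusedSectionVars false

namespace Cfsg.Agent.H2.MetaAct

open Subgroup Cfsg.Agent.Lib Cfsg.Agent.H2
open scoped commutatorElement

universe u v

theorem meta_quot {R : Type u} [Group R] (h : Cfsg.IsMetacyclic R) (S : Subgroup R) [S.Normal] : Cfsg.IsMetacyclic (R ⧸ S) := by
  obtain ⟨N, hN, h1, h2⟩ := h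
  haveI hN' : (N.map (QuotientGroup.mk' S)).Normal := Normal.map hN _ (QuotientGroup.mk'_surjective S)
  refine ⟨N.map (QuotientGroup.mk' S), hN', ?_, ?_⟩
  · exact isCyclic_of_surjective ((QuotientGroup.mk' S).subgroupMap N) ((QuotientGroup.mk' S).subgroupMap_surjective N)
  · let f : R ⧸ N →* (R ⧸ S) ⧸ N.map (QuotientGroup.mk' S) :=
      QuotientGroup.map N (N.map (QuotientGroup.mk' S)) (QuotientGroup.mk' S) (fun x hx => ⟨x, hx, rfl⟩)
    refine isCyclic_of_surjective f ?_
    intro y
    obtain ⟨y, rfl⟩ := QuotientGroup.mk_surjective y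
    obtain ⟨y, rfl⟩ := QuotientGroup.mk_surjective y
    exact ⟨(y : R ⧸ N), rfl⟩

theorem meta_sub {R : Type u} [Group R] (h : Cfsg.IsMetacyclic R) (S : Subgroup R) : Cfsg.IsMetacyclic S := by
  obtain ⟨N, hN, h1, h2⟩ := h
  refine ⟨N.subgroupOf S, inferInstance, ?_, ?_⟩
  · exact isCyclic_of_injective ((S.subtype.comp (N.subgroupOf S).subtype).codRestrict N (fun x => x.2)) (by
      intro a b hab
      have h : ((a : S) : R) = ((b : S) : R) := congrArg (Subtype.val : N → R) hab
      exact Subtype.ext (Subtype.ext h))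
  · let f : S ⧸ N.subgroupOf S →* R ⧸ N := QuotientGroup.map (N.subgroupOf S) N S.subtype (fun x hx => hx)
    refine isCyclic_of_injective f ?_
    rw [← MonoidHom.ker_eq_bot_iff, eq_bot_iff]
    intro y hy
    obtain ⟨y, rfl⟩ := QuotientGroup.mk_surjective y
    have h3 : ((y : R) : R ⧸ N) = 1 := hy
    rw [mem_bot, QuotientGroup.eq_one_iff]
    have h4 : (y : R) ∈ N := (QuotientGroup.eq_one_iff _).1 h3
    exact h4

theorem meta_equiv {R : Type u} {S : Type v} [Group R] [Group S] (e : R ≃* S) (h : Cfsg.IsMetacyclic R) : Cfsg.IsMetacyclic S := by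
  obtain ⟨N, hN, h1, h2⟩ := h
  haveI hN' : (N.map e.toMonoidHom).Normal := Normal.map hN _ e.surjective
  refine ⟨N.map e.toMonoidHom, hN', ?_, ?_⟩
  · exact isCyclic_of_surjective (e.toMonoidHom.subgroupMap N) (e.toMonoidHom.subgroupMap_surjective N)
  · let f : R ⧸ N →* S ⧸ N.map e.toMonoidHom := QuotientGroup.map N _ e.toMonoidHom (fun x hx => ⟨x, hx, rfl⟩)
    refine isCyclic_of_surjective f ?_
    intro y
    obtain ⟨y, rfl⟩ := QuotientGroup.mk_surjective y
    obtain ⟨x, rfl⟩ := e.surjective y
    exact ⟨(x : R ⧸ N), rfl⟩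

theorem card_le_sq {R : Type u} [Group R] [Finite R] {p : ℕ} [Fact p.Prime] (h : Cfsg.IsMetacyclic R) (H : Subgroup R)
    (hH : ∀ x ∈ H, x ^ p = 1) : Nat.card H ≤ p ^ 2 := by
  obtain ⟨N, hN, h1, h2⟩ := h
  exact PGrpE.card_le_of_metacyclic h1 h2 H hH

theorem comm_cyclic {R : Type u} [Group R] (h : Cfsg.IsMetacyclic R) : IsCyclic (commutator R) := by
  obtain ⟨N, hN, h1, h2⟩ := h
  have hle : commutator R ≤ N := by
    rw [_root_.commutator_def, Subgroup.commutator_le]
    intro x _ y _
    have hc := (IsCyclic.commGroup (α := R ⧸ N)).mul_comm (x : R ⧸ N) (y : R ⧸ N)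
    rw [← QuotientGroup.eq_one_iff]
    show (QuotientGroup.mk' N) ⁅x, y⁆ = 1
    rw [map_commutatorElement, commutatorElement_eq_one_iff_mul_comm]
    exact hc
  exact isCyclic_of_injective (Subgroup.inclusion hle) (Subgroup.inclusion_injective hle)

/-- a metacyclic `p`-group, `p` odd, equal to its commutator with a `p'`-operator group is abelian -/
theorem comm_of_gen {p : ℕ} [Fact p.Prime] (hp : p ≠ 2) {X : Type v} [Group X] [Finite X] (hX : (Nat.card X).Coprime p) (n : ℕ) :
    ∀ (R : Type u) [Group R] [Finite R], Nat.card R ≤ n → IsPGroup p R → Cfsg.IsMetacyclic R → ∀ φ : X →* MulAut R,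
      (∀ S : Subgroup R, S.Normal → (∀ x r, φ x r * r⁻¹ ∈ S) → S = ⊤) → ∀ a b : R, a * b = b * a := by
  classical
  have hpp : p.Prime := Fact.out
  haveI : Fintype X := Fintype.ofFinite X
  induction n with
  | zero =>
    intro R _ _ h
    have : 0 < Nat.card R := Nat.card_pos
    omega
  | succ n ih =>
  intro R _ _ hcard hR hm φ hgen
  by_contra hcon
  push Not at hcon
  obtain ⟨a₀, b₀, hab⟩ := hcon
  -- nontrivial invariant normal subgroups contain the commutator subgroup
  have hmin : ∀ N : Subgroup R, N.Normal → (∀ x, ∀ r ∈ N, φ x r ∈ N) → N ≠ ⊥ → commutator R ≤ N := by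
    intro N hN hNi hNb
    have hmap : ∀ x, N.map (φ x).toMonoidHom = N := by
      intro x
      apply le_antisymm
      · rintro _ ⟨a, ha, rfl⟩; exact hNi x a ha
      · intro a ha
        refine ⟨φ x⁻¹ a, hNi _ a ha, ?_⟩
        show φ x (φ x⁻¹ a) = a
        rw [← MulAut.mul_apply, ← map_mul, mul_inv_cancel, map_one, MulAut.one_apply]
    let ψ : X →* MulAut (R ⧸ N) :=
      { toFun := fun x => QuotientGroup.congr N N (φ x) (hmap x)
        map_one' := by
          ext a
          obtain ⟨a, rfl⟩ := QuotientGroup.mk_surjective a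
          simp
        map_mul' := fun x y => by
          ext a
          obtain ⟨a, rfl⟩ := QuotientGroup.mk_surjective a
          show ((φ (x * y) a : R) : R ⧸ N) = ((φ x (φ y a) : R) : R ⧸ N)
          rw [map_mul, MulAut.mul_apply] }
    have hlt : Nat.card (R ⧸ N) ≤ n := by
      have h1 := Subgroup.card_eq_card_quotient_mul_card_subgroup N
      have h2 : 1 < Nat.card N := (Subgroup.one_lt_card_iff_ne_bot N).2 hNb
      have h3 : 0 < Nat.card (R ⧸ N) := Nat.card_pos
      have h4 : Nat.card (R ⧸ N) < Nat.card R := by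
        rw [h1]; exact lt_mul_of_one_lt_right h3 h2
      omega
    have h5 := ih (R ⧸ N) hlt (hR.to_quotient N) (meta_quot hm N) ψ (by
      intro S hS hSx
      have h6 := hgen (S.comap (QuotientGroup.mk' N)) (hS.comap _) (fun x r => hSx x (r : R ⧸ N))
      rw [← Subgroup.map_comap_eq_self_of_surjective (QuotientGroup.mk'_surjective N) S, h6,
        Subgroup.map_top_of_surjective _ (QuotientGroup.mk'_surjective N)])
    rw [_root_.commutator_def, Subgroup.commutator_le]
    intro x _ y _
    rw [← QuotientGroup.eq_one_iff]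
    show (QuotientGroup.mk' N) ⁅x, y⁆ = 1
    rw [map_commutatorElement, commutatorElement_eq_one_iff_mul_comm]
    exact h5 _ _
  have hDne : commutator R ≠ ⊥ := by
    intro h
    apply hab
    have h1 : ⁅a₀, b₀⁆ ∈ commutator R := by
      rw [_root_.commutator_def]; exact Subgroup.commutator_mem_commutator (mem_top _) (mem_top _)
    rw [h, mem_bot] at h1
    exact commutatorElement_eq_one_iff_mul_comm.1 h1
  have hRn : Nontrivial R := ⟨⟨a₀ * b₀, b₀ * a₀, hab⟩⟩
  have hinvD : ∀ x, ∀ r ∈ commutator R, φ x r ∈ commutator R := fun x r hr =>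
    (Subgroup.characteristic_iff_map_le.1 (inferInstance : (commutator R).Characteristic) (φ x)) ⟨r, hr, rfl⟩
  -- the commutator subgroup is central
  have hDZ : commutator R ≤ center R := by
    apply hmin (center R) inferInstance
    · intro x r hr
      exact (Subgroup.characteristic_iff_map_le.1 (inferInstance : (center R).Characteristic) (φ x)) ⟨r, hr, rfl⟩
    · haveI := hR.center_nontrivial
      exact (Subgroup.nontrivial_iff_ne_bot _).1 this
  have hcl : PGrpA.Class2 R := PGrpA.class2_iff.2 hDZ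
  -- of order `p`
  obtain ⟨z, hz⟩ : ∃ z : R, commutator R = zpowers z := by
    obtain ⟨g, hg⟩ := (comm_cyclic hm).exists_generator
    refine ⟨g, le_antisymm (fun d hd => ?_) (zpowers_le.2 g.2)⟩
    obtain ⟨i, hi⟩ := hg ⟨d, hd⟩
    exact ⟨i, congrArg Subtype.val hi⟩
  have hzc : ∀ r : R, z * r = r * z := by
    intro r
    have : z ∈ commutator R := by rw [hz]; exact mem_zpowers z
    exact ((Subgroup.mem_center_iff.1 (hDZ this)) r).symm
  have hz1 : z ≠ 1 := by
    intro h
    rw [h, zpowers_one_eq_bot] at hz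
    exact hDne hz
  have hzp : z ^ p = 1 := by
    by_contra hne
    have h1 : zpowers (z ^ p) ≤ zpowers z := zpowers_le.2 (pow_mem (mem_zpowers z) p)
    have h2 : (zpowers (z ^ p)).Normal := ⟨fun n hn g => by
      obtain ⟨i, rfl⟩ := hn
      have : Commute g ((z ^ p) ^ i) := ((show Commute z g from hzc g).symm.pow_right p).zpow_right i
      show g * (z ^ p) ^ i * g⁻¹ ∈ _
      rw [this.eq, mul_inv_cancel_right]
      exact zpow_mem (mem_zpowers _) i⟩
    have h3 := hmin (zpowers (z ^ p)) h2 (by
      rintro x _ ⟨i, rfl⟩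
      show φ x ((z ^ p) ^ i) ∈ _
      rw [map_zpow, map_pow]
      have h4 : φ x z ∈ commutator R := hinvD x z (by rw [hz]; exact mem_zpowers z)
      rw [hz] at h4
      obtain ⟨j, hj⟩ := h4
      have hj' : z ^ j = φ x z := hj
      have e : ((z ^ j) ^ p) ^ i = (z ^ p) ^ (j * i) := by
        rw [← zpow_natCast (z ^ j) p, ← zpow_natCast z p, ← zpow_mul, ← zpow_mul, ← zpow_mul]
        congr 1; ring
      rw [← hj', e]
      exact zpow_mem (mem_zpowers _) _) (by
      rw [Ne, zpowers_eq_bot]; exact hne)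
    rw [hz] at h3
    have h5 : Nat.card (zpowers z) ≤ Nat.card (zpowers (z ^ p)) := Subgroup.card_le_of_le h3
    rw [Nat.card_zpowers, Nat.card_zpowers] at h5
    obtain ⟨k, hk⟩ := hR z
    have h6 : orderOf z ∣ p ^ k := orderOf_dvd_of_pow_eq_one hk
    obtain ⟨l, hl, hl2⟩ := (Nat.dvd_prime_pow hpp).1 h6
    have h7 : l ≠ 0 := by
      rintro rfl
      rw [pow_zero, orderOf_eq_one_iff] at hl2
      exact hz1 hl2
    have h8 : p ∣ orderOf z := by rw [hl2]; exact dvd_pow_self p h7
    rw [orderOf_pow_of_dvd hpp.ne_zero h8] at h5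
    have h9 : 0 < orderOf z := orderOf_pos z
    have h10 : orderOf z / p < orderOf z := Nat.div_lt_self h9 hpp.one_lt
    omega
  have hzo : orderOf z = p := orderOf_eq_prime hzp hz1
  have hcp : ∀ x y : R, ⁅x, y⁆ ^ p = 1 := by
    intro x y
    have h1 : ⁅x, y⁆ ∈ commutator R := by
      rw [_root_.commutator_def]; exact Subgroup.commutator_mem_commutator (mem_top _) (mem_top _)
    rw [hz] at h1
    obtain ⟨i, hi⟩ := h1
    have hi' : z ^ i = ⁅x, y⁆ := hi
    rw [← hi', ← zpow_natCast, ← zpow_mul, mul_comm, zpow_mul, zpow_natCast, hzp, one_zpow]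
  -- the power homomorphisms
  let P : R →* R := hcl.powHom hpp hp hcp
  have hP : ∀ r, P r = r ^ p := fun _ => rfl
  have hPk : ∀ k : ℕ, ∃ f : R →* R, ∀ r, f r = r ^ p ^ k := by
    intro k
    induction k with
    | zero => exact ⟨MonoidHom.id R, fun r => by simp⟩
    | succ k ihk =>
      obtain ⟨f, hf⟩ := ihk
      refine ⟨f.comp P, fun r => ?_⟩
      rw [MonoidHom.comp_apply, hf, hP, ← pow_mul, ← pow_succ']
  -- exponent
  have hex : ∃ m : ℕ, ∀ r : R, r ^ p ^ m = 1 := by
    obtain ⟨m, hm'⟩ := IsPGroup.iff_card.1 hR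
    exact ⟨m, fun r => by rw [← hm']; exact pow_card_eq_one'⟩
  have hmm := Nat.find_spec hex
  have hmin2 : ∀ k < Nat.find hex, ¬ ∀ a : R, a ^ p ^ k = 1 := fun k hk => Nat.find_min hex hk
  generalize Nat.find hex = m at hmm hmin2
  obtain ⟨k, rfl⟩ : ∃ k, m = k + 1 := by
    rcases m with _ | k
    · exfalso
      have h1 := hmm a₀
      have h2 := hmm b₀
      rw [pow_zero, pow_one] at h1 h2
      rw [h1, h2] at hab
      exact hab rfl
    · exact ⟨k, rfl⟩
  have hk := hmin2 k (Nat.lt_succ_self k)
  have hk0 : k ≠ 0 := by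
    rintro rfl
    have h1 := card_le_sq (p := p) hm (⊤ : Subgroup R) (fun x _ => by simpa using hmm x)
    rw [Subgroup.card_top] at h1
    obtain ⟨j, hj⟩ := IsPGroup.iff_card.1 hR
    rw [hj] at h1
    have h2 : j ≤ 2 := (Nat.pow_le_pow_iff_right hpp.one_lt).1 h1
    have hcm : ∀ a b : R, a * b = b * a := by
      have h3 : j = 0 ∨ j = 1 ∨ j = 2 := by omega
      rcases h3 with rfl | rfl | rfl
      · rw [pow_zero] at hj
        haveI := (Nat.card_eq_one_iff_unique.1 hj).1
        exact fun a b => Subsingleton.elim _ _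
      · rw [pow_one] at hj
        haveI := isCyclic_of_prime_card hj
        exact (IsCyclic.commGroup (α := R)).mul_comm
      · exact (IsPGroup.commGroupOfCardEqPrimeSq hj).mul_comm
    exact hab (hcm a₀ b₀)
  obtain ⟨f, hf⟩ := hPk k
  -- image and kernel of `f`
  obtain ⟨x, hx⟩ : ∃ x, f x = z := by
    have h1 : commutator R ≤ f.range := by
      apply hmin
      · refine ⟨?_⟩
        rintro _ ⟨r, rfl⟩ g
        refine ⟨g * r * g⁻¹, ?_⟩
        rw [hf, hf, conj_pow]
      · rintro y _ ⟨r, rfl⟩
        refine ⟨φ y r, ?_⟩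
        rw [hf, hf, map_pow]
      · intro h
        apply hk
        intro a
        have : f a ∈ f.range := ⟨a, rfl⟩
        rw [h, mem_bot, hf] at this
        exact this
    exact h1 (by rw [hz]; exact mem_zpowers z)
  -- the centre
  have hPZ : P.range ≤ center R := by
    rintro _ ⟨r, rfl⟩
    rw [Subgroup.mem_center_iff]
    intro y
    rw [hP]
    have h1 : ⁅r ^ p, y⁆ = 1 := by rw [hcl.pow_left, hcp]
    exact (commutatorElement_eq_one_iff_mul_comm.1 h1).symm
  haveI hPn : P.range.Normal := PGrpA.normal_of_center_card hPZ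
  have hZidx : p ^ 2 ≤ (center R).index := by
    obtain ⟨j, hj⟩ := hR.index (center R)
    rw [hj]
    apply Nat.pow_le_pow_right hpp.pos
    by_contra hlt
    push Not at hlt
    have h1 : IsCyclic (R ⧸ center R) := by
      have h2 : Nat.card (R ⧸ center R) = p ^ j := hj
      have h3 : j = 0 ∨ j = 1 := by omega
      rcases h3 with rfl | rfl
      · rw [pow_zero] at h2
        haveI := (Nat.card_eq_one_iff_unique.1 h2).1
        infer_instance
      · rw [pow_one] at h2
        exact isCyclic_of_prime_card h2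
    exact hab ((MonoidHom.isMulCommutative_of_isCyclic_of_ker_le_center (QuotientGroup.mk' (center R)) (by rw [QuotientGroup.ker_mk'])).is_comm.comm a₀ b₀)
  have hPidx : P.range.index ≤ p ^ 2 := by
    have h1 := card_le_sq (p := p) (meta_quot hm P.range) (⊤ : Subgroup (R ⧸ P.range)) (by
      intro y _
      obtain ⟨y, rfl⟩ := QuotientGroup.mk_surjective y
      rw [← QuotientGroup.mk_pow, QuotientGroup.eq_one_iff]
      exact ⟨y, rfl⟩)
    rwa [Subgroup.card_top] at h1
  have hPZeq : P.range = center R := by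
    apply Subgroup.eq_of_le_of_card_ge hPZ
    have h1 := Subgroup.card_mul_index (center R)
    have h2 := Subgroup.card_mul_index P.range
    by_contra hlt
    push Not at hlt
    have h3 : Nat.card P.range * P.range.index < Nat.card (center R) * (center R).index := by
      calc Nat.card P.range * P.range.index ≤ Nat.card P.range * p ^ 2 := Nat.mul_le_mul_left _ hPidx
        _ < Nat.card (center R) * p ^ 2 := Nat.mul_lt_mul_of_pos_right hlt (pow_pos hpp.pos 2)
        _ ≤ _ := Nat.mul_le_mul_left _ hZidx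
    omega
  have hZi : (center R).index = p ^ 2 := le_antisymm (by rw [← hPZeq]; exact hPidx) hZidx
  have hxZ : x ∉ center R := by
    rw [← hPZeq]
    rintro ⟨y, hy⟩
    rw [hP] at hy
    apply hz1
    rw [← hx, hf, ← hy, ← pow_mul, ← pow_succ']
    exact hmm y
  have hfZ : ∀ c ∈ center R, f c = 1 := by
    intro c hc
    rw [← hPZeq] at hc
    obtain ⟨y, rfl⟩ := hc
    rw [hf, hP, ← pow_mul, ← pow_succ']
    exact hmm y
  -- the action on `z` and on `x` modulo the kernel
  have hact : ∀ α : X, ∃ l : ℤ, φ α z = z ^ l ∧ φ α x * (x ^ l)⁻¹ ∈ f.ker ∧ ∀ w ∈ commutator R, φ α w = w ^ l := by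
    intro α
    have h4 : φ α z ∈ commutator R := hinvD α z (by rw [hz]; exact mem_zpowers z)
    rw [hz] at h4
    obtain ⟨l, hl⟩ := h4
    have hl' : z ^ l = φ α z := hl
    refine ⟨l, hl'.symm, ?_, ?_⟩
    · rw [MonoidHom.mem_ker, map_mul, map_inv, map_zpow, hx, hl', mul_inv_eq_one, hf, ← map_pow, ← hf x, hx]
    · intro w hw
      rw [hz] at hw
      obtain ⟨i, hi⟩ := hw
      have hi' : z ^ i = w := hi
      rw [← hi', map_zpow, ← hl', ← zpow_mul, ← zpow_mul, mul_comm]
  have hcancel : ∀ (l : ℤ) (α : X), φ α z = z ^ l → ∀ w ∈ commutator R, w ^ l = 1 → w = 1 := by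
    intro l α hl w hw h1
    rw [hz] at hw
    obtain ⟨i, hi⟩ := hw
    have hi' : z ^ i = w := hi
    rw [← hi', ← zpow_mul, mul_comm, zpow_mul, ← hl, ← map_zpow] at h1
    have h2 := (φ α).injective (h1.trans (map_one (φ α)).symm)
    rw [← hi', h2]
  have hcD : ∀ a b : R, ⁅a, b⁆ ∈ commutator R := fun a b => by
    rw [_root_.commutator_def]; exact Subgroup.commutator_mem_commutator (mem_top _) (mem_top _)
  have hlz : ∀ (l : ℤ) (a b : R), ⁅a ^ l, b⁆ = ⁅a, b⁆ ^ l := fun l a b => hcl.zpow_left a b l
  -- key computation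
  have hkey : ∀ (α : X) (r : R), (∀ m ∈ f.ker, ⁅m, φ α r⁆ = 1) → ⁅x, φ α r * r⁻¹⁆ = 1 := by
    intro α r hm
    obtain ⟨l, h1, h2, h3⟩ := hact α
    have h4 : φ α ⁅x, r⁆ = ⁅x, r⁆ ^ l := h3 _ (hcD x r)
    rw [map_commutatorElement] at h4
    have h5 : φ α x = φ α x * (x ^ l)⁻¹ * x ^ l := by group
    rw [h5, hcl.mul_left, hm _ h2, one_mul, hlz] at h4
    have h6 : (⁅x, φ α r⁆ * ⁅x, r⁆⁻¹) ^ l = 1 := by
      have hc : Commute ⁅x, φ α r⁆ ⁅x, r⁆⁻¹ := (show Commute ⁅x, φ α r⁆ ⁅x, r⁆ from hcl.comm _ _ _).inv_right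
      rw [hc.mul_zpow, h4, inv_zpow, mul_inv_cancel]
    have h7 := hcancel l α h1 _ ((commutator R).mul_mem (hcD _ _) ((commutator R).inv_mem (hcD _ _))) h6
    rw [hcl.mul_right, hcl.inv_right]
    exact h7
  by_cases hI : f.ker ≤ center R
  · -- case (I)
    have h1 := hgen (centralizer {x}) ⟨fun n hn g => by
      rw [mem_centralizer_singleton_iff] at hn ⊢
      have h2 : ⁅x, n⁆ = 1 := commutatorElement_eq_one_iff_mul_comm.2 hn.symm
      have h3 : ⁅x, g * n * g⁻¹⁆ = 1 := by
        rw [hcl.mul_right, hcl.mul_right, h2, mul_one, hcl.inv_right, mul_inv_cancel]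
      exact (commutatorElement_eq_one_iff_mul_comm.1 h3).symm⟩ (by
      intro α r
      rw [mem_centralizer_singleton_iff]
      have h3 := hkey α r (fun m hm => by
        have := Subgroup.mem_center_iff.1 (hI hm) (φ α r)
        exact commutatorElement_eq_one_iff_mul_comm.2 this.symm)
      exact (commutatorElement_eq_one_iff_mul_comm.1 h3).symm)
    apply hxZ
    rw [Subgroup.mem_center_iff]
    intro g
    have : g ∈ centralizer {x} := by rw [h1]; trivial
    exact mem_centralizer_singleton_iff.1 this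
  · -- case (II)
    obtain ⟨y, hyk, hyZ⟩ := SetLike.not_le_iff_exists.1 hI
    let T : Subgroup R := center R ⊔ f.ker
    have hZT : center R < T := lt_of_le_of_ne le_sup_left (fun e => hI (by rw [e]; exact le_sup_right))
    have hfT : ∀ t ∈ T, f t = 1 := by
      intro t ht
      have h1 : T ≤ f.ker := sup_le (fun c hc => hfZ c hc) le_rfl
      exact h1 ht
    have hxT : x ∉ T := fun h => hz1 (by rw [← hx]; exact hfT x h)
    have hTc : Nat.card T = p * Nat.card (center R) ∧ Nat.card R = p * Nat.card T := by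
      have h1 := Subgroup.card_mul_index (center R)
      rw [hZi] at h1
      have h2 := Soft.card_mul_rel hZT.le
      have h3 := Subgroup.card_mul_index T
      have h4 : (center R).relIndex T * T.index = p ^ 2 := by rw [Subgroup.relIndex_mul_index hZT.le, hZi]
      have h5 : (center R).relIndex T ∣ p ^ 2 := Dvd.intro _ h4
      obtain ⟨j, hj, hj2⟩ := (Nat.dvd_prime_pow hpp).1 h5
      have h6 : j ≠ 0 := by
        rintro rfl
        rw [pow_zero, Subgroup.relIndex_eq_one] at hj2
        exact hZT.not_ge hj2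
      have h7 : j ≠ 2 := by
        rintro rfl
        rw [hj2] at h4
        have h8 : T.index = 1 := Nat.eq_of_mul_eq_mul_left (pow_pos hpp.pos 2) (by rw [h4, mul_one])
        rw [Subgroup.index_eq_one] at h8
        exact hxT (by rw [h8]; trivial)
      have h8 : j = 1 := by omega
      rw [h8, pow_one] at hj2
      have h9 : T.index = p := by
        rw [hj2, pow_two] at h4
        exact Nat.eq_of_mul_eq_mul_left hpp.pos h4
      refine ⟨by rw [← h2, hj2], by rw [← h3, h9, mul_comm]⟩
    have hTy : T = center R ⊔ zpowers y := by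
      have hle : center R ⊔ zpowers y ≤ T := sup_le le_sup_left (zpowers_le.2 ((le_sup_right : f.ker ≤ T) hyk))
      rcases Soft.eq_of_prime (p := p) (le_sup_left : center R ≤ center R ⊔ zpowers y) hle hTc.1 with h1 | h1
      · exact absurd (h1.le (le_sup_right (a := center R) (mem_zpowers y))) hyZ
      · exact h1.symm
    have hTcomm : ∀ s ∈ T, ∀ t ∈ T, s * t = t * s := by
      have h1 : ∀ t ∈ T, t * y = y * t := by
        intro t ht
        have h2 : T ≤ centralizer {y} := by
          rw [hTy]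
          refine sup_le (Subgroup.center_le_centralizer _) (zpowers_le.2 ?_)
          rw [mem_centralizer_singleton_iff]
        exact mem_centralizer_singleton_iff.1 (h2 ht)
      intro s hs t ht
      have h2 : T ≤ centralizer {s} := by
        rw [hTy]
        refine sup_le (Subgroup.center_le_centralizer _) (zpowers_le.2 ?_)
        rw [mem_centralizer_singleton_iff]
        exact (h1 s hs).symm
      exact (mem_centralizer_singleton_iff.1 (h2 ht)).symm
    have hTx : T ⊔ zpowers x = ⊤ := by
      rcases Soft.eq_of_prime (p := p) (le_sup_left : T ≤ T ⊔ zpowers x) le_top (by rw [Subgroup.card_top]; exact hTc.2) with h1 | h1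
      · exact absurd (h1.le (le_sup_right (a := T) (mem_zpowers x))) hxT
      · exact h1
    have hkT : f.ker ≤ T := le_sup_right
    have hkinv : ∀ α : X, φ α y ∈ f.ker := by
      intro α
      rw [MonoidHom.mem_ker, hf, ← map_pow, ← hf, MonoidHom.mem_ker.1 hyk, map_one]
    have hyfix : ∀ α : X, φ α y * y⁻¹ ∈ center R := by
      intro α
      have h1 := hkey α y (fun m hm => commutatorElement_eq_one_iff_mul_comm.2 (hTcomm m (hkT hm) _ (hkT (hkinv α))))
      have h2 : φ α y * y⁻¹ ∈ T := T.mul_mem (hkT (hkinv α)) (T.inv_mem (hkT hyk))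
      rw [Subgroup.mem_center_iff]
      intro g
      have h3 : T ⊔ zpowers x ≤ centralizer {φ α y * y⁻¹} := by
        refine sup_le (fun t ht => ?_) (zpowers_le.2 ?_)
        · rw [mem_centralizer_singleton_iff]
          exact hTcomm t ht _ h2
        · rw [mem_centralizer_singleton_iff]
          exact commutatorElement_eq_one_iff_mul_comm.1 h1
      rw [hTx] at h3
      exact mem_centralizer_singleton_iff.1 (h3 (mem_top g))
    -- averaging
    let ρ : R →* Abelianization R :=
      { toFun := fun r => ∏ α : X, Abelianization.of (φ α r)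
        map_one' := by simp
        map_mul' := fun a b => by simp [Finset.prod_mul_distrib] }
    have hρ : ∀ r, ρ r = ∏ α : X, Abelianization.of (φ α r) := fun _ => rfl
    have hρinv : ∀ β r, ρ (φ β r) = ρ r := by
      intro β r
      rw [hρ, hρ]
      refine Fintype.prod_equiv (Equiv.mulRight β) _ _ fun α => ?_
      simp only [Equiv.coe_mulRight]
      rw [map_mul, MulAut.mul_apply]
    have hker := hgen ρ.ker inferInstance (fun α r => by
      rw [MonoidHom.mem_ker, map_mul, map_inv, hρinv, mul_inv_cancel])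
    have hρy : ρ y = 1 := by
      have : y ∈ ρ.ker := by rw [hker]; trivial
      exact this
    -- `ρ y = of (y ^ |X| c)` with `c` central
    obtain ⟨c, hc, hcy⟩ : ∃ c ∈ center R, ρ y = Abelianization.of (c * y ^ Nat.card X) := by
      have h1 : ∀ α : X, Abelianization.of (φ α y) = Abelianization.of (φ α y * y⁻¹) * Abelianization.of y := by
        intro α
        rw [← map_mul, inv_mul_cancel_right]
      rw [hρ]
      have h2 : ∏ α : X, Abelianization.of (φ α y) = (∏ α : X, Abelianization.of (φ α y * y⁻¹)) * Abelianization.of y ^ Nat.card X := by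
        rw [Finset.prod_congr rfl (fun α _ => h1 α), Finset.prod_mul_distrib, Finset.prod_const, Finset.card_univ, Nat.card_eq_fintype_card]
      have h3 : ∏ α : X, Abelianization.of (φ α y * y⁻¹) ∈ (center R).map (Abelianization.of : R →* Abelianization R) :=
        Subgroup.prod_mem _ fun α _ => ⟨_, hyfix α, rfl⟩
      obtain ⟨c, hc, hce⟩ := h3
      refine ⟨c, hc, ?_⟩
      rw [h2, ← hce, map_mul, map_pow]
    rw [hρy] at hcy
    have h4 : c * y ^ Nat.card X ∈ commutator R := by
      have : c * y ^ Nat.card X ∈ (Abelianization.of : R →* Abelianization R).ker := hcy.symm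
      rwa [Abelianization.ker_of] at this
    have h5 : y ^ Nat.card X ∈ center R := by
      have := (center R).mul_mem ((center R).inv_mem hc) (hDZ h4)
      rwa [inv_mul_cancel_left] at this
    apply hyZ
    have h6 : y ^ p ∈ center R := hPZ ⟨y, rfl⟩
    obtain ⟨u, v, huv⟩ : ∃ u v : ℤ, (Nat.card X : ℤ) * u + p * v = 1 := by
      have := Nat.isCoprime_iff_coprime.2 hX
      obtain ⟨a, b, hab⟩ := this
      exact ⟨a, b, by linear_combination hab⟩
    have h7 : y = (y ^ Nat.card X) ^ u * (y ^ p) ^ v := by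
      rw [← zpow_natCast, ← zpow_natCast, ← zpow_mul, ← zpow_mul, ← zpow_add, huv, zpow_one]
    rw [h7]
    exact (center R).mul_mem ((center R).zpow_mem h5 u) ((center R).zpow_mem h6 v)

end Cfsg.Agent.H2.MetaAct
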