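import Mathlib
import Cfsg.Agent.Lib.SchurMult
import Cfsg.Agent.Lib.CyclicExt
import Cfsg.Agent.H2.SchurMeta
import Cfsg.Agent.H2.DihedralSchur
set_option autoImplicit false

open scoped commutatorElement
open Cfsg.Agent.Lib.SchurMult Cfsg.Agent.H2.SchurMeta

namespace Cfsg.Agent.H2.MetacyclicSchur

theorem exists_model (m n d m' r' s' l e : ℕ) (x y : ℤ) (hm0 : 0 < m) (hn0 : 0 < n) (he0 : 0 < e)
    (hm : m = d * m') (hxy : x * r' + y * m' = 1) (he1 : e ∣ d) (he2 : e ∣ s') (he3 : e ∣ l)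
    (hs : ∑ i ∈ Finset.range n, (1 + d * r') ^ i = m' * s')
    (hrn : (m : ℤ) ∣ (1 + d * r' : ℤ) ^ n - 1) :
    ∃ (Γ : Type) (_ : Group Γ) (_ : Finite Γ) (A B κ : Γ), (∀ g : Γ, g * κ = κ * g) ∧
      orderOf κ = e ∧ A ^ m = κ ^ x ∧ B * A * B⁻¹ = A ^ (1 + d * r') * κ ^ y ∧
      B ^ n = A ^ (m' * l) ∧ Subgroup.closure {A, B, κ} = ⊤ ∧
      (∀ k : ℕ, A ^ k ∈ Subgroup.zpowers κ → m ∣ k) ∧
      (∀ (H : Type) [Group H] (a b : H), a ^ m = 1 → b * a * b⁻¹ = a ^ (1 + d * r') →
        b ^ n = a ^ (m' * l) → ∃ F : Γ →* H, F A = a ∧ F B = b ∧ F κ = 1) := by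
  have : NeZero e := ⟨he0.ne'⟩
  -- the abelian normal subgroup
  let Z : AddSubgroup (ℤ × ZMod e) := AddSubgroup.zmultiples ((m : ℤ), -(x : ZMod e))
  have hZ : ∀ v : ℤ × ZMod e, v ∈ Z ↔ ∃ k : ℤ, k * m = v.1 ∧ -((k : ZMod e) * x) = v.2 := by
    intro v
    constructor
    · rintro ⟨k, rfl⟩
      refine ⟨k, ?_, ?_⟩
      · simp
      · simp
    · rintro ⟨k, h1, h2⟩
      refine ⟨k, Prod.ext ?_ ?_⟩
      · simpa using h1
      · simpa using h2
  let mk : ℤ × ZMod e →+ (ℤ × ZMod e) ⧸ Z := QuotientAddGroup.mk' Z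
  have hmk : ∀ v w, mk v = mk w ↔ ∃ k : ℤ, k * m = -v.1 + w.1 ∧ -((k : ZMod e) * x) = -v.2 + w.2 := by
    intro v w
    have h1 : mk v = mk w ↔ -v + w ∈ Z := QuotientAddGroup.eq
    rw [h1, hZ]
    rfl
  have hmks : Function.Surjective mk := QuotientAddGroup.mk'_surjective Z
  have hfinQ : Finite ((ℤ × ZMod e) ⧸ Z) := by
    have : NeZero m := ⟨hm0.ne'⟩
    let f : Fin m × ZMod e → (ℤ × ZMod e) ⧸ Z := fun v => mk ((v.1 : ℕ), v.2)
    refine Finite.of_surjective f ?_
    intro q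
    obtain ⟨v, rfl⟩ := hmks q
    have h1 : 0 ≤ v.1 % m := Int.emod_nonneg _ (by omega)
    have h2 : v.1 % m < m := Int.emod_lt_of_pos _ (by omega)
    refine ⟨(⟨(v.1 % m).toNat, by omega⟩, v.2 + ((v.1 / m : ℤ) : ZMod e) * x), ?_⟩
    rw [hmk]
    refine ⟨v.1 / m, ?_, ?_⟩
    · have h3 := Int.ediv_mul_add_emod v.1 m
      simp only
      rw [Int.toNat_of_nonneg h1]
      linarith
    · simp only
      ring
  let r : ℤ := 1 + d * r'
  -- the endomorphism
  let β₀ : ℤ × ZMod e →+ ℤ × ZMod e := AddMonoidHom.mk'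
    (fun v => (r * v.1, (y : ZMod e) * (v.1 : ZMod e) + v.2)) (by
      intro v w
      refine Prod.ext ?_ ?_
      · simp [mul_add]
      · simp only [Prod.fst_add, Prod.snd_add, Int.cast_add]
        ring)
  have hβ₀ : ∀ v, β₀ v = (r * v.1, (y : ZMod e) * (v.1 : ZMod e) + v.2) := fun v => rfl
  have hxyZ : (x : ZMod e) * r' + y * m' = 1 := by
    have := congrArg (Int.cast : ℤ → ZMod e) hxy
    push_cast at this
    exact this
  have hdZ : (d : ZMod e) = 0 := (ZMod.natCast_eq_zero_iff _ _).mpr he1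
  have hsZ : (s' : ZMod e) = 0 := (ZMod.natCast_eq_zero_iff _ _).mpr he2
  have hlZ : (l : ZMod e) = 0 := (ZMod.natCast_eq_zero_iff _ _).mpr he3
  have hβZ : Z ≤ Z.comap β₀ := by
    intro v hv
    rw [hZ] at hv
    obtain ⟨k, h1, h2⟩ := hv
    rw [AddSubgroup.mem_comap, hZ, hβ₀]
    refine ⟨r * k, ?_, ?_⟩
    · simp only; rw [← h1]; ring
    · simp only
      rw [← h2, ← h1]
      simp only [r]
      push_cast
      have h3 : (m : ZMod e) = d * m' := by rw [hm]; push_cast; rfl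
      rw [h3, hdZ]
      ring
  let β : (ℤ × ZMod e) ⧸ Z →+ (ℤ × ZMod e) ⧸ Z := QuotientAddGroup.map Z Z β₀ hβZ
  have hβ : ∀ v, β (mk v) = mk (β₀ v) := fun v => rfl
  have hiter : ∀ (k : ℕ) (v : ℤ × ZMod e), β^[k] (mk v) =
      mk (r ^ k * v.1, (y : ZMod e) * ((∑ i ∈ Finset.range k, r ^ i : ℤ) : ZMod e) * v.1 + v.2) := by
    intro k
    induction k with
    | zero => intro v; simp
    | succ k ih =>
      intro v
      rw [Function.iterate_succ_apply', ih, hβ, hβ₀]
      congr 1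
      refine Prod.ext ?_ ?_
      · simp only; ring
      · simp only [Finset.sum_range_succ]
        push_cast
        ring
  have hn' : ∀ q : (ℤ × ZMod e) ⧸ Z, β^[n] q = q := by
    intro q
    obtain ⟨v, rfl⟩ := hmks q
    rw [hiter, hmk]
    obtain ⟨c, hc⟩ := hrn
    -- r^n - 1 = m c = (d r') s = d r' m' s'
    have hsum : (∑ i ∈ Finset.range n, r ^ i : ℤ) = m' * s' := by
      have := congrArg (Nat.cast : ℕ → ℤ) hs
      push_cast at this
      exact this
    have hgeom : (r ^ n - 1 : ℤ) = (m' * s') * (d * r') := by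
      have h5 := geom_sum_mul r n
      rw [hsum] at h5
      rw [← h5]; simp only [r]; ring
    refine ⟨-(r' * s' * v.1), ?_, ?_⟩
    · simp only
      have h6 : (m : ℤ) = d * m' := by rw [hm]; push_cast; rfl
      rw [h6]
      linear_combination v.1 * hgeom
    · simp only
      rw [hsum]
      push_cast
      rw [hsZ]
      ring
  obtain ⟨Γ, iΓ, ι, B, hinj, hconj, hBn, hnorm, hgen, hdiv, huniv⟩ :=
    Cfsg.Agent.Lib.CyclicExt.exists_cyclic_ext.{0, 0} (N := Multiplicative ((ℤ × ZMod e) ⧸ Z))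
    (AddMonoidHom.toMultiplicative β) n hn0 (Multiplicative.ofAdd (mk ((m' * l : ℕ), 0)))
    (by
      change Multiplicative.ofAdd (β (mk _)) = Multiplicative.ofAdd (mk _)
      congr 1
      rw [hβ, hβ₀, hmk]
      refine ⟨-(r' * l), ?_, ?_⟩
      · simp only [r]
        have h6 : (m : ℤ) = d * m' := by rw [hm]; push_cast; rfl
        rw [h6]; push_cast; ring
      · simp only; push_cast; rw [hlZ]; ring)
    (by
      intro q
      rw [mul_inv_cancel_comm]
      change Multiplicative.ofAdd (β^[n] q.toAdd) = q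
      rw [hn']; rfl)
  let A : Γ := ι (Multiplicative.ofAdd (mk (1, 0)))
  let κ : Γ := ι (Multiplicative.ofAdd (mk (0, 1)))
  have hAk : ∀ k : ℤ, A ^ k = ι (Multiplicative.ofAdd (mk (k, 0))) := by
    intro k
    simp only [A]
    rw [← map_zpow, ← ofAdd_zsmul, ← map_zsmul]
    congr 3
    simp
  have hκk : ∀ k : ℤ, κ ^ k = ι (Multiplicative.ofAdd (mk (0, k))) := by
    intro k
    simp only [κ]
    rw [← map_zpow, ← ofAdd_zsmul, ← map_zsmul]
    congr 3
    simp
  have hιv : ∀ v : ℤ × ZMod e, ∃ i j : ℤ, ι (Multiplicative.ofAdd (mk v)) = A ^ i * κ ^ j := by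
    rintro ⟨i, j⟩
    obtain ⟨j, rfl⟩ := ZMod.intCast_surjective j
    refine ⟨i, j, ?_⟩
    rw [hAk, hκk, ← map_mul, ← ofAdd_add, ← map_add]
    simp
  have hιeq : ∀ v w : ℤ × ZMod e, ι (Multiplicative.ofAdd (mk v)) = ι (Multiplicative.ofAdd (mk w))
      ↔ mk v = mk w := by
    intro v w
    rw [hinj.eq_iff]; rfl
  have hcen : ∀ g : Γ, g * κ = κ * g := by
    intro g
    obtain ⟨q, i, -, rfl⟩ := hgen g
    have c1 : Commute (ι q) κ := by
      change ι q * ι _ = ι _ * ι q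
      rw [← map_mul, ← map_mul, mul_comm]
    have c2 : Commute B κ := by
      have h1 := hconj (Multiplicative.ofAdd (mk (0, 1)))
      have h2 : (AddMonoidHom.toMultiplicative β) (Multiplicative.ofAdd (mk (0, 1))) =
          Multiplicative.ofAdd (mk (0, 1)) := by
        change Multiplicative.ofAdd (β (mk _)) = Multiplicative.ofAdd (mk _)
        rw [hβ, hβ₀]; simp
      rw [h2, mul_inv_eq_iff_eq_mul] at h1
      exact h1
    exact (c1.mul_left (c2.pow_left i)).eq
  have hAm : A ^ (m : ℤ) = κ ^ x := by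
    rw [hAk, hκk, hιeq, hmk]
    exact ⟨-1, by simp, by simp⟩
  have hBAB : B * A * B⁻¹ = A ^ (1 + d * r') * κ ^ y := by
    have h1 := hconj (Multiplicative.ofAdd (mk (1, 0)))
    have h2 : (AddMonoidHom.toMultiplicative β) (Multiplicative.ofAdd (mk (1, 0))) =
        Multiplicative.ofAdd (mk (r, (y : ZMod e))) := by
      change Multiplicative.ofAdd (β (mk _)) = Multiplicative.ofAdd (mk _)
      rw [hβ, hβ₀]; simp
    change B * ι _ * B⁻¹ = _
    rw [h1, h2]
    have h3 : A ^ (1 + d * r') = A ^ r := by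
      rw [← zpow_natCast]; simp only [r]; push_cast; rfl
    rw [h3, hAk, hκk, ← map_mul, ← ofAdd_add, ← map_add]
    simp
  have hB' : B ^ n = A ^ (m' * l) := by
    rw [hBn, ← zpow_natCast A, hAk]
  refine ⟨Γ, iΓ, ?_, A, B, κ, hcen, ?_, ?_, hBAB, hB', ?_, ?_, ?_⟩
  · have : Finite (Multiplicative ((ℤ × ZMod e) ⧸ Z)) := hfinQ
    refine Finite.of_surjective
      (fun z : Multiplicative ((ℤ × ZMod e) ⧸ Z) × Fin n => ι z.1 * B ^ (z.2 : ℕ)) ?_
    intro g
    obtain ⟨q, i, hi, rfl⟩ := hgen g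
    exact ⟨(q, ⟨i, hi⟩), rfl⟩
  · have h1 : ∀ k : ℕ, κ ^ k = 1 ↔ e ∣ k := by
      intro k
      have h2 : (1 : Γ) = κ ^ (0 : ℤ) := (zpow_zero κ).symm
      rw [← zpow_natCast, h2, hκk, hκk, hιeq, hmk]
      constructor
      · rintro ⟨j, h3, h4⟩
        simp only [neg_zero, zero_add, mul_eq_zero] at h3
        have h5 : j = 0 := by
          rcases h3 with h | h
          · exact h
          · omega
        rw [h5] at h4
        simp at h4
        exact (ZMod.natCast_eq_zero_iff _ _).mp h4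
      · intro h3
        refine ⟨0, by simp, ?_⟩
        have h4 := (ZMod.natCast_eq_zero_iff _ _).mpr h3
        simp [h4]
    apply Nat.dvd_antisymm
    · exact orderOf_dvd_of_pow_eq_one ((h1 e).mpr dvd_rfl)
    · exact (h1 _).mp (pow_orderOf_eq_one κ)
  · rw [← hAm, zpow_natCast]
  · rw [eq_top_iff]
    intro g _
    have hA : A ∈ Subgroup.closure {A, B, κ} := Subgroup.subset_closure (by simp)
    have hB : B ∈ Subgroup.closure {A, B, κ} := Subgroup.subset_closure (by simp)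
    have hκ : κ ∈ Subgroup.closure {A, B, κ} := Subgroup.subset_closure (by simp)
    obtain ⟨q, i, hi, rfl⟩ := hgen g
    obtain ⟨v, hv⟩ := hmks q.toAdd
    obtain ⟨i', j', h1⟩ := hιv v
    have h2 : ι q = A ^ i' * κ ^ j' := by
      rw [← h1]; congr 1; exact (congrArg Multiplicative.ofAdd hv).symm
    rw [h2]
    exact mul_mem (mul_mem (zpow_mem hA _) (zpow_mem hκ _)) (pow_mem hB _)
  · rintro k ⟨j, hj⟩
    have hj' : κ ^ j = A ^ (k : ℤ) := by rw [zpow_natCast]; exact hj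
    rw [hκk, hAk, hιeq, hmk] at hj'
    obtain ⟨c, h1, -⟩ := hj'
    simp only [neg_zero, zero_add] at h1
    exact Int.natCast_dvd_natCast.mp ⟨c, by rw [← h1]; ring⟩
  · intro H _ a b ha hb hbn
    let g₀ : ℤ × ZMod e →+ Additive H :=
      (zmultiplesHom (Additive H) (Additive.ofMul a)).comp (AddMonoidHom.fst ℤ (ZMod e))
    have hg₀ : ∀ v, (g₀ v).toMul = a ^ v.1 := by
      intro v
      simp only [g₀, AddMonoidHom.comp_apply, zmultiplesHom_apply]
      rfl
    have hg₀Z : Z ≤ g₀.ker := by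
      intro v hv
      rw [hZ] at hv
      obtain ⟨k, h1, -⟩ := hv
      rw [AddMonoidHom.mem_ker]
      have h2 := hg₀ v
      rw [← h1, mul_comm, zpow_mul, zpow_natCast, ha, one_zpow] at h2
      exact h2
    let g : Multiplicative ((ℤ × ZMod e) ⧸ Z) →* H :=
      { toFun := fun q => ((QuotientAddGroup.lift Z g₀ hg₀Z) q.toAdd).toMul
        map_one' := by
          change ((QuotientAddGroup.lift Z g₀ hg₀Z) 0).toMul = 1
          rw [map_zero]; rfl
        map_mul' := by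
          intro p q
          change ((QuotientAddGroup.lift Z g₀ hg₀Z) (p.toAdd + q.toAdd)).toMul = _
          rw [map_add]; rfl }
    have hg : ∀ v, g (Multiplicative.ofAdd (mk v)) = a ^ v.1 := fun v => hg₀ v
    obtain ⟨F, hF1, hF2⟩ := huniv H g b (by
      intro q
      obtain ⟨v, hv⟩ := hmks q.toAdd
      have hq : q = Multiplicative.ofAdd (mk v) := (congrArg Multiplicative.ofAdd hv).symm
      rw [hq]
      have h2 : (AddMonoidHom.toMultiplicative β) (Multiplicative.ofAdd (mk v)) =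
        Multiplicative.ofAdd (mk (β₀ v)) := rfl
      rw [h2, hg, hg, hβ₀, ← conj_zpow, hb]
      simp only
      rw [← zpow_natCast, ← zpow_mul]
      simp only [r]
      push_cast
      rfl) (by
      rw [hg, hbn, zpow_natCast])
    refine ⟨F, ?_, hF2, ?_⟩
    · rw [hF1, hg]; simp
    · rw [hF1, hg]; simp

end Cfsg.Agent.H2.MetacyclicSchur
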