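import Mathlib
import Cfsg.Agent.Lib.PGrpE
import Cfsg.Agent.H2.PUtil
import Cfsg.Agent.H2.Soft
import Cfsg.Agent.Lib.ThompsonJ
import Cfsg.Prelude.Def_CaseTheorems

/-! Normal elementary abelian subgroups of `p`-groups of rank at least three -/

set_option autoImplicit false
set_option linter.unusedSectionVars false

namespace Cfsg.Agent.H2.RankThree

open Subgroup Cfsg.Agent.Lib Cfsg.Agent.H2
open scoped commutatorElement

variable {R : Type*} [Group R] [Finite R] {p : ℕ} [Fact p.Prime]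

theorem ea_sup {A B : Subgroup R} (hA1 : ∀ x ∈ A, ∀ y ∈ A, x * y = y * x) (hA2 : ∀ x ∈ A, x ^ p = 1)
    (hB1 : ∀ x ∈ B, ∀ y ∈ B, x * y = y * x) (hB2 : ∀ x ∈ B, x ^ p = 1) (hAB : ∀ x ∈ A, ∀ y ∈ B, x * y = y * x) :
    (∀ x ∈ A ⊔ B, ∀ y ∈ A ⊔ B, x * y = y * x) ∧ ∀ x ∈ A ⊔ B, x ^ p = 1 := by
  have hrep : ∀ y ∈ A ⊔ B, ∃ a ∈ A, ∃ b ∈ B, y = a * b := by
    intro y hy
    have h2 : A ≤ normalizer (B : Set R) := by
      intro a ha
      have : a ∈ centralizer (B : Set R) := by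
        rw [mem_centralizer_iff]
        intro b hb
        exact (hAB a ha b hb).symm
      exact centralizer_le_normalizer _ this
    rw [← SetLike.mem_coe, Subgroup.coe_mul_of_left_le_normalizer_right A _ h2] at hy
    obtain ⟨a, ha, b, hb, rfl⟩ := hy
    exact ⟨a, ha, b, hb, rfl⟩
  constructor
  · intro y hy z hz
    obtain ⟨a, ha, b, hb, rfl⟩ := hrep y hy
    obtain ⟨a', ha', b', hb', rfl⟩ := hrep z hz
    have c1 := hAB a' ha' b hb
    have c2 := hAB a ha b' hb'
    have c3 := hA1 a ha a' ha'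
    have c4 := hB1 b hb b' hb'
    calc a * b * (a' * b') = a * (b * a') * b' := by group
      _ = a * (a' * b) * b' := by rw [c1]
      _ = (a * a') * (b * b') := by group
      _ = (a' * a) * (b' * b) := by rw [c3, c4]
      _ = a' * (a * b') * b := by group
      _ = a' * (b' * a) * b := by rw [c2]
      _ = _ := by group
  · intro y hy
    obtain ⟨a, ha, b, hb, rfl⟩ := hrep y hy
    rw [(show Commute a b from hAB a ha b hb).mul_pow, hA2 a ha, hB2 b hb, one_mul]

/-- a normal elementary abelian overgroup of order at least `p³` -/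
theorem normal_ext (hp : p ≠ 2) (hR : IsPGroup p R) (hr : ¬ Cfsg.PRankLE p 2 R) (E : Subgroup R) [hEn : E.Normal]
    (hE : Cfsg.IsElementaryAbelian p E) (hE2 : Nat.card E = p ^ 2) :
    ∃ F : Subgroup R, F.Normal ∧ E ≤ F ∧ Cfsg.IsElementaryAbelian p F ∧ p ^ 3 ≤ Nat.card F := by
  have hpp : p.Prime := Fact.out
  obtain ⟨hE1, hEe⟩ := ThompsonJ.ea_iff.1 hE
  have hex : ∃ A : Subgroup R, A.Normal ∧ IsMulCommutative A ∧ (∀ a ∈ A, a ^ p = 1) ∧ Nat.card A = p ^ 3 := by
    by_contra hcon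
    push Not at hcon
    exact hr (fun E' hE' hEe' => PGrpE.card_le_sq_of_no_rank_three hp hR hcon E' hE' hEe')
  obtain ⟨B, hBn, hBc, hBe, hB3⟩ := hex
  have hB1 := PUtil.isMulCommutative_iff.1 hBc
  let D : Subgroup R := B ⊓ centralizer (E : Set R)
  have hDn : D.Normal := inferInstance
  have hidx : (centralizer (E : Set R)).index ≤ p := by
    have := PGrpB.index_centralizer_le hR 2 E hEn hE2
    simpa using this
  have hDc : p ^ 2 ≤ Nat.card D := by
    have h1 := Soft.card_mul_rel (inf_le_left : D ≤ B)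
    rw [hB3, show D.relIndex B = (centralizer (E : Set R)).relIndex B from inf_relIndex_left _ _] at h1
    have h4 : (centralizer (E : Set R)).relIndex B ≤ p := by
      have : (centralizer (E : Set R)).Normal := inferInstance
      exact (Nat.le_of_dvd (Nat.pos_of_ne_zero index_ne_zero_of_finite) (relIndex_dvd_index_of_normal _ _)).trans hidx
    by_contra hlt
    push Not at hlt
    have h5 : (centralizer (E : Set R)).relIndex B * Nat.card D < p * p ^ 2 :=
      lt_of_le_of_lt (Nat.mul_le_mul_right _ h4) (Nat.mul_lt_mul_of_pos_left hlt hpp.pos)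
    rw [h1] at h5
    have : p ^ 3 = p * p ^ 2 := by ring
    omega
  have hF := ea_sup (p := p) (A := E) (B := D) hE1 hEe (fun x hx y hy => hB1 x hx.1 y hy.1) (fun x hx => hBe x hx.1)
    (fun x hx y hy => mem_centralizer_iff.1 hy.2 x hx)
  refine ⟨E ⊔ D, inferInstance, le_sup_left, ThompsonJ.ea_iff.2 hF, ?_⟩
  have hDE : ¬ D ≤ E := by
    intro hle
    have h1 : D = E := Subgroup.eq_of_le_of_card_ge hle (by rw [hE2]; exact hDc)
    have h2 : E ≤ B := by rw [← h1]; exact inf_le_left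
    have h3 : B ≤ D := le_inf le_rfl (fun b hb => by
      rw [mem_centralizer_iff]
      intro e he
      exact hB1 e (h2 he) b hb)
    have h4 := Subgroup.card_le_of_le (h3.trans hle)
    rw [hB3, hE2] at h4
    exact absurd h4 (not_le.2 (Nat.pow_lt_pow_right hpp.one_lt (by norm_num)))
  have hlt : E < E ⊔ D := lt_of_le_of_ne le_sup_left (fun e => hDE (by rw [e]; exact le_sup_right))
  have h1 := Soft.lt_card hlt
  obtain ⟨n, hn⟩ := IsPGroup.iff_card.1 (hR.to_subgroup (E ⊔ D))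
  rw [hE2, hn] at h1
  rw [hn]
  exact Nat.pow_le_pow_right hpp.pos ((Nat.pow_lt_pow_iff_right hpp.one_lt).1 h1)

theorem scn (hp : p ≠ 2) (hR : IsPGroup p R) (hr : ¬ Cfsg.PRankLE p 2 R) (E : Subgroup R) [hEn : E.Normal]
    (hE : Cfsg.IsElementaryAbelian p E) (hE2 : Nat.card E = p ^ 2) :
    ∃ A : Subgroup R, E ≤ A ∧ A.Normal ∧ Subgroup.centralizer (A : Set R) = A ∧ ¬ Cfsg.PRankLE p 2 A := by
  have hpp : p.Prime := Fact.out
  obtain ⟨F, hFn, hEF, hF, hFc⟩ := normal_ext hp hR hr E hE hE2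
  obtain ⟨hF1, hFe⟩ := ThompsonJ.ea_iff.1 hF
  obtain ⟨A, hA⟩ := (Set.toFinite {A : Subgroup R | A.Normal ∧ IsMulCommutative A ∧ F ≤ A}).exists_maximal
    ⟨F, hFn, PUtil.isMulCommutative_iff.2 hF1, le_rfl⟩
  obtain ⟨hAn, hAc, hFA⟩ := hA.prop
  haveI : Group.IsNilpotent R := hR.isNilpotent
  refine ⟨A, hEF.trans hFA, hAn, Nilp.centralizer_eq_of_maximal_abelian_normal A hAc (fun M h1 h2 h3 =>
    le_antisymm (hA.le_of_ge ⟨h1, h2, hFA.trans h3⟩ h3) h3), ?_⟩
  intro hrk
  have h1 := hrk (F.subgroupOf A) (PUtil.isMulCommutative_iff.2 fun x hx y hy => Subtype.ext (hF1 x hx y hy))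
    (fun a ha => Subtype.ext (hFe a ha))
  rw [Nat.card_congr (Subgroup.subgroupOfEquivOfLe hFA).toEquiv] at h1
  exact absurd (hFc.trans h1) (not_le.2 (Nat.pow_lt_pow_right hpp.one_lt (by norm_num)))

theorem mem_of_cent {E : Subgroup R} (hE : Cfsg.IsElementaryAbelian p E)
    (hEmax : ∀ B : Subgroup R, Cfsg.IsElementaryAbelian p B → E ≤ B → B = E) {x : R} (hx : ∀ e ∈ E, e * x = x * e) (hxp : x ^ p = 1) :
    x ∈ E := by
  obtain ⟨hE1, hEe⟩ := ThompsonJ.ea_iff.1 hE
  have h := ea_sup (p := p) (A := E) (B := zpowers x) hE1 hEe (by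
      rintro _ ⟨i, rfl⟩ _ ⟨j, rfl⟩
      show x ^ i * x ^ j = x ^ j * x ^ i
      rw [← zpow_add, ← zpow_add, add_comm]) (by
      rintro _ ⟨i, rfl⟩
      show (x ^ i) ^ p = 1
      rw [← zpow_natCast, ← zpow_mul, mul_comm, zpow_mul, zpow_natCast, hxp, one_zpow]) (by
      rintro e he _ ⟨i, rfl⟩
      exact ((show Commute e x from hx e he).zpow_right i).eq)
  rw [← hEmax _ (ThompsonJ.ea_iff.2 h) le_sup_left]
  exact le_sup_right (a := E) (mem_zpowers x)

end Cfsg.Agent.H2.RankThree
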