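import Cfsg.Agent.H2.TwoDimB
import Cfsg.Agent.H2.RankThree
import Cfsg.Agent.S1453
import Cfsg.Prelude
import Mathlib

/-! Groups acting on `p`-groups of rank at least three having a maximal elementary abelian subgroup
of order `p²`. -/

set_option autoImplicit false

namespace Cfsg.Agent.H2.NarrowAct

open Subgroup Cfsg.Agent.Lib Cfsg.Agent.H2
open scoped commutatorElement

variable {R : Type*} [Group R] [Finite R] {p : ℕ} [Fact p.Prime]

/-- the property passed along the series -/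
def Good {A : Type*} [Group A] (p : ℕ) (φ : A →* MulAut R) (N : Subgroup R) : Prop :=
  (∀ x ∈ commutator A, ∃ k : ℕ, ∀ n ∈ N, ((φ x) ^ p ^ k) n = n) ∧
  (∀ x : A, ∃ k : ℕ, ∀ n ∈ N, ((φ x) ^ ((p - 1) * p ^ k)) n = n)

theorem good_bot {A : Type*} [Group A] (φ : A →* MulAut R) : Good p φ ⊥ := by
  constructor
  · intro x _
    refine ⟨0, fun n hn => ?_⟩
    rw [mem_bot] at hn
    rw [hn, map_one]
  · intro x
    refine ⟨0, fun n hn => ?_⟩
    rw [mem_bot] at hn
    rw [hn, map_one]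

theorem fix_pow {g : MulAut R} {N : Subgroup R} (hg : ∀ n ∈ N, g n = n) (j : ℕ) : ∀ n ∈ N, (g ^ j) n = n := by
  intro n hn
  have : g ∈ MulAction.stabilizer (MulAut R) n := hg n hn
  exact pow_mem this j

theorem step_one {g : MulAut R} {N M : Subgroup R} (hM : ∀ m ∈ M, m ^ p = 1) (hNM : N ≤ M)
    (h1 : ∀ n ∈ N, g n = n) (h2 : ∀ m ∈ M, m⁻¹ * g m ∈ N) : ∀ m ∈ M, (g ^ p) m = m := by
  intro m hm
  have h3 := Lib.PGrpB.aut_pow_apply (a := g) (x := m) (h := m⁻¹ * g m) (by group) (h1 _ (h2 m hm)) p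
  rw [h3, hM _ (hNM (h2 m hm)), mul_one]

theorem good_step {A : Type*} [Group A] {φ : A →* MulAut R} {N M : Subgroup R} [hNn : N.Normal] (hNM : N ≤ M)
    (hM : ∀ m ∈ M, m ^ p = 1) (hMi : ∀ x, ∀ m ∈ M, φ x m ∈ M) (hNi : ∀ x, ∀ m ∈ N, φ x m ∈ N)
    (hc : N.relIndex M ≤ p) (h : Good p φ N) : Good p φ M := by
  have hpp : p.Prime := Fact.out
  haveI hNn' : (N.subgroupOf M).Normal := inferInstance
  have hNi' : ∀ x, ∀ e ∈ N.subgroupOf M, MaschkeAb.restr φ M hMi x e ∈ N.subgroupOf M := fun x e he => hNi x e he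
  let ψ := MaschkeAb.quot (MaschkeAb.restr φ M hMi) (N.subgroupOf M) hNi'
  have hMp : IsPGroup p (M ⧸ N.subgroupOf M) := by
    intro x
    obtain ⟨x, rfl⟩ := QuotientGroup.mk_surjective x
    refine ⟨1, ?_⟩
    rw [pow_one, ← QuotientGroup.mk_pow]
    have : x ^ p = 1 := Subtype.ext (hM x x.2)
    rw [this]; rfl
  have hcard : Nat.card (M ⧸ N.subgroupOf M) ≤ p := by
    rw [← Subgroup.index_eq_card]; exact hc
  haveI hcyc : IsCyclic (M ⧸ N.subgroupOf M) := TwoDim.cyc_of_card hMp hcard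
  have hψ : ∀ (x : A) (m : R) (hm : m ∈ M), ψ x = 1 → m⁻¹ * φ x m ∈ N := by
    intro x m hm hx
    have h3 : ((⟨φ x m, hMi x m hm⟩ : M) : M ⧸ N.subgroupOf M) = ((⟨m, hm⟩ : M) : M ⧸ N.subgroupOf M) := by
      have := congrArg (fun f : MulAut (M ⧸ N.subgroupOf M) => f ((⟨m, hm⟩ : M) : M ⧸ N.subgroupOf M)) hx
      exact this
    have h4 := QuotientGroup.eq.1 h3.symm
    exact h4
  have hp1 : ∀ f : MulAut (M ⧸ N.subgroupOf M), f ^ (p - 1) = 1 := by
    intro f
    obtain ⟨k, hk⟩ := IsPGroup.iff_card.1 hMp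
    have h3 : Nat.card (MulAut (M ⧸ N.subgroupOf M)) ∣ p - 1 := by
      rw [IsCyclic.card_mulAut, hk]
      rcases Nat.eq_zero_or_pos k with h0 | h0
      · rw [h0, pow_zero, Nat.totient_one]; exact one_dvd _
      · have hk1 : k = 1 := by
          by_contra hne
          have h4 : p ^ 2 ≤ p ^ k := Nat.pow_le_pow_right hpp.pos (by omega)
          rw [hk] at hcard
          have := hpp.two_le
          nlinarith
        rw [hk1, pow_one, Nat.totient_prime hpp]
    obtain ⟨c, hc'⟩ := h3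
    rw [hc', pow_mul, pow_card_eq_one', one_pow]
  constructor
  · intro x hx
    obtain ⟨k, hk⟩ := h.1 x hx
    refine ⟨k + 1, fun m hm => ?_⟩
    rw [pow_succ, pow_mul]
    refine step_one hM hNM hk (fun m hm => ?_) m hm
    rw [← map_pow]
    apply hψ _ _ hm
    have h3 := TwoDim.ker_of_comm ψ (fun _ _ => TwoDim.mulAut_comm _ _) hx
    rw [MonoidHom.mem_ker] at h3
    rw [map_pow, h3, one_pow]
  · intro x
    obtain ⟨k, hk⟩ := h.2 x
    refine ⟨k + 1, fun m hm => ?_⟩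
    rw [pow_succ, ← mul_assoc, pow_mul]
    refine step_one hM hNM hk (fun m hm => ?_) m hm
    rw [← map_pow]
    apply hψ _ _ hm
    rw [map_pow, pow_mul, hp1, one_pow]

theorem comm_eq_iff {G : Type*} [Group G] {a b x : G} : ⁅a, x⁆ = ⁅b, x⁆ ↔ a⁻¹ * b ∈ centralizer {x} := by
  rw [mem_centralizer_singleton_iff, _root_.commutatorElement_def, _root_.commutatorElement_def, mul_left_inj]
  constructor
  · intro h
    calc a⁻¹ * b * x = a⁻¹ * (b * x * b⁻¹) * b := by group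
      _ = a⁻¹ * (a * x * a⁻¹) * b := by rw [h]
      _ = _ := by group
  · intro h
    calc a * x * a⁻¹ = a * (x * (a⁻¹ * b)) * b⁻¹ := by group
      _ = a * ((a⁻¹ * b) * x) * b⁻¹ := by rw [h]
      _ = _ := by group

/-- counting -/
theorem count {N M : Subgroup R} {x : R} (hNM : N ≤ M) (hx : ∀ m ∈ M, ⁅m, x⁆ ∈ N) :
    N.relIndex M ≤ Nat.card (M ⊓ centralizer {x} : Subgroup R) := by
  classical
  set C : Subgroup M := (centralizer {x} : Subgroup R).subgroupOf M with hC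
  have hCc : Nat.card C = Nat.card (M ⊓ centralizer {x} : Subgroup R) := by
    rw [hC, ← inf_subgroupOf_left]
    exact Nat.card_congr (subgroupOfEquivOfLe inf_le_left).toEquiv
  have h1 : C.index ≤ Nat.card N := by
    rw [Subgroup.index_eq_card]
    let f : M ⧸ C → N := Quotient.lift (s := QuotientGroup.leftRel C) (fun m : M => (⟨⁅(m : R), x⁆, hx m m.2⟩ : N)) (by
      intro a b hab
      have h2 : a⁻¹ * b ∈ C := QuotientGroup.leftRel_apply.1 hab
      apply Subtype.ext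
      exact comm_eq_iff.2 (mem_subgroupOf.1 h2))
    have hf : Function.Injective f := by
      intro q r hqr
      obtain ⟨a, rfl⟩ := QuotientGroup.mk_surjective q
      obtain ⟨b, rfl⟩ := QuotientGroup.mk_surjective r
      have h2 : ⁅(a : R), x⁆ = ⁅(b : R), x⁆ := congrArg Subtype.val hqr
      exact QuotientGroup.eq.2 (mem_subgroupOf.2 (comm_eq_iff.1 h2))
    exact Nat.card_le_card_of_injective f hf
  have h2 := C.card_mul_index
  have h3 : Nat.card N * N.relIndex M = Nat.card M := by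
    have := Subgroup.relIndex_mul_relIndex (⊥ : Subgroup R) N M bot_le hNM
    rwa [relIndex_bot_left, relIndex_bot_left] at this
  rw [← hCc]
  have h4 : Nat.card N * N.relIndex M ≤ Nat.card N * Nat.card C := by
    rw [h3, ← h2, mul_comm (Nat.card N)]
    exact Nat.mul_le_mul_left _ h1
  exact Nat.le_of_mul_le_mul_left h4 Nat.card_pos

/-- the next term of the series -/
theorem next [hnil : Group.IsNilpotent R] {N Q : Subgroup R} [hN : N.Normal] [hQ : Q.Normal] (hNQ : N < Q) {A : Type*} [Group A] (φ : A →* MulAut R)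
    (hNi : ∀ x, ∀ m ∈ N, φ x m ∈ N) (hQi : ∀ x, ∀ m ∈ Q, φ x m ∈ Q) :
    ∃ M : Subgroup R, M.Normal ∧ N < M ∧ M ≤ Q ∧ (∀ x, ∀ m ∈ M, φ x m ∈ M) ∧ ∀ m ∈ M, ∀ r : R, ⁅m, r⁆ ∈ N := by
  let M : Subgroup R := Q ⊓ (center (R ⧸ N)).comap (QuotientGroup.mk' N)
  have hMmem : ∀ m, m ∈ M ↔ m ∈ Q ∧ ∀ r : R, ⁅m, r⁆ ∈ N := by
    intro m
    show m ∈ Q ∧ (m : R ⧸ N) ∈ center (R ⧸ N) ↔ _
    refine and_congr Iff.rfl ?_
    rw [mem_center_iff]
    constructor
    · intro h r
      have h1 := h (r : R ⧸ N)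
      rw [← QuotientGroup.eq_one_iff]
      show ⁅(m : R ⧸ N), (r : R ⧸ N)⁆ = 1
      rw [_root_.commutatorElement_eq_one_iff_mul_comm]
      exact h1.symm
    · intro h g
      obtain ⟨r, rfl⟩ := QuotientGroup.mk_surjective g
      have h1 := (QuotientGroup.eq_one_iff _).2 (h r)
      have h2 : ⁅(m : R ⧸ N), (r : R ⧸ N)⁆ = 1 := h1
      rw [_root_.commutatorElement_eq_one_iff_mul_comm] at h2
      exact h2.symm
  refine ⟨M, inferInstance, ?_, inf_le_left, ?_, fun m hm r => ((hMmem m).1 hm).2 r⟩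
  · refine lt_of_le_of_ne (fun n hn => (hMmem n).2 ⟨hNQ.le hn, fun r => ?_⟩) ?_
    · have : ⁅n, r⁆ = n * (r * n⁻¹ * r⁻¹) := by rw [_root_.commutatorElement_def]; group
      rw [this]
      exact mul_mem hn (hN.conj_mem _ (inv_mem hn) r)
    · intro he
      haveI hQm : (Q.map (QuotientGroup.mk' N)).Normal := Normal.map hQ _ (QuotientGroup.mk'_surjective N)
      have hne : Q.map (QuotientGroup.mk' N) ≠ ⊥ := by
        intro h
        rw [Subgroup.map_eq_bot_iff, QuotientGroup.ker_mk'] at h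
        exact hNQ.not_ge h
      have hnil' : Group.IsNilpotent (R ⧸ N) := inferInstance
      have h1 := Nilp.normal_inf_center_ne_bot (Q.map (QuotientGroup.mk' N)) hne
      obtain ⟨y, hy1⟩ := Subgroup.ne_bot_iff_exists_ne_one.1 h1
      obtain ⟨⟨q, hq, hqy⟩, hyc⟩ := Subgroup.mem_inf.1 y.2
      have h2 : q ∈ M := by
        refine ⟨hq, ?_⟩
        show (QuotientGroup.mk' N) q ∈ center (R ⧸ N)
        rw [hqy]; exact hyc
      rw [← he] at h2
      apply hy1
      apply Subtype.ext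
      rw [← hqy]
      exact (QuotientGroup.eq_one_iff q).2 h2
  · intro x m hm
    rw [hMmem] at hm ⊢
    refine ⟨hQi x m hm.1, fun r => ?_⟩
    have h1 := hNi x _ (hm.2 (φ x⁻¹ r))
    rw [map_commutatorElement] at h1
    have h2 : φ x (φ x⁻¹ r) = r := by
      rw [← MulAut.mul_apply, ← map_mul, mul_inv_cancel, map_one, MulAut.one_apply]
    rw [h2] at h1
    exact h1

/-- Main theorem. -/
theorem narrow_act (hp : p ≠ 2) (hR : IsPGroup p R) (hr : ¬ Cfsg.PRankLE p 2 R)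
    (E : Subgroup R) (hE : Cfsg.IsElementaryAbelian p E) (hE2 : Nat.card E = p ^ 2)
    (hEmax : ∀ B : Subgroup R, Cfsg.IsElementaryAbelian p B → E ≤ B → B = E)
    {A : Type*} [Group A] (φ : A →* MulAut R) :
    (∀ x ∈ commutator A, ∃ k : ℕ, (φ x) ^ p ^ k = 1) ∧ (∀ x : A, ∃ k : ℕ, (φ x) ^ ((p - 1) * p ^ k) = 1) := by
  classical
  have hpp : p.Prime := Fact.out
  haveI hnil : Group.IsNilpotent R := hR.isNilpotent
  obtain ⟨hET, -, -, hTc, hTi⟩ := S1453.result p hp hR hr E hE hE2 hEmax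
  set W : Subgroup R := Subgroup.closure {x : R | x ∈ Subgroup.upperCentralSeries R 2 ∧ x ^ p = 1} with hW
  set T : Subgroup R := centralizer (W : Set R) with hT
  obtain ⟨hE1, hEe⟩ := ThompsonJ.ea_iff.1 hE
  obtain ⟨x, hxE, hxT⟩ := SetLike.not_le_iff_exists.1 hET
  -- a central element of order p
  have hRne : (⊤ : Subgroup R) ≠ ⊥ := by
    intro h
    apply hxT
    have : x ∈ (⊤ : Subgroup R) := trivial
    rw [h, mem_bot] at this
    rw [this]; exact one_mem _
  have hZne : center R ≠ ⊥ := by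
    have := Nilp.normal_inf_center_ne_bot (⊤ : Subgroup R) hRne
    rwa [top_inf_eq] at this
  obtain ⟨z, hz, hzo⟩ := PUtil.exists_orderOf_prime hpp hZne (hR.to_subgroup _)
  have hzp : z ^ p = 1 := by rw [← hzo]; exact pow_orderOf_eq_one z
  have hzE : z ∈ E := RankThree.mem_of_cent hE hEmax (fun e _ => mem_center_iff.1 hz e) hzp
  have hzT : z ∈ T := center_le_centralizer _ hz
  have hcomm : ∀ k : R, k * x = x * k → ∀ e ∈ E, e * k = k * e := by
    intro k hk
    have h1 : Nat.card (E ⊓ centralizer {k} : Subgroup R) ∣ p ^ 2 := by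
      rw [← hE2]; exact Subgroup.card_dvd_of_le inf_le_left
    obtain ⟨i, hi, hi'⟩ := (Nat.dvd_prime_pow hpp).1 h1
    have hzF : zpowers z ≤ E ⊓ centralizer {k} := by
      rw [zpowers_le]
      exact ⟨hzE, mem_centralizer_singleton_iff.2 (mem_center_iff.1 hz k).symm⟩
    have hxF : x ∈ E ⊓ centralizer {k} := ⟨hxE, mem_centralizer_singleton_iff.2 hk.symm⟩
    have hi2 : i = 2 := by
      by_contra hne
      have h2 : p ^ i ≤ p ^ 1 := Nat.pow_le_pow_right hpp.pos (by omega)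
      have h3 : zpowers z = E ⊓ centralizer {k} := by
        apply Subgroup.eq_of_le_of_card_ge hzF
        rw [hi', Nat.card_zpowers, hzo]
        simpa using h2
      rw [← h3] at hxF
      exact hxT ((zpowers_le.2 hzT) hxF)
    have h3 : E ⊓ centralizer {k} = E := by
      apply Subgroup.eq_of_le_of_card_ge inf_le_left
      rw [hi', hi2, hE2]
    intro e he
    rw [← h3] at he
    exact mem_centralizer_singleton_iff.1 he.2
  have hK : ∀ K : Subgroup R, K ≤ T → (∀ k ∈ K, k ^ p = 1) → (∀ k ∈ K, k * x = x * k) → Nat.card K ≤ p := by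
    intro K hKT hKp hKx
    have hKE : K ≤ E := fun k hk => RankThree.mem_of_cent hE hEmax (hcomm k (hKx k hk)) (hKp k hk)
    have h1 : Nat.card K ∣ p ^ 2 := by
      rw [← hE2]; exact Subgroup.card_dvd_of_le hKE
    obtain ⟨i, hi, hi'⟩ := (Nat.dvd_prime_pow hpp).1 h1
    have hi2 : i ≠ 2 := by
      intro h
      have h3 : K = E := by
        apply Subgroup.eq_of_le_of_card_ge hKE
        rw [hi', h, hE2]
      exact hET (h3 ▸ hKT)
    rw [hi']
    calc p ^ i ≤ p ^ 1 := Nat.pow_le_pow_right hpp.pos (by omega)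
      _ = p := pow_one p
  obtain ⟨H, hHc, hH0, -, hH2⟩ := TwoDimB.crit_omega hp hR
  haveI hTn : T.Normal := inferInstance
  haveI hHn : H.Normal := inferInstance
  have hHi := TwoDimB.char_inv hHc φ
  have hTi' := TwoDimB.char_inv hTc φ
  have hQi : ∀ y, ∀ m ∈ H ⊓ T, φ y m ∈ H ⊓ T := fun y m hm => ⟨hHi y m hm.1, hTi' y m hm.2⟩
  have hQgood : Good p φ (H ⊓ T) := by
    obtain ⟨N, hN⟩ := (Set.toFinite {N : Subgroup R | N.Normal ∧ N ≤ H ⊓ T ∧ (∀ y, ∀ m ∈ N, φ y m ∈ N) ∧ Good p φ N}).exists_maximal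
      ⟨⊥, inferInstance, bot_le, (fun y m hm => by rw [mem_bot] at hm ⊢; rw [hm, map_one]), good_bot φ⟩
    obtain ⟨hN1, hN2, hN3, hN4⟩ := hN.prop
    rcases hN2.lt_or_eq with hlt | heq
    · exfalso
      obtain ⟨M, hM1, hM2, hM3, hM4, hM5⟩ := next hlt φ hN3 hQi
      have hM6 : Good p φ M := by
        refine good_step hM2.le (fun m hm => hH0 m (hM3 hm).1) hM4 hN3 ?_ hN4
        refine (count hM2.le (x := x) (fun m hm => hM5 m hm x)).trans (hK _ (inf_le_left.trans (hM3.trans inf_le_right)) ?_ ?_)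
        · intro k hk
          exact hH0 k (hM3 hk.1).1
        · intro k hk
          exact (mem_centralizer_singleton_iff.1 hk.2)
      exact hM2.not_ge (hN.le_of_ge (show M ∈ {N : Subgroup R | N.Normal ∧ N ≤ H ⊓ T ∧ (∀ y, ∀ m ∈ N, φ y m ∈ N) ∧ Good p φ N} from ⟨hM1, hM3, hM4, hM6⟩) hM2.le)
    · rw [← heq]; exact hN4
  have hHgood : Good p φ H := by
    refine good_step inf_le_left hH0 hHi hQi ?_ hQgood
    rw [inf_relIndex_left]
    refine Nat.le_of_dvd hpp.pos ?_
    rw [← hTi]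
    exact relIndex_dvd_index_of_normal T H
  have hfin : ∀ y : MulAut R, (∀ h ∈ H, y h = h) → ∃ j : ℕ, y ^ p ^ j = 1 := by
    intro y hy
    obtain ⟨j, hj⟩ := TwoDimB.exists_pow_coprime p y
    exact ⟨j, hH2 _ hj (fix_pow hy _)⟩
  constructor
  · intro y hy
    obtain ⟨k, hk⟩ := hHgood.1 y hy
    obtain ⟨j, hj⟩ := hfin _ hk
    exact ⟨k + j, by rw [pow_add, pow_mul]; exact hj⟩
  · intro y
    obtain ⟨k, hk⟩ := hHgood.2 y
    obtain ⟨j, hj⟩ := hfin _ hk
    exact ⟨k + j, by rw [pow_add, ← mul_assoc, pow_mul]; exact hj⟩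

end Cfsg.Agent.H2.NarrowAct
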