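import Cfsg.Agent.H2.NarrowAct
import Cfsg.Agent.H2.FitCommB
import Cfsg.Agent.H2.PLen
import Cfsg.Prelude
import Mathlib

/-! Narrow Sylow subgroups of solvable groups of odd order. -/

set_option autoImplicit false

namespace Cfsg.Agent.H2.NarrowCore

open Subgroup Cfsg.Agent.Lib Cfsg.Agent.H2
open scoped commutatorElement

/-- elementary abelian subgroups of the centralizer of a narrow witness -/
theorem bound {S : Type*} [Group S] [Finite S] {p : ℕ} [Fact p.Prime] {R₀ R₁ : Subgroup S} (h0 : Nat.card R₀ = p) (h1 : IsCyclic R₁)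
    (hs : R₀ ⊔ R₁ = centralizer (R₀ : Set S)) (B : Subgroup S) (hB2 : ∀ x ∈ B, x ^ p = 1) (hB3 : ∀ b ∈ B, ∀ e ∈ R₀, b * e = e * b) :
    Nat.card B ≤ p ^ 2 := by
  have hpp : p.Prime := Fact.out
  have hR0c : IsCyclic R₀ := isCyclic_of_prime_card h0
  have hR0ab := (IsCyclic.commGroup (α := R₀)).mul_comm
  have h0C : R₀ ≤ centralizer (R₀ : Set S) := by
    intro x hx
    rw [mem_centralizer_iff]
    intro y hy
    exact congrArg Subtype.val (hR0ab ⟨y, hy⟩ ⟨x, hx⟩)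
  have h1C : R₁ ≤ centralizer (R₀ : Set S) := by rw [← hs]; exact le_sup_right
  have hBC : B ≤ centralizer (R₀ : Set S) := by
    intro b hb
    rw [mem_centralizer_iff]
    intro e he
    exact (hB3 b hb e he).symm
  set C : Subgroup S := centralizer (R₀ : Set S) with hC
  haveI hn : (R₀.subgroupOf C).Normal := by
    refine ⟨fun x hx g => ?_⟩
    rw [mem_subgroupOf] at hx ⊢
    have h2 : (g : S) * x * (g : S)⁻¹ = x := by
      rw [← mem_centralizer_iff.1 g.2 x hx]; group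
    show (g : S) * x * (g : S)⁻¹ ∈ R₀
    rw [h2]; exact hx
  have hcyc : IsCyclic (C ⧸ R₀.subgroupOf C) := by
    refine isCyclic_of_surjective ((QuotientGroup.mk' (R₀.subgroupOf C)).comp (Subgroup.inclusion h1C)) ?_
    intro q
    obtain ⟨c, rfl⟩ := QuotientGroup.mk_surjective q
    have hc : (c : S) ∈ R₀ ⊔ R₁ := by rw [hs]; exact c.2
    have h2 : R₁ ≤ normalizer (R₀ : Set S) := h1C.trans (centralizer_le_normalizer _)
    rw [← SetLike.mem_coe, Subgroup.coe_mul_of_right_le_normalizer_left _ _ h2] at hc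
    obtain ⟨a, ha, b, hb, hab⟩ := hc
    refine ⟨⟨b, hb⟩, ?_⟩
    show ((⟨b, h1C hb⟩ : C) : C ⧸ R₀.subgroupOf C) = (c : C ⧸ R₀.subgroupOf C)
    rw [QuotientGroup.eq, mem_subgroupOf]
    have h3 : ((⟨b, h1C hb⟩ : C)⁻¹ * c : C) = ((b⁻¹ * (a * b) : S)) := by
      show b⁻¹ * (c : S) = _
      rw [← hab]
    rw [h3]
    have h4 : b⁻¹ * (a * b) = a := by
      have h5 := mem_centralizer_iff.1 (h1C hb) a ha
      rw [h5]; group
    rw [h4]; exact ha
  let f : B →* C ⧸ R₀.subgroupOf C := (QuotientGroup.mk' (R₀.subgroupOf C)).comp (Subgroup.inclusion hBC)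
  have hk : Nat.card f.ker ≤ p := by
    rw [← h0]
    refine Nat.card_le_card_of_injective (fun x : f.ker => (⟨((x : B) : S), ?_⟩ : R₀)) ?_
    · have h2 := x.2
      rw [MonoidHom.mem_ker] at h2
      have h3 : ((Subgroup.inclusion hBC (x : B) : C) : C ⧸ R₀.subgroupOf C) = 1 := h2
      have h4 : (Subgroup.inclusion hBC (x : B) : C) ∈ R₀.subgroupOf C := (QuotientGroup.eq_one_iff _).1 h3
      exact h4
    · intro x y hxy
      exact Subtype.ext (Subtype.ext (congrArg (fun z : R₀ => (z : S)) hxy))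
  have hr : Nat.card f.range ≤ p := by
    have h2 : IsCyclic f.range := inferInstance
    have h3 : Nat.card f.range ∣ p := by
      rw [← IsCyclic.exponent_eq_card]
      apply Monoid.exponent_dvd_of_forall_pow_eq_one
      rintro ⟨_, x, rfl⟩
      apply Subtype.ext
      show (f x) ^ p = 1
      rw [← map_pow]
      have : x ^ p = 1 := Subtype.ext (hB2 x x.2)
      rw [this, map_one]
    exact Nat.le_of_dvd hpp.pos h3
  have h2 := f.ker.card_mul_index
  rw [Subgroup.index_ker] at h2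
  rw [← h2, sq]
  exact Nat.mul_le_mul hk hr

theorem exists_max {R : Type*} [Group R] [Finite R] {p : ℕ} [Fact p.Prime] (hR : IsPGroup p R) (hr : ¬ Cfsg.PRankLE p 2 R)
    (E : Subgroup R) (hE1 : ∀ x ∈ E, ∀ y ∈ E, x * y = y * x) (hE2 : ∀ x ∈ E, x ^ p = 1)
    (hc : ∀ B : Subgroup R, (∀ x ∈ B, ∀ y ∈ B, x * y = y * x) → (∀ x ∈ B, x ^ p = 1) → (∀ b ∈ B, ∀ e ∈ E, b * e = e * b) → Nat.card B ≤ p ^ 2) :
    ∃ E' : Subgroup R, Cfsg.IsElementaryAbelian p E' ∧ Nat.card E' = p ^ 2 ∧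
      ∀ B : Subgroup R, Cfsg.IsElementaryAbelian p B → E' ≤ B → B = E' := by
  have hpp : p.Prime := Fact.out
  haveI hnil : Group.IsNilpotent R := hR.isNilpotent
  have hRne : (⊤ : Subgroup R) ≠ ⊥ := by
    intro h
    apply hr
    intro A _ _
    have : A = ⊥ := le_bot_iff.1 (h ▸ le_top)
    rw [this, card_bot]
    exact Nat.one_le_pow _ _ hpp.pos
  have hZne : center R ≠ ⊥ := by
    have := Nilp.normal_inf_center_ne_bot (⊤ : Subgroup R) hRne
    rwa [top_inf_eq] at this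
  obtain ⟨z, hz, hzo⟩ := PUtil.exists_orderOf_prime hpp hZne (hR.to_subgroup _)
  have hzp : z ^ p = 1 := by rw [← hzo]; exact pow_orderOf_eq_one z
  have hzc : ∀ (i : ℤ) (e : R), z ^ i * e = e * z ^ i := by
    intro i e
    exact (((show Commute e z from mem_center_iff.1 hz e).zpow_right i).eq).symm
  have h := RankThree.ea_sup (p := p) (A := E) (B := zpowers z) hE1 hE2 (by
      rintro _ ⟨i, rfl⟩ _ ⟨j, rfl⟩
      exact hzc i _) (by
      rintro _ ⟨i, rfl⟩
      show (z ^ i) ^ p = 1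
      rw [← zpow_natCast, ← zpow_mul, mul_comm, zpow_mul, zpow_natCast, hzp, one_zpow]) (by
      rintro e he _ ⟨i, rfl⟩
      exact (hzc i e).symm)
  have hEc : ∀ b ∈ E ⊔ zpowers z, ∀ e ∈ E, b * e = e * b := fun b hb e he => h.1 b hb e (le_sup_left (a := E) he)
  have hle := hc _ h.1 h.2 hEc
  have hEp : IsPGroup p (E ⊔ zpowers z : Subgroup R) := hR.to_subgroup _
  obtain ⟨i, hi⟩ := IsPGroup.iff_card.1 hEp
  have hi2 : i ≤ 2 := by
    rw [hi] at hle
    exact (Nat.pow_le_pow_iff_right hpp.one_lt).1 hle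
  have hii : i = 2 := by
    by_contra hne
    have h1 : zpowers z = E ⊔ zpowers z := by
      apply Subgroup.eq_of_le_of_card_ge le_sup_right
      rw [hi, Nat.card_zpowers, hzo]
      calc p ^ i ≤ p ^ 1 := Nat.pow_le_pow_right hpp.pos (by omega)
        _ = p := pow_one p
    apply hr
    intro A hA hA1
    refine hc A (PUtil.isMulCommutative_iff.1 hA) hA1 (fun b _ e he => ?_)
    have h2 : e ∈ zpowers z := by rw [h1]; exact le_sup_left (a := E) he
    obtain ⟨j, rfl⟩ := h2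
    exact (hzc j b).symm
  rw [hii] at hi
  refine ⟨_, ThompsonJ.ea_iff.2 h, hi, fun B hB hEB => ?_⟩
  obtain ⟨hB1, hB2⟩ := ThompsonJ.ea_iff.1 hB
  have h1 := hc B hB1 hB2 (fun b hb e he => hB1 b hb e (hEB (le_sup_left (a := E) he)))
  exact (Subgroup.eq_of_le_of_card_ge hEB (by rw [hi]; exact h1)).symm

/-- narrow groups of rank at least three -/
theorem of_narrow {R : Type*} [Group R] [Finite R] {p : ℕ} [Fact p.Prime] (hR : IsPGroup p R) (hr : ¬ Cfsg.PRankLE p 2 R) (hn : Cfsg.IsNarrow p R) :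
    ∃ E' : Subgroup R, Cfsg.IsElementaryAbelian p E' ∧ Nat.card E' = p ^ 2 ∧
      ∀ B : Subgroup R, Cfsg.IsElementaryAbelian p B → E' ≤ B → B = E' := by
  rcases hn with h | ⟨R₀, R₁, h0, h1, -, -, h4⟩
  · exact absurd h hr
  · have hR0c : IsCyclic R₀ := isCyclic_of_prime_card h0
    have hR0ab := (IsCyclic.commGroup (α := R₀)).mul_comm
    refine exists_max hR hr R₀ (fun x hx y hy => congrArg Subtype.val (hR0ab ⟨x, hx⟩ ⟨y, hy⟩)) (fun x hx => ?_)
      (fun B _ hB2 hB3 => bound h0 h1 h4 B hB2 hB3)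
    have h5 : (⟨x, hx⟩ : R₀) ^ Nat.card R₀ = 1 := pow_card_eq_one'
    rw [h0] at h5
    exact congrArg Subtype.val h5

variable {G : Type*} [Group G] [Finite G] {p : ℕ} [Fact p.Prime]

/-- from the action on `O_p` -/
theorem info_of_act [hs : Group.IsSolvable G] (hcore : Cfsg.pPrimeCore p G = ⊥) [hn : (Cfsg.pCore p G).Normal]
    (hA : (∀ x ∈ commutator G, ∃ k : ℕ, (MulAut.conjNormal (H := Cfsg.pCore p G) x) ^ p ^ k = 1) ∧
      (∀ x : G, ∃ k : ℕ, (MulAut.conjNormal (H := Cfsg.pCore p G) x) ^ ((p - 1) * p ^ k) = 1)) :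
    commutator G ≤ Cfsg.pCore p G ∧ ∀ q : ℕ, q.Prime → q ∣ Nat.card G → q ≤ p := by
  have hpp : p.Prime := Fact.out
  have hC := OddStabB.cpc (p := p) hs hcore
  have hRp := Cores.pCore_isPGroup (G := G) p
  constructor
  · apply Cores.le_pCore (inferInstance : (commutator G).Normal)
    rintro ⟨x, hx⟩
    obtain ⟨k, hk⟩ := hA.1 x hx
    rw [← map_pow] at hk
    have hk' : x ^ p ^ k ∈ centralizer (Cfsg.pCore p G : Set G) := by
      rw [mem_centralizer_iff]
      intro y hy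
      have h1 := congrArg (fun f : MulAut (Cfsg.pCore p G) => ((f ⟨y, hy⟩ : Cfsg.pCore p G) : G)) hk
      have h2 : x ^ p ^ k * y * (x ^ p ^ k)⁻¹ = y := h1
      calc y * x ^ p ^ k = (x ^ p ^ k * y * (x ^ p ^ k)⁻¹) * x ^ p ^ k := by rw [h2]
        _ = _ := by group
    obtain ⟨j, hj⟩ := hRp ⟨_, hC hk'⟩
    refine ⟨k + j, Subtype.ext ?_⟩
    have h1 : (x ^ p ^ k) ^ p ^ j = 1 := congrArg Subtype.val hj
    show x ^ p ^ (k + j) = 1
    rw [pow_add, pow_mul]; exact h1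
  · intro q hq hqG
    haveI : Fact q.Prime := ⟨hq⟩
    obtain ⟨x, hx⟩ := exists_prime_orderOf_dvd_card' (G := G) q hqG
    obtain ⟨k, hk⟩ := hA.2 x
    rw [← map_pow] at hk
    have hk' : x ^ ((p - 1) * p ^ k) ∈ centralizer (Cfsg.pCore p G : Set G) := by
      rw [mem_centralizer_iff]
      intro y hy
      have h1 := congrArg (fun f : MulAut (Cfsg.pCore p G) => ((f ⟨y, hy⟩ : Cfsg.pCore p G) : G)) hk
      have h2 : x ^ ((p - 1) * p ^ k) * y * (x ^ ((p - 1) * p ^ k))⁻¹ = y := h1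
      calc y * x ^ ((p - 1) * p ^ k) = (x ^ ((p - 1) * p ^ k) * y * (x ^ ((p - 1) * p ^ k))⁻¹) * x ^ ((p - 1) * p ^ k) := by rw [h2]
        _ = _ := by group
    obtain ⟨j, hj⟩ := hRp ⟨_, hC hk'⟩
    have h1 : (x ^ ((p - 1) * p ^ k)) ^ p ^ j = 1 := congrArg Subtype.val hj
    rw [← pow_mul] at h1
    have h2 := _root_.orderOf_dvd_of_pow_eq_one h1
    rw [hx] at h2
    have hp2 := hpp.two_le
    rcases hq.dvd_mul.1 h2 with h3 | h3
    · rcases hq.dvd_mul.1 h3 with h4 | h4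
      · have := Nat.le_of_dvd (by omega) h4
        omega
      · have := hq.dvd_of_dvd_pow h4
        exact Nat.le_of_dvd hpp.pos this
    · have := hq.dvd_of_dvd_pow h3
      exact Nat.le_of_dvd hpp.pos this

theorem lift' [hNn : (Cfsg.pPrimeCore p G).Normal]
    (h : commutator (G ⧸ Cfsg.pPrimeCore p G) ≤ Cfsg.pCore p (G ⧸ Cfsg.pPrimeCore p G) ∧
      ∀ q : ℕ, q.Prime → q ∣ Nat.card (G ⧸ Cfsg.pPrimeCore p G) → q ≤ p) :
    commutator G ≤ Cfsg.pPrimePCore p G ∧ ∀ q : ℕ, q.Prime → q ∣ (Cfsg.pPrimeCore p G).index → q ≤ p := by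
  refine ⟨?_, fun q hq hqd => h.2 q hq (by rwa [Subgroup.index_eq_card] at hqd)⟩
  rw [_root_.commutator_def, commutator_le]
  intro x _ y _
  have h5 : ⁅(x : G ⧸ Cfsg.pPrimeCore p G), (y : G ⧸ Cfsg.pPrimeCore p G)⁆ ∈ Cfsg.pCore p (G ⧸ Cfsg.pPrimeCore p G) := h.1 (by
    rw [_root_.commutator_def]
    exact commutator_mem_commutator (mem_top _) (mem_top _))
  exact h5

/-- `p`-elements of a group of `p`-length one with trivial `p'`-core -/
theorem mem_core_of_len {H : Type*} [Group H] [Finite H] (hpl : Cfsg.PLengthLE p 1 H)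
    (hO : Cfsg.pPrimeCore p H = ⊥) {x : H} {n : ℕ} (hn : x ^ p ^ n = 1) : x ∈ Cfsg.pCore p H := by
  obtain ⟨K, hK, hKt⟩ := PLen.pLengthLE_iff.1 hpl
  have hK1 : K 1 = ⊥ := by
    have h1 : (Nat.card (K 1)).Coprime p := PLen.coprime_of_elements (K 1) (fun x hx => by
      obtain ⟨m, hm, hxm⟩ := hK.even 0 x hx
      rw [mul_zero, hK.zero, mem_bot] at hxm
      exact ⟨m, hm, hxm⟩)
    rw [eq_bot_iff, ← hO]
    exact Cores.le_pPrimeCore (hK.normal 1) h1
  have hK2 : K 2 ≤ Cfsg.pCore p H := by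
    apply Cores.le_pCore (hK.normal 2)
    rintro ⟨x, hx⟩
    obtain ⟨n, hn⟩ := hK.odd 0 x hx
    rw [mul_zero, zero_add, hK1, mem_bot] at hn
    exact ⟨n, Subtype.ext hn⟩
  obtain ⟨m, hm, hxm⟩ := hK.even 1 x (by rw [show 2 * 1 + 1 = 3 from rfl, show (3 : ℕ) = 2 * 1 + 1 from rfl, hKt]; trivial)
  have h1 : x ^ m ∈ Cfsg.pCore p H := hK2 hxm
  have h2 : m.Coprime (p ^ n) := Nat.Coprime.pow_right n hm
  have h3 : (orderOf x).Coprime m := Nat.Coprime.coprime_dvd_left (_root_.orderOf_dvd_of_pow_eq_one hn) h2.symm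
  obtain ⟨l, hl⟩ := exists_pow_eq_self_of_coprime h3.symm
  rw [← hl]
  exact (Cfsg.pCore p H).pow_mem h1 l

/-- the Sylow subgroup maps isomorphically onto `O_p` of the quotient -/
theorem exists_equiv (hpl : Cfsg.PLengthLE p 1 G) (S : Sylow p G) [hNn : (Cfsg.pPrimeCore p G).Normal] :
    Nonempty ((S : Subgroup G) ≃* Cfsg.pCore p (G ⧸ Cfsg.pPrimeCore p G)) := by
  have hpp : p.Prime := Fact.out
  have hO := Cores.pPrimeCore_quotient_pPrimeCore (G := G) p
  have hpl' := PLen.quotient hpl (Cfsg.pPrimeCore p G)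
  have hmem : ∀ x ∈ (S : Subgroup G), (x : G ⧸ Cfsg.pPrimeCore p G) ∈ Cfsg.pCore p (G ⧸ Cfsg.pPrimeCore p G) := by
    intro x hx
    obtain ⟨n, hn⟩ := S.isPGroup' ⟨x, hx⟩
    have hn' : x ^ p ^ n = 1 := congrArg Subtype.val hn
    refine mem_core_of_len hpl' hO (n := n) ?_
    rw [← QuotientGroup.mk_pow, hn']; rfl
  let f : (S : Subgroup G) →* Cfsg.pCore p (G ⧸ Cfsg.pPrimeCore p G) :=
    ((QuotientGroup.mk' (Cfsg.pPrimeCore p G)).comp (S : Subgroup G).subtype).codRestrict _ (fun x => hmem x x.2)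
  have hinj : Function.Injective f := by
    rw [injective_iff_map_eq_one]
    intro x hx
    have h1 : ((x : G) : G ⧸ Cfsg.pPrimeCore p G) = 1 := congrArg Subtype.val hx
    rw [QuotientGroup.eq_one_iff] at h1
    obtain ⟨n, hn⟩ := S.isPGroup' x
    have h2 : orderOf x ∣ p ^ n := _root_.orderOf_dvd_of_pow_eq_one hn
    have h3 : orderOf x ∣ Nat.card (Cfsg.pPrimeCore p G) := by
      have := _root_.orderOf_dvd_natCard (⟨(x : G), h1⟩ : Cfsg.pPrimeCore p G)
      rwa [Subgroup.orderOf_mk, Subgroup.orderOf_coe] at this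
    exact _root_.orderOf_eq_one_iff.1 (Nat.eq_one_of_dvd_coprimes ((Cores.pPrimeCore_coprime (G := G) p).symm.pow_left n) h2 h3)
  have hcard : Nat.card (Cfsg.pCore p (G ⧸ Cfsg.pPrimeCore p G)) ≤ Nat.card (S : Subgroup G) := by
    obtain ⟨n, hn⟩ := IsPGroup.iff_card.1 (Cores.pCore_isPGroup (G := G ⧸ Cfsg.pPrimeCore p G) p)
    rw [hn]
    apply Nat.le_of_dvd Nat.card_pos
    apply S.pow_dvd_card_of_pow_dvd_card
    rw [← hn]
    exact (Subgroup.card_subgroup_dvd_card _).trans (Subgroup.card_quotient_dvd_card _)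
  have hbij : Function.Bijective f := by
    classical
    haveI := Fintype.ofFinite (S : Subgroup G)
    haveI := Fintype.ofFinite (Cfsg.pCore p (G ⧸ Cfsg.pPrimeCore p G))
    rw [Fintype.bijective_iff_injective_and_card]
    refine ⟨hinj, ?_⟩
    rw [← Nat.card_eq_fintype_card, ← Nat.card_eq_fintype_card]
    exact le_antisymm (Nat.card_le_card_of_injective _ hinj) hcard
  exact ⟨MulEquiv.ofBijective f hbij⟩

theorem max_transfer {S R : Type*} [Group S] [Group R] (e : S ≃* R) {E : Subgroup S} (hE : Cfsg.IsElementaryAbelian p E)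
    (hEm : ∀ B : Subgroup S, Cfsg.IsElementaryAbelian p B → E ≤ B → B = E) :
    Cfsg.IsElementaryAbelian p (E.map e.toMonoidHom) ∧ ∀ B : Subgroup R, Cfsg.IsElementaryAbelian p B → E.map e.toMonoidHom ≤ B → B = E.map e.toMonoidHom := by
  obtain ⟨h1, h2⟩ := ThompsonJ.ea_iff.1 hE
  constructor
  · apply ThompsonJ.ea_iff.2
    constructor
    · rintro _ ⟨x, hx, rfl⟩ _ ⟨y, hy, rfl⟩
      rw [← map_mul, h1 x hx y hy, map_mul]
    · rintro _ ⟨x, hx, rfl⟩
      rw [← map_pow, h2 x hx, map_one]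
  · intro B hB hEB
    obtain ⟨h3, h4⟩ := ThompsonJ.ea_iff.1 hB
    have h5 := hEm (B.comap e.toMonoidHom) (ThompsonJ.ea_iff.2 ⟨fun x hx y hy => by
        apply e.injective
        rw [map_mul, map_mul]
        exact h3 _ hx _ hy, fun x hx => by
        apply e.injective
        rw [map_pow, map_one]
        exact h4 _ hx⟩) (Subgroup.map_le_iff_le_comap.1 hEB)
    rw [← h5, Subgroup.map_comap_eq_self_of_surjective e.surjective]

end Cfsg.Agent.H2.NarrowCore
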