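import Cfsg.Agent.Lib.QdD
import Cfsg.Agent.Lib.Cores

set_option autoImplicit false
set_option linter.unusedSectionVars false

namespace Cfsg.Agent.H2.OddStab

open Cfsg Cfsg.Agent.Lib.DickA Cfsg.Agent.Lib.DickB Cfsg.Agent.Lib.DickC Cfsg.Agent.Lib.DickD Cfsg.Agent.Lib.Involve
open Cfsg.Agent.Lib.QdA Cfsg.Agent.Lib.QdC Cfsg.Agent.Lib.QdD

theorem stable_of_odd {G : Type*} [Group G] [Finite G] {p : ℕ} [Fact p.Prime] (hp : p ≠ 2) (hodd : Odd (Nat.card G)) :
    IsNormalizerPStable p G := by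
  by_contra hn
  obtain ⟨K, f, hf⟩ := involves_iff.1 (involves_of_not_stable hp hn)
  have h2 := two_ne hp (ZMod p)
  let n1 : S (ZMod p) := Cfsg.Agent.Lib.DickD.mk (-1) 0 0 (-1) (by ring)
  have hn1 : n1 * n1 = 1 := by
    refine ext4 ?_ ?_ ?_ ?_ <;> simp [n1]
  have hmem : aff n1 0 0 ∈ qd p := Subgroup.subset_closure ⟨by simp [aff], by simp [aff], by simp [aff]⟩
  have hsq : aff n1 0 0 ^ 2 = 1 := by
    rw [pow_two, aff_mul, hn1]
    refine Subtype.ext ?_
    ext i j
    fin_cases i <;> fin_cases j <;> simp [aff]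
  have hne : aff n1 0 0 ≠ 1 := by
    intro h
    have h3 := congrArg (fun M : Matrix.SpecialLinearGroup (Fin 3) (ZMod p) => (M : Matrix (Fin 3) (Fin 3) (ZMod p)) 0 0) h
    have h4 : (-1 : ZMod p) = 1 := by simpa [aff, n1] using h3
    apply h2
    linear_combination -h4
  obtain ⟨x, hx⟩ := hf ⟨_, hmem⟩
  -- the order of x is odd
  have h5 : Odd (orderOf x) := by
    refine Odd.of_dvd_nat hodd ((orderOf_dvd_natCard x).trans (Subgroup.card_subgroup_dvd_card K))
  have h6 : (⟨aff n1 0 0, hmem⟩ : qd p) ^ orderOf x = 1 := by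
    rw [← hx, ← map_pow, pow_orderOf_eq_one, map_one]
  have h7 : orderOf (⟨aff n1 0 0, hmem⟩ : qd p) = 2 :=
    orderOf_eq_prime (Subtype.ext hsq) (fun h => hne (congrArg Subtype.val h))
  have h8 : 2 ∣ orderOf x := by
    rw [← h7]; exact orderOf_dvd_of_pow_eq_one h6
  obtain ⟨k, hk⟩ := h5
  omega

/-- for a normal `p`-subgroup -/
theorem stable_normal {G : Type*} [Group G] [Finite G] {p : ℕ} [Fact p.Prime] (hst : IsNormalizerPStable p G) (P : Subgroup G)
    [hPn : P.Normal] (hP : IsPGroup p P) {a : G} (hq : ⁅⁅P, Subgroup.zpowers a⁆, Subgroup.zpowers a⁆ = ⊥) :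
    (QuotientGroup.mk' (Subgroup.centralizer (P : Set G)) a) ∈ pCore p (G ⧸ Subgroup.centralizer (P : Set G)) := by
  have hN : Subgroup.normalizer (P : Set G) = ⊤ := Subgroup.normalizer_eq_top_iff.2 hPn
  have h1 := hst P hP a (by rw [hN]; trivial) hq
  -- transport along the surjection from `N ⧸ C`
  let N := Subgroup.normalizer (P : Set G)
  let C := Subgroup.centralizer (P : Set G)
  let f : N ⧸ C.subgroupOf N →* G ⧸ C := QuotientGroup.map (C.subgroupOf N) C N.subtype (fun x hx => hx)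
  have hf : Function.Surjective f := by
    intro y
    obtain ⟨y, rfl⟩ := QuotientGroup.mk_surjective y
    exact ⟨((⟨y, by show y ∈ Subgroup.normalizer (P : Set G); rw [hN]; trivial⟩ : N) : N ⧸ C.subgroupOf N), rfl⟩
  exact Cfsg.Agent.Lib.Cores.pCore_map_le p f hf ⟨_, h1, rfl⟩

end Cfsg.Agent.H2.OddStab
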