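import Mathlib
import Cfsg.Prelude
import Cfsg.Agent.Lib.PGrpE
import Cfsg.Agent.H2.PUtil
import Cfsg.Agent.Lib.Cyc

set_option autoImplicit false

/-! Counting elements of given order. -/

namespace Cfsg.Agent.H2.OrdCount

open Subgroup Cfsg.Agent.Lib

universe u
variable {G : Type u} [Group G]

/-- translation of sets -/
def T (ε : G) (O : Set G) : Set G := {y | y * ε⁻¹ ∈ O}

theorem T_iter {ε : G} (O : Set G) (k : ℕ) : (T ε)^[k] O = {y | y * ε⁻¹ ^ k ∈ O} := by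
  induction k with
  | zero => ext y; simp
  | succ k ih =>
    rw [Function.iterate_succ_apply', ih]
    ext y
    change (y * ε⁻¹) * ε⁻¹ ^ k ∈ O ↔ y * ε⁻¹ ^ (k + 1) ∈ O
    rw [pow_succ', mul_assoc]

theorem T_count [Finite G] {p : ℕ} [hp : Fact p.Prime] {ε : G} (hε : ε ^ p = 1) (F : Set (Set G)) (hF : ∀ O ∈ F, T ε O ∈ F) :
    Nat.card F ≡ Nat.card {O : Set G | O ∈ F ∧ T ε O = O} [MOD p] := by
  classical
  haveI : Finite (Set G) := inferInstance
  letI : Fintype F := Fintype.ofFinite F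
  obtain ⟨f, hf⟩ : ∃ f : Function.End F, ∀ O : F, ((f O : F) : Set G) = T ε O := ⟨fun O => ⟨T ε O, hF O O.2⟩, fun O => rfl⟩
  have hpow : ∀ k : ℕ, ∀ O : F, (((f ^ k) O : F) : Set G) = (T ε)^[k] (O : Set G) := by
    intro k
    induction k with
    | zero => intro O; rfl
    | succ k ih =>
      intro O
      have h1 : (f ^ (k + 1)) O = f ((f ^ k) O) := by
        rw [pow_succ']; rfl
      rw [h1, hf, ih, Function.iterate_succ_apply']
  have hf1 : f ^ p ^ 1 = 1 := by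
    funext O
    apply Subtype.ext
    rw [hpow, pow_one, T_iter]
    ext y
    change y * ε⁻¹ ^ p ∈ (O : Set G) ↔ y ∈ (O : Set G)
    rw [inv_pow, hε, inv_one, mul_one]
  have h1 := Equiv.Perm.card_fixedPoints_modEq hf1
  have e : Function.fixedPoints f ≃ {O : Set G | O ∈ F ∧ T ε O = O} :=
    { toFun := fun O => ⟨(O : F), (O : F).2, by
        have h2 : f (O : F) = O := O.2
        rw [← hf, h2]⟩
      invFun := fun O => ⟨⟨O, O.2.1⟩, Subtype.ext ((hf _).trans O.2.2)⟩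
      left_inv := fun O => rfl
      right_inv := fun O => rfl }
  have h2 : Nat.card F ≡ Nat.card (Function.fixedPoints f) [MOD p] := by
    rw [Nat.card_eq_fintype_card, Nat.card_eq_fintype_card]
    convert h1
  rw [← Nat.card_congr e]
  exact h2

/-- the pieces -/
def co (N : ℕ) (g : G) : Set G := {y | g⁻¹ * y ∈ zpowers (g ^ N)}

theorem mem_co (N : ℕ) (g : G) : g ∈ co N g := by
  change g⁻¹ * g ∈ zpowers (g ^ N)
  rw [inv_mul_cancel]; exact one_mem _

theorem co_eq {p s m : ℕ} (hs : 1 ≤ s) {g y : G} (hg : orderOf g = p ^ s * m) (hy : y ∈ co (p * m) g) :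
    orderOf y = p ^ s * m ∧ co (p * m) y = co (p * m) g := by
  obtain ⟨N, hN⟩ : ∃ N, N = p * m := ⟨_, rfl⟩
  rw [← hN] at hy ⊢
  obtain ⟨j, hj⟩ := hy
  have hj' : y = g ^ (1 + N * j : ℤ) := by
    have h1 : (g ^ N) ^ j = g⁻¹ * y := hj
    rw [zpow_add, zpow_one, zpow_mul, zpow_natCast, h1]; group
  have hdvd : (p ^ s * m : ℕ) ∣ N ^ s := by
    rw [hN, mul_pow]
    exact mul_dvd_mul_left _ (dvd_pow_self m (by omega))
  have hcop : IsCoprime (1 + N * j : ℤ) (p ^ s * m : ℕ) := by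
    have h1 : IsCoprime (1 + N * j : ℤ) (N : ℤ) := ⟨1, -j, by ring⟩
    have h2 : IsCoprime (1 + N * j : ℤ) ((N : ℤ) ^ s) := h1.pow_right
    obtain ⟨c, hc⟩ := hdvd
    have h3 : ((N : ℤ) ^ s) = ((p ^ s * m : ℕ) : ℤ) * c := by exact_mod_cast hc
    rw [h3] at h2
    exact h2.of_mul_right_left
  obtain ⟨a, b, hab⟩ := hcop
  have hga : g = y ^ a := by
    rw [hj', ← zpow_mul]
    have h1 : (1 + N * j : ℤ) * a = 1 - b * ((p ^ s * m : ℕ) : ℤ) := by linear_combination hab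
    rw [h1, zpow_sub, zpow_one, mul_comm b, zpow_mul, zpow_natCast, ← hg, pow_orderOf_eq_one, one_zpow, inv_one, mul_one]
  have hz : zpowers y = zpowers g := by
    apply le_antisymm
    · rw [zpowers_le, hj']; exact zpow_mem (mem_zpowers g) _
    · rw [zpowers_le]; rw [hga]; exact zpow_mem (mem_zpowers y) _
  have hzN : zpowers (y ^ N) = zpowers (g ^ N) := by
    apply le_antisymm
    · rw [zpowers_le]
      have : y ^ N = (g ^ N) ^ (1 + N * j : ℤ) := by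
        rw [hj', ← zpow_natCast (g ^ (1 + N * j : ℤ)), ← zpow_mul, mul_comm, zpow_mul, zpow_natCast]
      rw [this]; exact zpow_mem (mem_zpowers _) _
    · rw [zpowers_le]
      have : g ^ N = (y ^ N) ^ a := by
        conv_lhs => rw [hga]
        rw [← zpow_natCast (y ^ a), ← zpow_mul, mul_comm, zpow_mul, zpow_natCast]
      rw [this]; exact zpow_mem (mem_zpowers _) _
  refine ⟨?_, ?_⟩
  · rw [← Nat.card_zpowers, hz, Nat.card_zpowers, hg]
  · ext x
    change y⁻¹ * x ∈ zpowers (y ^ N) ↔ g⁻¹ * x ∈ zpowers (g ^ N)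
    rw [hzN]
    have hyg : g⁻¹ * y ∈ zpowers (g ^ N) := ⟨j, hj⟩
    constructor
    · intro h
      have : g⁻¹ * x = (g⁻¹ * y) * (y⁻¹ * x) := by group
      rw [this]; exact mul_mem hyg h
    · intro h
      have : y⁻¹ * x = (g⁻¹ * y)⁻¹ * (g⁻¹ * x) := by group
      rw [this]; exact mul_mem (inv_mem hyg) h

theorem card_co [Finite G] {p s m : ℕ} (hp : p.Prime) (hs : 1 ≤ s) (hm : 0 < m) {g : G} (hg : orderOf g = p ^ s * m) : Nat.card (co (p * m) g) = p ^ (s - 1) := by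
  have e : co (p * m) g ≃ zpowers (g ^ (p * m)) :=
    { toFun := fun y => ⟨g⁻¹ * y, y.2⟩
      invFun := fun z => ⟨g * z, by change g⁻¹ * (g * z) ∈ zpowers (g ^ (p * m)); rw [inv_mul_cancel_left]; exact z.2⟩
      left_inv := fun y => Subtype.ext (by simp)
      right_inv := fun z => Subtype.ext (by simp) }
  rw [Nat.card_congr e, Nat.card_zpowers]
  have h1 : p ^ s * m = p ^ (s - 1) * (p * m) := by
    obtain ⟨k, rfl⟩ : ∃ k, s = k + 1 := ⟨s - 1, by omega⟩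
    rw [Nat.add_sub_cancel, pow_succ]; ring
  rw [orderOf_pow' g (mul_ne_zero hp.ne_zero hm.ne'), hg, h1, Nat.gcd_mul_left_left, Nat.mul_div_cancel _ (Nat.mul_pos hp.pos hm)]

/-- the number of elements is `p ^ (s - 1)` times the number of pieces -/
theorem card_elements [Finite G] {p s m : ℕ} (hp : p.Prime) (hs : 1 ≤ s) (hm : 0 < m) :
    Nat.card {g : G // orderOf g = p ^ s * m} = Nat.card {O : Set G | ∃ g, orderOf g = p ^ s * m ∧ O = co (p * m) g} * p ^ (s - 1) := by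
  classical
  obtain ⟨𝒪, h𝒪⟩ : ∃ 𝒪 : Set (Set G), 𝒪 = {O : Set G | ∃ g, orderOf g = p ^ s * m ∧ O = co (p * m) g} := ⟨_, rfl⟩
  rw [← h𝒪]
  have hmem : ∀ O ∈ 𝒪, ∀ y ∈ O, orderOf y = p ^ s * m ∧ co (p * m) y = O := by
    intro O hO y hy
    rw [h𝒪] at hO
    obtain ⟨g, hg, rfl⟩ := hO
    exact co_eq hs hg hy
  have e : {g : G // orderOf g = p ^ s * m} ≃ Σ O : 𝒪, (O : Set G) :=
    { toFun := fun g => ⟨⟨co (p * m) g, by rw [h𝒪]; exact ⟨g, g.2, rfl⟩⟩, ⟨g, mem_co _ _⟩⟩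
      invFun := fun z => ⟨z.2, (hmem z.1 z.1.2 z.2 z.2.2).1⟩
      left_inv := fun g => rfl
      right_inv := by
        rintro ⟨⟨O, hO⟩, ⟨y, hy⟩⟩
        have h1 := (hmem O hO y hy).2
        subst h1
        rfl }
  letI : Fintype 𝒪 := Fintype.ofFinite _
  rw [Nat.card_congr e, Nat.card_sigma]
  rw [Finset.sum_congr rfl (g := fun _ => p ^ (s - 1))]
  · rw [Finset.sum_const, smul_eq_mul, Finset.card_univ, Nat.card_eq_fintype_card]
  · rintro ⟨O, hO⟩ _
    rw [h𝒪] at hO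
    obtain ⟨g, hg, rfl⟩ := hO
    exact card_co hp hs hm hg

/-- the conjugation count -/
theorem conj_count [Finite G] {p : ℕ} [hp : Fact p.Prime] {P : Subgroup G} (hP : IsPGroup p P) {p' s m : ℕ} :
    Nat.card {O : Set G | ∃ g, orderOf g = p' ^ s * m ∧ O = co (p' * m) g} ≡
      Nat.card {O : Set G | (∃ g, orderOf g = p' ^ s * m ∧ O = co (p' * m) g) ∧ ∀ x ∈ P, ∀ y ∈ O, x * y * x⁻¹ ∈ O} [MOD p] := by
  classical
  obtain ⟨𝒪, h𝒪⟩ : ∃ 𝒪 : Set (Set G), 𝒪 = {O : Set G | ∃ g, orderOf g = p' ^ s * m ∧ O = co (p' * m) g} := ⟨_, rfl⟩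
  have hmem : ∀ O : Set G, O ∈ 𝒪 ↔ ∃ g, orderOf g = p' ^ s * m ∧ O = co (p' * m) g := fun O => by rw [h𝒪]; rfl
  have hcl : ∀ x : G, ∀ O ∈ 𝒪, {y : G | x⁻¹ * y * x ∈ O} ∈ 𝒪 := by
    intro x O hO
    rw [hmem] at hO ⊢
    obtain ⟨g, hg, rfl⟩ := hO
    refine ⟨x * g * x⁻¹, ?_, ?_⟩
    · rw [show x * g * x⁻¹ = MulAut.conj x g from rfl, MulEquiv.orderOf_eq, hg]
    · ext y
      change g⁻¹ * (x⁻¹ * y * x) ∈ zpowers (g ^ (p' * m)) ↔ (x * g * x⁻¹)⁻¹ * y ∈ zpowers ((x * g * x⁻¹) ^ (p' * m))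
      rw [conj_pow]
      have e1 : (x * g * x⁻¹)⁻¹ * y = x * (g⁻¹ * (x⁻¹ * y * x)) * x⁻¹ := by group
      rw [e1]
      constructor
      · rintro ⟨k, hk⟩
        refine ⟨k, ?_⟩
        change (x * g ^ (p' * m) * x⁻¹) ^ k = _
        rw [conj_zpow]
        have : (g ^ (p' * m)) ^ k = g⁻¹ * (x⁻¹ * y * x) := hk
        rw [this]
      · rintro ⟨k, hk⟩
        refine ⟨k, ?_⟩
        have : (x * g ^ (p' * m) * x⁻¹) ^ k = x * (g⁻¹ * (x⁻¹ * y * x)) * x⁻¹ := hk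
        rw [conj_zpow] at this
        exact mul_left_cancel (mul_right_cancel this)
  letI : MulAction P 𝒪 :=
    { smul := fun x O => ⟨{y : G | (x : G)⁻¹ * y * x ∈ (O : Set G)}, hcl _ _ O.2⟩
      one_smul := by
        intro O
        apply Subtype.ext
        ext y
        change (1 : G)⁻¹ * y * 1 ∈ (O : Set G) ↔ y ∈ (O : Set G)
        rw [inv_one, one_mul, mul_one]
      mul_smul := by
        intro a b O
        apply Subtype.ext
        ext y
        change ((a : G) * b)⁻¹ * y * (a * b) ∈ (O : Set G) ↔ (b : G)⁻¹ * ((a : G)⁻¹ * y * a) * b ∈ (O : Set G)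
        have : ((a : G) * b)⁻¹ * y * (a * b) = (b : G)⁻¹ * ((a : G)⁻¹ * y * a) * b := by group
        rw [this] }
  have h1 := hP.card_modEq_card_fixedPoints (α := 𝒪)
  have e : MulAction.fixedPoints P 𝒪 ≃ {O : Set G | (∃ g, orderOf g = p' ^ s * m ∧ O = co (p' * m) g) ∧ ∀ x ∈ P, ∀ y ∈ O, x * y * x⁻¹ ∈ O} :=
    { toFun := fun O => ⟨(O : 𝒪), (hmem _).mp (O : 𝒪).2, by
        intro x hx y hy
        have h2 : (⟨x, hx⟩ : P) • (O : 𝒪) = O := O.2 ⟨x, hx⟩
        have h3 : {y : G | x⁻¹ * y * x ∈ ((O : 𝒪) : Set G)} = ((O : 𝒪) : Set G) := congrArg Subtype.val h2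
        rw [← h3]
        change x⁻¹ * (x * y * x⁻¹) * x ∈ ((O : 𝒪) : Set G)
        have e1 : x⁻¹ * (x * y * x⁻¹) * x = y := by group
        rw [e1]; exact hy⟩
      invFun := fun O => ⟨⟨O, (hmem _).mpr O.2.1⟩, by
        intro x
        apply Subtype.ext
        ext y
        change (x : G)⁻¹ * y * x ∈ (O : Set G) ↔ y ∈ (O : Set G)
        constructor
        · intro h
          have h2 := O.2.2 x x.2 _ h
          have e1 : (x : G) * ((x : G)⁻¹ * y * x) * (x : G)⁻¹ = y := by group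
          rwa [e1] at h2
        · intro h
          have h2 := O.2.2 (x : G)⁻¹ (inv_mem x.2) _ h
          rwa [inv_inv] at h2⟩
      left_inv := fun O => rfl
      right_inv := fun O => rfl }
  rw [← h𝒪, ← Nat.card_congr e]
  exact h1

/-- the structure of the elements whose piece is invariant under a Sylow subgroup -/
theorem split [Finite G] {p s m : ℕ} [hp : Fact p.Prime] (hs : 1 < s) (hm : Nat.Coprime p m) (P : Sylow p G) {g : G} (hg : orderOf g = p ^ s * m)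
    (hinv : ∀ x ∈ (P : Subgroup G), x * g * x⁻¹ ∈ co (p * m) g) :
    ∃ b k : G, g = b * k ∧ b * k = k * b ∧ b ∈ (P : Subgroup G) ∧ (∀ x ∈ (P : Subgroup G), x * k = k * x) ∧ orderOf b = p ^ s ∧ orderOf k = m := by
  have hm0 : 0 < m := by
    rcases Nat.eq_zero_or_pos m with h | h
    · rw [h, Nat.coprime_zero_right] at hm
      exact absurd hm hp.out.one_lt.ne'
    · exact h
  have hcop : (p ^ s).Coprime m := hm.pow_left s
  obtain ⟨u, v, huv⟩ : ∃ u v : ℤ, u * m + v * (p ^ s : ℕ) = 1 := by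
    have h1 : IsCoprime ((m : ℕ) : ℤ) ((p ^ s : ℕ) : ℤ) := Nat.isCoprime_iff_coprime.mpr hcop.symm
    obtain ⟨u, v, h⟩ := h1
    exact ⟨u, v, h⟩
  obtain ⟨a, ha⟩ : ∃ a, a = g ^ m := ⟨_, rfl⟩
  obtain ⟨h, hh⟩ : ∃ h, h = g ^ p ^ s := ⟨_, rfl⟩
  have hga : g = a ^ u * h ^ v := by
    rw [ha, hh, ← zpow_natCast g m, ← zpow_natCast g (p ^ s), ← zpow_mul, ← zpow_mul, ← zpow_add, mul_comm (m : ℤ), mul_comm ((p ^ s : ℕ) : ℤ), huv, zpow_one]
  have hac : Commute a h := by rw [ha, hh]; exact (Commute.refl g).pow_pow _ _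
  have hap : a ^ p ^ s = 1 := by rw [ha, ← pow_mul, mul_comm, ← hg, pow_orderOf_eq_one]
  have hhm : h ^ m = 1 := by rw [hh, ← pow_mul, ← hg, pow_orderOf_eq_one]
  -- commutation with powers
  have hxg : ∀ x ∈ (P : Subgroup G), ∃ j : ℤ, x * g * x⁻¹ = g * (g ^ (p * m)) ^ j := by
    intro x hx
    obtain ⟨j, hj⟩ := hinv x hx
    refine ⟨j, ?_⟩
    have h1 : (g ^ (p * m)) ^ j = g⁻¹ * (x * g * x⁻¹) := hj
    rw [h1]; group
  have hcg : ∀ j : ℤ, Commute g ((g ^ (p * m)) ^ j) := fun j => ((Commute.refl g).pow_right _).zpow_right j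
  have hPh : ∀ x ∈ (P : Subgroup G), x * h = h * x := by
    intro x hx
    obtain ⟨j, hj⟩ := hxg x hx
    have h1 : x * h * x⁻¹ = h := by
      rw [hh, ← conj_pow, hj, (hcg j).mul_pow]
      have h0 : (g ^ (p * m)) ^ p ^ s = 1 := by
        rw [← pow_mul]
        have : p * m * p ^ s = (p ^ s * m) * p := by ring
        rw [this, pow_mul, ← hg, pow_orderOf_eq_one, one_pow]
      have h2 : ((g ^ (p * m)) ^ j) ^ p ^ s = 1 := by
        rw [← zpow_natCast ((g ^ (p * m)) ^ j) (p ^ s), ← zpow_mul, mul_comm j, zpow_mul, zpow_natCast, h0, one_zpow]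
      rw [h2, mul_one]
    exact mul_inv_eq_iff_eq_mul.mp h1
  have hPa : ∀ x ∈ (P : Subgroup G), x * a * x⁻¹ ∈ zpowers a := by
    intro x hx
    obtain ⟨j, hj⟩ := hxg x hx
    have h1 : x * a * x⁻¹ = a * ((a ^ p) ^ j) ^ m := by
      rw [ha, ← conj_pow, hj, (hcg j).mul_pow, ← pow_mul, mul_comm m p]
    rw [h1]
    exact mul_mem (mem_zpowers a) (pow_mem (zpow_mem (pow_mem (mem_zpowers a) p) j) m)
  -- `a ∈ P`
  have haP : a ∈ (P : Subgroup G) := by
    have hn : (P : Subgroup G) ≤ normalizer (zpowers a : Set G) := by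
      rw [le_normalizer_iff]
      rintro x hx _ ⟨i, rfl⟩
      change x * a ^ i * x⁻¹ ∈ _
      rw [← conj_zpow]
      exact zpow_mem (hPa x hx) i
    have hz : IsPGroup p (zpowers a) := by
      apply IsPGroup.of_card (n := (Nat.card (zpowers a)).factorization p)
      rw [Nat.card_zpowers]
      obtain ⟨i, -, hi⟩ := (Nat.dvd_prime_pow hp.out).mp (_root_.orderOf_dvd_of_pow_eq_one hap)
      rw [hi, hp.out.factorization_pow, Finsupp.single_eq_same]
    have h1 : IsPGroup p ((P : Subgroup G) ⊔ zpowers a : Subgroup G) := IsPGroup.to_sup_of_normal_right' P.isPGroup' hz hn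
    have h2 := P.3 h1 le_sup_left
    rw [← h2]
    exact (le_sup_right : zpowers a ≤ _) (mem_zpowers a)
  have hord : orderOf g = orderOf (a ^ u) * orderOf (h ^ v) := by
    have h1 : Commute (a ^ u) (h ^ v) := hac.zpow_zpow u v
    have h2 : orderOf (a ^ u) ∣ p ^ s := _root_.orderOf_dvd_of_pow_eq_one (by rw [← zpow_natCast, ← zpow_mul, mul_comm, zpow_mul, zpow_natCast, hap, one_zpow])
    have h3 : orderOf (h ^ v) ∣ m := _root_.orderOf_dvd_of_pow_eq_one (by rw [← zpow_natCast, ← zpow_mul, mul_comm, zpow_mul, zpow_natCast, hhm, one_zpow])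
    conv_lhs => rw [hga]
    exact h1.orderOf_mul_eq_mul_orderOf_of_coprime (Nat.Coprime.of_dvd h2 h3 hcop)
  have h2 : orderOf (a ^ u) ∣ p ^ s := _root_.orderOf_dvd_of_pow_eq_one (by rw [← zpow_natCast, ← zpow_mul, mul_comm, zpow_mul, zpow_natCast, hap, one_zpow])
  have h3 : orderOf (h ^ v) ∣ m := _root_.orderOf_dvd_of_pow_eq_one (by rw [← zpow_natCast, ← zpow_mul, mul_comm, zpow_mul, zpow_natCast, hhm, one_zpow])
  have h4 : orderOf (a ^ u) = p ^ s ∧ orderOf (h ^ v) = m := by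
    rw [hg] at hord
    have h5 := Nat.le_of_dvd (Nat.pow_pos hp.out.pos) h2
    have h6 := Nat.le_of_dvd hm0 h3
    have h7 : 0 < p ^ s := Nat.pow_pos hp.out.pos
    constructor
    · by_contra hne
      have h8 : orderOf (a ^ u) < p ^ s := lt_of_le_of_ne h5 hne
      have h9 : orderOf (a ^ u) * orderOf (h ^ v) < p ^ s * m := Nat.mul_lt_mul_of_lt_of_le h8 h6 hm0
      omega
    · by_contra hne
      have h8 : orderOf (h ^ v) < m := lt_of_le_of_ne h6 hne
      have h9 : orderOf (a ^ u) * orderOf (h ^ v) < p ^ s * m := Nat.mul_lt_mul_of_le_of_lt h5 h8 h7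
      omega
  refine ⟨a ^ u, h ^ v, hga, (hac.zpow_zpow u v).eq, zpow_mem haP u, ?_, h4.1, h4.2⟩
  intro x hx
  exact ((show Commute x h from hPh x hx).zpow_right v).eq

/-- translations by elements of `P` -/
theorem translate [Finite G] {p s m : ℕ} [hp : Fact p.Prime] (h2 : p ≠ 2) (hs : 1 < s) (hm : Nat.Coprime p m) (P : Sylow p G) {g : G} (hg : orderOf g = p ^ s * m)
    (hinv : ∀ x ∈ (P : Subgroup G), x * g * x⁻¹ ∈ co (p * m) g) {ε : G} (hεP : ε ∈ (P : Subgroup G)) (hε : ε ^ p = 1)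
    (hcomm : ∀ b ∈ (P : Subgroup G), ∃ c : G, ε * b = b * ε * c ∧ c ^ p = 1 ∧ Commute c b ∧ Commute c ε) :
    orderOf (g * ε) = p ^ s * m ∧ T ε (co (p * m) g) = co (p * m) (g * ε) := by
  obtain ⟨b, k, hgbk, hbk, hbP, hkP, hbo, hko⟩ := split hs hm P hg hinv
  obtain ⟨c, hc, hcp, hcb, hcε⟩ := hcomm b hbP
  have hchoose : p ∣ p.choose 2 := hp.out.dvd_choose_self (by norm_num) (by have := hp.out.two_le; omega)
  have hpow : (b * ε) ^ p = b ^ p := by
    rw [PGrpA.mul_pow_of_comm hc hcb hcε, hε, mul_one]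
    obtain ⟨d, hd⟩ := hchoose
    rw [hd, pow_mul, hcp, one_pow, mul_one]
  have hεk : Commute ε k := hkP ε hεP
  have hbεk : Commute (b * ε) k := Commute.mul_left hbk hεk
  have hge : g * ε = (b * ε) * k := by rw [hgbk, mul_assoc, hεk.symm.eq, mul_assoc]
  have hεbp : Commute ε (b ^ p) := by
    have key : ∀ n : ℕ, ε * b ^ n = b ^ n * ε * c ^ n := by
      intro n
      induction n with
      | zero => simp
      | succ n ih =>
        calc ε * b ^ (n + 1) = (ε * b ^ n) * b := by rw [pow_succ]; group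
          _ = b ^ n * ε * (c ^ n * b) := by rw [ih]; group
          _ = b ^ n * ε * (b * c ^ n) := by rw [(hcb.pow_left n).eq]
          _ = b ^ n * (ε * b) * c ^ n := by group
          _ = b ^ n * (b * ε * c) * c ^ n := by rw [hc]
          _ = _ := by rw [pow_succ b, pow_succ' c]; group
    change ε * b ^ p = b ^ p * ε
    rw [key p, hcp, mul_one]
  have hNg : g ^ (p * m) = b ^ (p * m) := by
    rw [hgbk, (show Commute b k from hbk).mul_pow, mul_comm p m, pow_mul k, ← hko, pow_orderOf_eq_one, one_pow, mul_one]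
  have hNge : (g * ε) ^ (p * m) = g ^ (p * m) := by
    rw [hNg, hge, hbεk.mul_pow, mul_comm p m, pow_mul k, ← hko, pow_orderOf_eq_one, one_pow, mul_one, mul_comm _ p, pow_mul, hpow, ← pow_mul]
  have hεN : Commute ε (g ^ (p * m)) := by
    rw [hNg, pow_mul]; exact hεbp.pow_right m
  refine ⟨?_, ?_⟩
  · have h1 : orderOf (b * ε) = p ^ s := by
      obtain ⟨t, rfl⟩ : ∃ t, s = t + 2 := ⟨s - 2, by omega⟩
      apply orderOf_eq_prime_pow (n := t + 1)
      · rw [pow_succ' p t, pow_mul, hpow, ← pow_mul, ← pow_succ']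
        intro h
        have h3 := _root_.orderOf_dvd_of_pow_eq_one h
        rw [hbo] at h3
        have h4 := (Nat.pow_dvd_pow_iff_le_right hp.out.one_lt).mp h3
        omega
      · rw [pow_succ' p (t + 1), pow_mul, hpow, ← pow_mul, ← pow_succ', ← hbo, pow_orderOf_eq_one]
    rw [hge, hbεk.orderOf_mul_eq_mul_orderOf_of_coprime, h1, hko]
    rw [h1, hko]
    exact hm.pow_left s
  · ext y
    change g⁻¹ * (y * ε⁻¹) ∈ zpowers (g ^ (p * m)) ↔ (g * ε)⁻¹ * y ∈ zpowers ((g * ε) ^ (p * m))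
    rw [hNge]
    have e1 : (g * ε)⁻¹ * y = ε⁻¹ * (g⁻¹ * (y * ε⁻¹)) * ε := by group
    rw [e1]
    constructor
    · rintro ⟨i, hi⟩
      refine ⟨i, ?_⟩
      have h3 : (g ^ (p * m)) ^ i = g⁻¹ * (y * ε⁻¹) := hi
      change (g ^ (p * m)) ^ i = _
      rw [← h3, mul_assoc, ← (hεN.zpow_right i).eq]; group
    · rintro ⟨i, hi⟩
      refine ⟨i, ?_⟩
      have h3 : (g ^ (p * m)) ^ i = ε⁻¹ * (g⁻¹ * (y * ε⁻¹)) * ε := hi
      change (g ^ (p * m)) ^ i = _
      have h4 : g⁻¹ * (y * ε⁻¹) = ε * (g ^ (p * m)) ^ i * ε⁻¹ := by rw [h3]; group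
      rw [h4, (hεN.zpow_right i).eq]; group

/-- the normal elementary abelian subgroup of order `p ^ 2` of a non-cyclic Sylow subgroup -/
theorem exists_ef [Finite G] {p : ℕ} [hp : Fact p.Prime] (h2 : p ≠ 2) (P : Sylow p G) (hnc : ¬ IsCyclic P) :
    ∃ e f : G, e ∈ (P : Subgroup G) ∧ f ∈ (P : Subgroup G) ∧ e ^ p = 1 ∧ f ^ p = 1 ∧ e ≠ 1 ∧ f ∉ zpowers e ∧ (∀ x ∈ (P : Subgroup G), x * e = e * x) ∧
      ∀ x ∈ (P : Subgroup G), ∃ j : ℤ, x * f * x⁻¹ = f * e ^ j := by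
  have hPp : IsPGroup p P := P.isPGroup'
  obtain ⟨A, -, hAn, hAe, hAc⟩ := PGrpE.exists_normal_rank_two h2 hPp (⊤ : Subgroup P) (fun h => hnc (by
    exact (MulEquiv.isCyclic (Subgroup.topEquiv (G := P))).mp h))
  haveI := hAn
  have hA1 : A ≠ ⊥ := by
    intro h
    rw [h, card_bot] at hAc
    have := hp.out.two_le
    nlinarith
  obtain ⟨Z, hZA, hZc, hZ⟩ := PGrpA.exists_normal_card_prime hPp (N := A) hA1
  obtain ⟨e, he⟩ := exists_prime_orderOf_dvd_card' (G := Z) p (by rw [hZ])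
  have hZe : Z = zpowers (e : P) := by
    symm
    apply Subgroup.eq_of_le_of_card_ge (zpowers_le.mpr e.2)
    rw [Nat.card_zpowers, Subgroup.orderOf_coe, he, hZ]
  obtain ⟨f, hfA, hfZ⟩ : ∃ f ∈ A, f ∉ Z := by
    by_contra hcon
    push Not at hcon
    have h1 : A = Z := le_antisymm hcon hZA
    rw [h1, hZ] at hAc
    have := hp.out.two_le
    nlinarith
  have hZn : Z.Normal := ⟨fun n hn g => by
    have h1 := mem_center_iff.mp (hZc hn) g
    rw [h1, mul_inv_cancel_right]; exact hn⟩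
  haveI := hZn
  have hcen : A.map (QuotientGroup.mk' Z) ≤ center (P ⧸ Z) := by
    apply PGrpA.le_center_of_card_eq_prime (p := p) (hPp.to_quotient Z)
    have h1 : Nat.card (A.map (QuotientGroup.mk' Z)) * Nat.card Z = Nat.card A := by
      have h3 := Subgroup.card_eq_card_quotient_mul_card_subgroup (Z.subgroupOf A)
      have h4 : Nat.card (Z.subgroupOf A) = Nat.card Z := Nat.card_congr (subgroupOfEquivOfLe hZA).toEquiv
      rw [h4] at h3
      rw [h3]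
      congr 1
      have h5 := Nat.card_congr (QuotientGroup.quotientKerEquivRange ((QuotientGroup.mk' Z).comp A.subtype)).toEquiv
      have h6 : ((QuotientGroup.mk' Z).comp A.subtype).range = A.map (QuotientGroup.mk' Z) := by
        rw [MonoidHom.range_comp, range_subtype]
      have h7 : ((QuotientGroup.mk' Z).comp A.subtype).ker = Z.subgroupOf A := by
        ext x
        rw [MonoidHom.mem_ker, mem_subgroupOf]
        exact QuotientGroup.eq_one_iff _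
      rw [h6] at h5
      rw [← h5]
      rw [h7]
    rw [hZ, hAc, pow_two] at h1
    exact Nat.eq_of_mul_eq_mul_right hp.out.pos h1
  refine ⟨((e : P) : G), (f : G), (e : P).2, f.2, ?_, ?_, ?_, ?_, ?_, ?_⟩
  · have h1 := pow_orderOf_eq_one (e : P)
    rw [Subgroup.orderOf_coe, he] at h1
    exact congrArg Subtype.val h1
  · exact congrArg Subtype.val (hAe.2 f hfA)
  · intro h1
    have h3 : e = 1 := Subtype.ext (Subtype.ext h1)
    rw [h3, orderOf_one] at he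
    exact hp.out.one_lt.ne he
  · rintro ⟨i, hi⟩
    apply hfZ
    rw [hZe]
    exact ⟨i, Subtype.ext hi⟩
  · intro x hx
    exact congrArg Subtype.val (mem_center_iff.mp (hZc e.2) ⟨x, hx⟩)
  · intro x hx
    have h1 := mem_center_iff.mp (hcen ⟨f, hfA, rfl⟩) (QuotientGroup.mk' Z (⟨x, hx⟩ : P))
    have h3 : f⁻¹ * (⟨x, hx⟩ * f * ⟨x, hx⟩⁻¹) ∈ Z := by
      rw [← QuotientGroup.eq_one_iff]
      change QuotientGroup.mk' Z (f⁻¹ * (⟨x, hx⟩ * f * ⟨x, hx⟩⁻¹)) = 1
      rw [map_mul, map_mul, map_mul, map_inv, map_inv, h1]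
      group
    rw [hZe] at h3
    obtain ⟨j, hj⟩ := h3
    refine ⟨j, ?_⟩
    have h4 : ((e : P) : G) ^ j = (f : G)⁻¹ * (x * f * x⁻¹) := congrArg Subtype.val hj
    rw [h4]; group

/-- invariant pieces -/
def FF (p s m : ℕ) (P : Subgroup G) : Set (Set G) := {O : Set G | (∃ g, orderOf g = p ^ s * m ∧ O = co (p * m) g) ∧ ∀ x ∈ P, ∀ y ∈ O, x * y * x⁻¹ ∈ O}

theorem mem_FF {p s m : ℕ} {P : Subgroup G} {O : Set G} : O ∈ FF p s m P ↔ (∃ g, orderOf g = p ^ s * m ∧ O = co (p * m) g) ∧ ∀ x ∈ P, ∀ y ∈ O, x * y * x⁻¹ ∈ O := Iff.rfl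

/-- the data -/
structure EF (p : ℕ) (P : Subgroup G) (e f : G) : Prop where
  heP : e ∈ P
  hfP : f ∈ P
  hep : e ^ p = 1
  hfp : f ^ p = 1
  he1 : e ≠ 1
  hfe : f ∉ zpowers e
  hec : ∀ x ∈ P, x * e = e * x
  hfc : ∀ x ∈ P, ∃ j : ℤ, x * f * x⁻¹ = f * e ^ j

theorem EF.comm_e {p : ℕ} {P : Subgroup G} {e f : G} (h : EF p P e f) : ∀ b ∈ P, ∃ c : G, e * b = b * e * c ∧ c ^ p = 1 ∧ Commute c b ∧ Commute c e :=
  fun b hb => ⟨1, by rw [mul_one, h.hec b hb], one_pow _, Commute.one_left _, Commute.one_left _⟩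

theorem EF.comm_f {p : ℕ} {P : Subgroup G} {e f : G} (h : EF p P e f) : ∀ b ∈ P, ∃ c : G, f * b = b * f * c ∧ c ^ p = 1 ∧ Commute c b ∧ Commute c f := by
  intro b hb
  obtain ⟨j, hj⟩ := h.hfc b⁻¹ (inv_mem hb)
  refine ⟨e ^ j, ?_, ?_, ?_, ?_⟩
  · rw [inv_inv] at hj
    have h1 : b * (b⁻¹ * f * b) = b * (f * e ^ j) := by rw [hj]
    calc f * b = b * (b⁻¹ * f * b) := by group
      _ = b * (f * e ^ j) := h1
      _ = _ := by group
  · rw [← zpow_natCast (e ^ j) p, ← zpow_mul, mul_comm j, zpow_mul, zpow_natCast, h.hep, one_zpow]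
  · exact ((show Commute e b from (h.hec b hb).symm).zpow_left j)
  · exact ((show Commute e f from (h.hec f h.hfP).symm).zpow_left j)

theorem closed {e : G} (O : Set G) (hO : T e O = O) (j : ℤ) (y : G) (hy : y ∈ O) : y * e ^ j ∈ O := by
  have hup : ∀ z, z ∈ O → z * e ∈ O := by
    intro z hz
    rw [← hO]
    change z * e * e⁻¹ ∈ O
    rw [mul_inv_cancel_right]; exact hz
  have hdn : ∀ z, z ∈ O → z * e⁻¹ ∈ O := by
    intro z hz
    rw [← hO] at hz
    exact hz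
  have hup' : ∀ (n : ℕ) (z : G), z ∈ O → z * e ^ n ∈ O := by
    intro n
    induction n with
    | zero => intro z hz; rw [pow_zero, mul_one]; exact hz
    | succ n ih => intro z hz; rw [pow_succ, ← mul_assoc]; exact hup _ (ih z hz)
  have hdn' : ∀ (n : ℕ) (z : G), z ∈ O → z * (e ^ n)⁻¹ ∈ O := by
    intro n
    induction n with
    | zero => intro z hz; rw [pow_zero, inv_one, mul_one]; exact hz
    | succ n ih => intro z hz; rw [pow_succ', mul_inv_rev, ← mul_assoc]; exact hdn _ (ih z hz)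
  obtain ⟨n, rfl | rfl⟩ := j.eq_nat_or_neg
  · rw [zpow_natCast]; exact hup' n y hy
  · rw [zpow_neg, zpow_natCast]; exact hdn' n y hy

theorem Te_mem [Finite G] {p s m : ℕ} [hp : Fact p.Prime] (h2 : p ≠ 2) (hs : 1 < s) (hm : Nat.Coprime p m) (P : Sylow p G) {e f : G} (h : EF p P e f) :
    ∀ O ∈ FF p s m P, T e O ∈ FF p s m P := by
  intro O hO
  rw [mem_FF] at hO ⊢
  obtain ⟨⟨g, hg, rfl⟩, hinv⟩ := hO
  obtain ⟨h3, h4⟩ := translate h2 hs hm P hg (fun x hx => hinv x hx g (mem_co _ _)) h.heP h.hep h.comm_e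
  refine ⟨⟨_, h3, h4⟩, ?_⟩
  intro x hx y hy
  change x * y * x⁻¹ * e⁻¹ ∈ co (p * m) g
  have h5 := hinv x hx _ (show y * e⁻¹ ∈ co (p * m) g from hy)
  have h6 : x * y * x⁻¹ * e⁻¹ = x * (y * e⁻¹) * x⁻¹ := by
    have h7 : x⁻¹ * e⁻¹ = e⁻¹ * x⁻¹ := by rw [← mul_inv_rev, ← mul_inv_rev, h.hec x hx]
    rw [mul_assoc (x * y), h7]; group
  rw [h6]; exact h5

theorem Tf_mem [Finite G] {p s m : ℕ} [hp : Fact p.Prime] (h2 : p ≠ 2) (hs : 1 < s) (hm : Nat.Coprime p m) (P : Sylow p G) {e f : G} (h : EF p P e f) :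
    ∀ O ∈ {O : Set G | O ∈ FF p s m P ∧ T e O = O}, T f O ∈ {O : Set G | O ∈ FF p s m P ∧ T e O = O} := by
  rintro O ⟨hOF, hOe⟩
  rw [mem_FF] at hOF
  obtain ⟨⟨g, hg, rfl⟩, hinv⟩ := hOF
  obtain ⟨h3, h4⟩ := translate h2 hs hm P hg (fun x hx => hinv x hx g (mem_co _ _)) h.hfP h.hfp h.comm_f
  refine ⟨?_, ?_⟩
  · rw [mem_FF]
    refine ⟨⟨_, h3, h4⟩, ?_⟩
    intro x hx y hy
    change x * y * x⁻¹ * f⁻¹ ∈ co (p * m) g
    have h5 := hinv x hx _ (show y * f⁻¹ ∈ co (p * m) g from hy)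
    obtain ⟨j, hj⟩ := h.hfc x hx
    have h6 := closed _ hOe j _ h5
    have h7 : x * (y * f⁻¹) * x⁻¹ * e ^ j = x * y * x⁻¹ * f⁻¹ := by
      have h8 : x * f⁻¹ * x⁻¹ = (f * e ^ j)⁻¹ := by rw [← hj]; group
      have h9 : Commute (e ^ j) f := (show Commute e f from (h.hec f h.hfP).symm).zpow_left j
      have h10 : x * (y * f⁻¹) * x⁻¹ = x * y * x⁻¹ * (x * f⁻¹ * x⁻¹) := by group
      rw [h10, h8, ← h9.eq, mul_inv_rev, ← mul_assoc, inv_mul_cancel_right]
    rw [← h7]; exact h6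
  · ext y
    change y * e⁻¹ * f⁻¹ ∈ co (p * m) g ↔ y * f⁻¹ ∈ co (p * m) g
    have h5 : y * e⁻¹ * f⁻¹ = y * f⁻¹ * e⁻¹ := by
      rw [mul_assoc, mul_assoc, ← mul_inv_rev, ← mul_inv_rev, h.hec f h.hfP]
    rw [h5]
    have h6 : y * f⁻¹ ∈ T e (co (p * m) g) ↔ y * f⁻¹ ∈ co (p * m) g := by rw [hOe]
    exact h6

theorem no_fixed [Finite G] {p s m : ℕ} [hp : Fact p.Prime] {P : Subgroup G} {e f : G} (h : EF p P e f) :
    {O : Set G | O ∈ {O : Set G | O ∈ FF p s m P ∧ T e O = O} ∧ T f O = O} = ∅ := by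
  rw [Set.eq_empty_iff_forall_notMem]
  rintro O ⟨⟨hOF, hOe⟩, hOf⟩
  rw [mem_FF] at hOF
  obtain ⟨⟨g, hg, rfl⟩, hinv⟩ := hOF
  have h3 : e ∈ zpowers (g ^ (p * m)) := by
    have h4 : g * e ∈ T e (co (p * m) g) := by
      change g * e * e⁻¹ ∈ co (p * m) g
      rw [mul_inv_cancel_right]; exact mem_co _ _
    rw [hOe] at h4
    have h5 : g⁻¹ * (g * e) ∈ zpowers (g ^ (p * m)) := h4
    rwa [inv_mul_cancel_left] at h5
  have h4 : f ∈ zpowers (g ^ (p * m)) := by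
    have h4 : g * f ∈ T f (co (p * m) g) := by
      change g * f * f⁻¹ ∈ co (p * m) g
      rw [mul_inv_cancel_right]; exact mem_co _ _
    rw [hOf] at h4
    have h5 : g⁻¹ * (g * f) ∈ zpowers (g ^ (p * m)) := h4
    rwa [inv_mul_cancel_left] at h5
  apply h.hfe
  have h5 := Cyc.mem_of_pow_card (C := zpowers (g ^ (p * m))) (A := zpowers ⟨e, h3⟩) (x := ⟨f, h4⟩) (by
    have h6 : Nat.card (zpowers (⟨e, h3⟩ : zpowers (g ^ (p * m)))) = p := by
      rw [Nat.card_zpowers, ← Subgroup.orderOf_coe]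
      exact orderOf_eq_prime h.hep h.he1
    rw [h6]; exact Subtype.ext h.hfp)
  obtain ⟨i, hi⟩ := h5
  exact ⟨i, congrArg Subtype.val hi⟩

theorem main_count [Finite G] {p s m : ℕ} [hp : Fact p.Prime] (h2 : p ≠ 2) (hs : 1 < s) (hm : Nat.Coprime p m) (P : Sylow p G) {e f : G} (h : EF p P e f) :
    Nat.card {O : Set G | ∃ g, orderOf g = p ^ s * m ∧ O = co (p * m) g} ≡ 0 [MOD p] := by
  have h1 := conj_count (p := p) (P := (P : Subgroup G)) P.isPGroup' (p' := p) (s := s) (m := m)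
  have h3 := T_count h.hep (FF p s m P) (Te_mem h2 hs hm P h)
  have h4 := T_count h.hfp _ (Tf_mem h2 hs hm P h)
  rw [no_fixed h] at h4
  have h5 : Nat.card (∅ : Set (Set G)) = 0 := by simp
  rw [h5] at h4
  exact h1.trans (h3.trans h4)

theorem main [Finite G] {p s m : ℕ} [hp : Fact p.Prime] (h2 : p ≠ 2) (hs : 1 < s) (hm : Nat.Coprime p m) (P : Sylow p G) (hnc : ¬ IsCyclic P) :
    p ^ s ∣ Nat.card {g : G // orderOf g = p ^ s * m} := by
  have hm0 : 0 < m := by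
    rcases Nat.eq_zero_or_pos m with h | h
    · rw [h, Nat.coprime_zero_right] at hm
      exact absurd hm hp.out.one_lt.ne'
    · exact h
  obtain ⟨e, f, heP, hfP, hep, hfp, he1, hfe, hec, hfc⟩ := exists_ef h2 P hnc
  have h3 := main_count h2 hs hm P ⟨heP, hfP, hep, hfp, he1, hfe, hec, hfc⟩
  rw [Nat.modEq_zero_iff_dvd] at h3
  obtain ⟨k, hk⟩ := h3
  refine ⟨k, ?_⟩
  rw [card_elements hp.out (by omega) hm0, hk]
  obtain ⟨t, ht⟩ : ∃ t, s = t + 1 := ⟨s - 1, by omega⟩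
  rw [ht, Nat.add_sub_cancel, pow_succ]; ring

end Cfsg.Agent.H2.OrdCount
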