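import Cfsg.Agent.Lib.SylRel
import Cfsg.Agent.Lib.Cores
import Cfsg.Agent.Lib.MinAct
import Cfsg.Agent.Lib.PNilp
import Cfsg.Prelude.Def_LocalEven

set_option autoImplicit false
set_option linter.unusedSectionVars false

namespace Cfsg.Agent.H2.PrimPair

open Subgroup Cfsg.Agent.Lib Cfsg.Agent.Lib.SylRel

variable {G : Type*} [Group G] {p : ℕ}

def Loc (p : ℕ) (M : Subgroup G) : Prop := ∃ T : Subgroup G, IsPGroup p T ∧ T ≠ ⊥ ∧ M = normalizer (T : Set G)

def MaxL (p : ℕ) (M : Subgroup G) : Prop := Loc p M ∧ ∀ L : Subgroup G, Loc p L → M ≤ L → L = M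

def Q (p : ℕ) (M : Subgroup G) : Subgroup G := (Cfsg.pCore p M).map M.subtype

theorem Q_le (M : Subgroup G) : Q p M ≤ M := map_subtype_le _

theorem Q_isP (M : Subgroup G) : IsPGroup p (Q p M) := (Cores.pCore_isPGroup p).map _

theorem le_Q {M T : Subgroup G} (hT : T ≤ M) (hM : M ≤ normalizer (T : Set G)) (h : IsPGroup p T) : T ≤ Q p M := by
  have h1 : (T.subgroupOf M).Normal := (normal_subgroupOf_iff_le_normalizer hT).2 hM
  have h2 : T.subgroupOf M ≤ Cfsg.pCore p M := Cores.le_pCore h1 h.comap_subtype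
  rw [← map_subgroupOf_eq_of_le hT]
  exact map_mono h2

theorem normalizer_le_Q {K : Subgroup G} : normalizer (K : Set G) ≤ normalizer (Q p K : Set G) := by
  haveI : (Cfsg.pCore p K).Characteristic := Cores.pCore_characteristic p
  exact MinAct.normalizer_le_normalizer_char (Cfsg.pCore p K)

theorem Loc.Q_ne {M : Subgroup G} (h : Loc p M) : Q p M ≠ ⊥ := by
  obtain ⟨T, hT, hT1, rfl⟩ := h
  intro h0
  exact hT1 (le_bot_iff.1 (h0 ▸ le_Q le_normalizer le_rfl hT))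

theorem MaxL.norm_Q {M : Subgroup G} (h : MaxL p M) : normalizer (Q p M : Set G) = M :=
  h.2 _ ⟨Q p M, Q_isP M, h.1.Q_ne, rfl⟩ (le_normalizer.trans normalizer_le_Q)

theorem MaxL.mem_of_norm {M : Subgroup G} (h : MaxL p M) {g : G} (hg : g ∈ normalizer (M : Set G)) : g ∈ M := by
  have := normalizer_le_Q (p := p) hg
  rwa [h.norm_Q] at this

/-- conjugates -/
theorem map_normalizer (T : Subgroup G) (e : G ≃* G) :
    (normalizer (T : Set G)).map e.toMonoidHom = normalizer ((T.map e.toMonoidHom : Subgroup G) : Set G) := by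
  exact Subgroup.map_equiv_normalizer_eq T e

theorem Loc.conj {M : Subgroup G} (h : Loc p M) (e : G ≃* G) : Loc p (M.map e.toMonoidHom) := by
  obtain ⟨T, hT, hT1, rfl⟩ := h
  refine ⟨T.map e.toMonoidHom, hT.map _, ?_, map_normalizer T e⟩
  intro h0
  exact hT1 ((map_eq_bot_iff_of_injective T e.injective).1 h0)

theorem MaxL.conj {M : Subgroup G} (h : MaxL p M) (e : G ≃* G) : MaxL p (M.map e.toMonoidHom) := by
  refine ⟨h.1.conj e, fun L hL hML => ?_⟩
  have h1 := h.2 (L.map e.symm.toMonoidHom) (hL.conj e.symm) ?_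
  · rw [← h1, Subgroup.map_map]
    have : e.toMonoidHom.comp e.symm.toMonoidHom = MonoidHom.id G := by ext x; simp
    rw [this, Subgroup.map_id]
  · have := Subgroup.map_mono (f := e.symm.toMonoidHom) hML
    rw [Subgroup.map_map] at this
    have h3 : e.symm.toMonoidHom.comp e.toMonoidHom = MonoidHom.id G := by ext x; simp
    rwa [h3, Subgroup.map_id] at this

variable [Finite G] [Fact p.Prime]

theorem exists_max {L : Subgroup G} (hL : Loc p L) : ∃ M, MaxL p M ∧ L ≤ M := by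
  have : {M : Subgroup G | Loc p M ∧ L ≤ M}.Nonempty := ⟨L, hL, le_rfl⟩
  obtain ⟨M, hM⟩ := (Set.toFinite {M : Subgroup G | Loc p M ∧ L ≤ M}).exists_maximal this
  refine ⟨M, ⟨hM.prop.1, fun K hK hMK => ?_⟩, hM.prop.2⟩
  exact le_antisymm (hM.2 ⟨hK, hM.prop.2.trans hMK⟩ hMK) hMK

theorem Loc.cent {M : Subgroup G} (hloc : Cfsg.IsOfLocalCharacteristic p G) (h : Loc p M) :
    centralizer (Cfsg.pCore p M : Set M) ≤ Cfsg.pCore p M := by
  obtain ⟨T, hT, hT1, rfl⟩ := h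
  exact hloc.2 T hT hT1

theorem Loc.cent' {M : Subgroup G} (hloc : Cfsg.IsOfLocalCharacteristic p G) (h : Loc p M) :
    M ⊓ centralizer (Q p M : Set G) ≤ Q p M := by
  intro x hx
  have h1 : (⟨x, hx.1⟩ : M) ∈ centralizer (Cfsg.pCore p M : Set M) := by
    rw [mem_centralizer_iff]
    intro y hy
    apply Subtype.ext
    exact (mem_centralizer_iff.1 hx.2) y ⟨y, hy, rfl⟩
  exact ⟨⟨x, hx.1⟩, h.cent hloc h1, rfl⟩

theorem MaxL.prim {M A : Subgroup G} (hloc : Cfsg.IsOfLocalCharacteristic p G) (h : MaxL p M) (hA1 : A ≠ ⊥)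
    (hAM : A ≤ M) (hMA : M ≤ normalizer (A : Set G)) : normalizer (A : Set G) = M := by
  have h1 : A ⊓ Q p M ≠ ⊥ := by
    intro h0
    have hAc : A ≤ centralizer (Q p M : Set G) := by
      intro a ha
      rw [mem_centralizer_iff]
      intro q hq
      have h2 : q * a * q⁻¹ * a⁻¹ ∈ A ⊓ Q p M := by
        refine ⟨A.mul_mem ((mem_normalizer_iff.1 (hMA (Q_le M hq)) a).1 ha) (A.inv_mem ha), ?_⟩
        have h3 : a ∈ normalizer (Q p M : Set G) := by rw [h.norm_Q]; exact hAM ha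
        have := (Q p M).mul_mem hq ((mem_normalizer_iff.1 h3 q⁻¹).1 ((Q p M).inv_mem hq))
        have e : q * (a * q⁻¹ * a⁻¹) = q * a * q⁻¹ * a⁻¹ := by group
        rwa [e] at this
      rw [h0, mem_bot] at h2
      have e : q * a = (q * a * q⁻¹ * a⁻¹) * (a * q) := by group
      rw [e, h2, one_mul]
    have h2 : A ≤ Q p M := (le_inf hAM hAc).trans (h.1.cent' hloc)
    rw [inf_eq_left.2 h2] at h0
    exact hA1 h0
  have h2 : Q p A ≠ ⊥ := by
    intro h0
    apply h1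
    rw [eq_bot_iff, ← h0]
    apply le_Q inf_le_left
    · intro a ha
      rw [mem_normalizer_iff]
      have h3 : a ∈ normalizer (Q p M : Set G) := by rw [h.norm_Q]; exact hAM ha
      intro x
      constructor
      · rintro ⟨h4, h5⟩
        exact ⟨A.mul_mem (A.mul_mem ha h4) (A.inv_mem ha), (mem_normalizer_iff.1 h3 x).1 h5⟩
      · rintro ⟨h4, h5⟩
        refine ⟨?_, (mem_normalizer_iff.1 h3 x).2 h5⟩
        have := A.mul_mem (A.mul_mem (A.inv_mem ha) h4) ha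
        have e : a⁻¹ * (a * x * a⁻¹) * a = x := by group
        rwa [e] at this
    · exact (Q_isP M).to_le inf_le_right
  have h3 := h.2 (normalizer (Q p A : Set G)) ⟨Q p A, Q_isP A, h2, rfl⟩ (hMA.trans normalizer_le_Q)
  exact le_antisymm (h3 ▸ normalizer_le_Q) hMA

theorem contains {T H : Subgroup G} (h : SylIn p T H) : Q p H ≤ T := by
  obtain ⟨R, hR⟩ := (sylIn_iff h.le).1 h
  have h1 : Cfsg.pCore p H ≤ T.subgroupOf H := by rw [← hR]; exact Cores.pCore_le_sylow R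
  have h2 := Subgroup.map_mono (f := H.subtype) h1
  rwa [map_subgroupOf_eq_of_le h.le] at h2

theorem sylIn_conj {T H : Subgroup G} (h : SylIn p T H) (g : G) :
    SylIn p (T.map (MulAut.conj g).toMonoidHom) (H.map (MulAut.conj g).toMonoidHom) := by
  obtain ⟨R, hR, hTR⟩ := exists_sylIn (p := p) (Subgroup.map_mono (f := (MulAut.conj g).toMonoidHom) h.le) (h.isPGroup.map _)
  have h1 : R.map (MulAut.conj g⁻¹).toMonoidHom ≤ H := by
    rw [map_conj_le]
    intro x hx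
    obtain ⟨y, hy, e⟩ := hR.le hx
    have : g⁻¹ * x * g⁻¹⁻¹ = y := by
      rw [← e]
      show g⁻¹ * (g * y * g⁻¹) * g⁻¹⁻¹ = y
      group
    rw [this]; exact hy
  have h2 := h.card_le h1 (hR.isPGroup.map _)
  rw [card_map_conj] at h2
  exact hR.of_card (Subgroup.map_mono h.le) (h.isPGroup.map _) (by rwa [card_map_conj])

/-- the key step -/
theorem step {M1 M2 S : Subgroup G} (h1 : MaxL p M1) (h2 : MaxL p M2) (hne : M1 ≠ M2)
    (hS : SylIn p S (M1 ⊓ M2)) (hS1 : S ≠ ⊥)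
    (hmax : ∀ L1 L2 T : Subgroup G, MaxL p L1 → MaxL p L2 → L1 ≠ L2 → SylIn p T (L1 ⊓ L2) → Nat.card T ≤ Nat.card S)
    (hQ : ¬ Q p M1 ≤ M2) : ∃ M3, MaxL p M3 ∧ M3 ≠ M2 ∧ Q p M2 ≤ M3 ∧ Q p M3 ≤ M2 := by
  obtain ⟨S1, hS1M, hSS1⟩ := exists_sylIn (p := p) (hS.le.trans inf_le_left) hS.isPGroup
  have hSlt : S < S1 := by
    refine lt_of_le_of_ne hSS1 ?_
    rintro rfl
    exact hQ ((contains hS1M).trans (hS.le.trans inf_le_right))
  have hnil : Group.IsNilpotent S1 := hS1M.isPGroup.isNilpotent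
  have h3 := PNilp.lt_inf_normalizer hnil hSlt
  have hcard : ∀ A B : Subgroup G, A < B → Nat.card A < Nat.card B := by
    intro A B hAB
    exact Set.ncard_lt_ncard hAB (Set.toFinite _)
  -- normalizer S in M1
  have hNS : normalizer (S : Set G) ≤ M1 := by
    obtain ⟨L, hL, hSL⟩ := exists_max (p := p) ⟨S, hS.isPGroup, hS1, rfl⟩
    by_cases hLM : M1 = L
    · rw [hLM]; exact hSL
    exfalso
    obtain ⟨R, hR, hR1⟩ := exists_sylIn (p := p) (X := S1 ⊓ normalizer (S : Set G)) (H := M1 ⊓ L)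
      (le_inf (inf_le_left.trans hS1M.le) (inf_le_right.trans hSL)) (hS1M.isPGroup.to_le inf_le_left)
    have := hmax M1 L R h1 hL hLM hR
    have h4 := hcard _ _ (h3.trans_le hR1)
    omega
  obtain ⟨S2, hS2M, hSS2⟩ := exists_sylIn (p := p) (hS.le.trans inf_le_right) hS.isPGroup
  have hS2 : S = S2 := by
    by_contra hne2
    have hlt : S < S2 := lt_of_le_of_ne hSS2 hne2
    have hnil2 : Group.IsNilpotent S2 := hS2M.isPGroup.isNilpotent
    have h4 := PNilp.lt_inf_normalizer hnil2 hlt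
    have h5 := hS.card_le (X := S2 ⊓ normalizer (S : Set G)) (le_inf (inf_le_right.trans hNS) (inf_le_left.trans hS2M.le))
      (hS2M.isPGroup.to_le inf_le_left)
    have h6 := hcard _ _ h4
    omega
  rw [← hS2] at hS2M
  obtain ⟨x, hx, hxS⟩ := SetLike.exists_of_lt h3
  have hxM2 : x ∉ M2 := by
    intro hx2
    have h4 := hS.card_le (X := S1 ⊓ M2) (inf_le_inf_right _ hS1M.le) (hS1M.isPGroup.to_le inf_le_left)
    have h5 : S ≤ S1 ⊓ M2 := le_inf hSS1 hS2M.le
    have h6 : S = S1 ⊓ M2 := Subgroup.eq_of_le_of_card_ge h5 h4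
    apply hxS
    rw [h6]
    exact ⟨hx.1, hx2⟩
  have hSx : S.map (MulAut.conj x).toMonoidHom = S := by
    apply Subgroup.eq_of_le_of_card_ge
    · rw [map_conj_le]
      intro y hy
      exact (mem_normalizer_iff.1 hx.2 y).1 hy
    · rw [card_map_conj]
  have h4 := sylIn_conj hS2M x
  rw [hSx] at h4
  refine ⟨M2.map (MulAut.conj x).toMonoidHom, h2.conj (MulAut.conj x), ?_, (contains hS2M).trans h4.le,
    (contains h4).trans hS2M.le⟩
  intro heq
  apply hxM2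
  apply h2.mem_of_norm
  rw [mem_normalizer_iff]
  intro y
  constructor
  · intro hy
    have : x * y * x⁻¹ ∈ M2.map (MulAut.conj x).toMonoidHom := ⟨y, hy, rfl⟩
    rwa [heq] at this
  · intro hy
    rw [← heq] at hy
    obtain ⟨z, hz, e⟩ := hy
    have : x * z * x⁻¹ = x * y * x⁻¹ := e
    have : z = y := by simpa using this
    rwa [← this]

theorem exists_pair {M1 M2 : Subgroup G} (h1 : MaxL p M1) (h2 : MaxL p M2) (hne : M1 ≠ M2)
    (hp : p ∣ Nat.card ↥(M1 ⊓ M2)) :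
    ∃ L1 L2 : Subgroup G, MaxL p L1 ∧ MaxL p L2 ∧ L1 ≠ L2 ∧ Q p L1 ≤ L2 ∧ Q p L2 ≤ L1 := by
  classical
  let P : ℕ → Prop := fun n => ∃ M1 M2 S : Subgroup G, MaxL p M1 ∧ MaxL p M2 ∧ M1 ≠ M2 ∧ SylIn p S (M1 ⊓ M2) ∧ Nat.card S = n
  obtain ⟨S, hS, -⟩ := exists_sylIn (p := p) (X := ⊥) (H := M1 ⊓ M2) bot_le IsPGroup.of_bot
  have hP : P (Nat.card S) := ⟨M1, M2, S, h1, h2, hne, hS, rfl⟩
  have hb : ∀ n, P n → n ≤ Nat.card G := by
    rintro n ⟨_, _, T, -, -, -, -, rfl⟩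
    exact Subgroup.card_le_card_group T
  have hPf := Nat.findGreatest_spec (P := P) (hb _ hP) hP
  obtain ⟨A, B, T, hA, hB, hAB, hT, hTc⟩ := hPf
  have hTmax : ∀ L1 L2 T' : Subgroup G, MaxL p L1 → MaxL p L2 → L1 ≠ L2 → SylIn p T' (L1 ⊓ L2) → Nat.card T' ≤ Nat.card T := by
    intro L1 L2 T' hL1 hL2 hL hT'
    have h3 : P (Nat.card T') := ⟨L1, L2, T', hL1, hL2, hL, hT', rfl⟩
    rw [hTc]
    exact Nat.le_findGreatest (hb _ h3) h3
  have hT1 : T ≠ ⊥ := by
    rintro rfl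
    have h3 := hTmax M1 M2 S h1 h2 hne hS
    rw [Subgroup.card_bot] at h3
    have h4 : Nat.card S = 1 := le_antisymm h3 Nat.card_pos
    have h5 := hS.not_dvd
    have h6 := relIndex_mul_card' hS.le
    rw [h4, mul_one] at h6
    rw [h6] at h5
    exact h5 hp
  by_cases hq1 : Q p A ≤ B
  · by_cases hq2 : Q p B ≤ A
    · exact ⟨A, B, hA, hB, hAB, hq1, hq2⟩
    · obtain ⟨M3, h3, h4, h5, h6⟩ := step hB hA hAB.symm (by rwa [inf_comm]) hT1 hTmax hq2
      exact ⟨M3, A, h3, hA, h4, h6, h5⟩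
  · obtain ⟨M3, h3, h4, h5, h6⟩ := step hA hB hAB hT hT1 hTmax hq1
    exact ⟨M3, B, h3, hB, h4, h6, h5⟩

end Cfsg.Agent.H2.PrimPair
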