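import Mathlib
import Cfsg.Agent.H2.PUtil
import Cfsg.Prelude.Def_OddOrderLocal

/-! The Puig series, relative to a subgroup. -/

set_option autoImplicit false
set_option linter.unusedSectionVars false

namespace Cfsg.Agent.H2.Puig

open Subgroup

variable {G : Type*} [Group G]

def st (S X : Subgroup G) : Subgroup G :=
  sSup {A : Subgroup G | A ≤ S ∧ (∀ x ∈ A, ∀ y ∈ A, x * y = y * x) ∧ X ≤ normalizer (A : Set G)}

def sq (S : Subgroup G) : ℕ → Subgroup G
  | 0 => ⊥
  | n + 1 => st S (sq S n)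

def hi (S : Subgroup G) : Subgroup G := ⨅ n : ℕ, sq S (2 * n + 1)
def lo (S : Subgroup G) : Subgroup G := ⨆ n : ℕ, sq S (2 * n)

variable {S X Y : Subgroup G}

theorem st_le (S X : Subgroup G) : st S X ≤ S := sSup_le fun _ h => h.1

theorem le_st {A : Subgroup G} (h1 : A ≤ S) (h2 : ∀ x ∈ A, ∀ y ∈ A, x * y = y * x) (h3 : X ≤ normalizer (A : Set G)) :
    A ≤ st S X := le_sSup ⟨h1, h2, h3⟩

theorem st_anti (h : X ≤ Y) : st S Y ≤ st S X := sSup_le fun _ hA => le_st hA.1 hA.2.1 (h.trans hA.2.2)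

theorem sq_le (S : Subgroup G) (n : ℕ) : sq S n ≤ S := by
  cases n with
  | zero => exact bot_le
  | succ n => exact st_le _ _

theorem sq_succ (S : Subgroup G) (n : ℕ) : sq S (n + 1) = st S (sq S n) := rfl

theorem sq_one (S : Subgroup G) : sq S 1 = S := by
  apply le_antisymm (sq_le S 1)
  intro x hx
  refine le_st (zpowers_le.2 hx) ?_ bot_le (mem_zpowers x)
  intro a ha b hb
  obtain ⟨i, rfl⟩ := mem_zpowers_iff.1 ha
  obtain ⟨j, rfl⟩ := mem_zpowers_iff.1 hb
  rw [← zpow_add, ← zpow_add, add_comm]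

theorem chain (S : Subgroup G) (n : ℕ) : sq S (2 * n) ≤ sq S (2 * n + 2) ∧ sq S (2 * n + 3) ≤ sq S (2 * n + 1) ∧
    sq S (2 * n) ≤ sq S (2 * n + 1) := by
  induction n with
  | zero =>
    refine ⟨bot_le, ?_, bot_le⟩
    rw [show 2 * 0 + 1 = 1 from rfl, sq_one]
    exact sq_le _ _
  | succ n ih =>
    obtain ⟨h1, h2, h3⟩ := ih
    have e2 : sq S (2 * (n + 1)) = st S (sq S (2 * n + 1)) := rfl
    have e3 : sq S (2 * (n + 1) + 1) = st S (sq S (2 * (n + 1))) := rfl
    have e4 : sq S (2 * (n + 1) + 2) = st S (sq S (2 * n + 3)) := rfl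
    have e5 : sq S (2 * (n + 1) + 3) = st S (sq S (2 * (n + 1) + 2)) := rfl
    have k1 : sq S (2 * (n + 1)) ≤ sq S (2 * (n + 1) + 2) := by
      rw [e2, e4]; exact st_anti h2
    have k2 : sq S (2 * (n + 1)) ≤ sq S (2 * n + 1) := by
      rw [e2]
      exact st_anti h3
    refine ⟨k1, ?_, ?_⟩
    · rw [e5, e3]; exact st_anti k1
    · rw [e3]
      conv_lhs => rw [e2]
      exact st_anti k2

theorem mono_even (S : Subgroup G) : Monotone (fun n => sq S (2 * n)) :=
  monotone_nat_of_le_succ fun n => (chain S n).1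

theorem anti_odd (S : Subgroup G) : Antitone (fun n => sq S (2 * n + 1)) :=
  antitone_nat_of_succ_le fun n => (chain S n).2.1

theorem even_le_odd (S : Subgroup G) (n m : ℕ) : sq S (2 * n) ≤ sq S (2 * m + 1) :=
  (mono_even S (le_max_left n m)).trans ((chain S (max n m)).2.2.trans (anti_odd S (le_max_right n m)))

theorem lo_le_hi (S : Subgroup G) : lo S ≤ hi S :=
  iSup_le fun n => le_iInf fun m => even_le_odd S n m

theorem hi_le (S : Subgroup G) : hi S ≤ S := (iInf_le _ 0).trans (sq_le S 1)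

theorem stab [Finite G] (S : Subgroup G) : ∃ k : ℕ, ∀ n, k ≤ n → sq S (2 * n) = lo S ∧ sq S (2 * n + 1) = hi S := by
  obtain ⟨k, hk⟩ := WellFoundedGT.monotone_chain_condition (⟨fun n => sq S (2 * n), mono_even S⟩ : ℕ →o Subgroup G)
  have hk' : ∀ m, k ≤ m → sq S (2 * k) = sq S (2 * m) := hk
  have h1 : sq S (2 * k) = lo S := by
    apply le_antisymm (le_iSup (fun n => sq S (2 * n)) k)
    apply iSup_le
    intro n
    rw [hk' (max n k) (le_max_right _ _)]
    exact mono_even S (le_max_left _ _)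
  have h2 : ∀ m, k ≤ m → sq S (2 * m + 1) = sq S (2 * k + 1) := by
    intro m hm
    show st S (sq S (2 * m)) = st S (sq S (2 * k))
    rw [hk' m hm]
  have h3 : sq S (2 * k + 1) = hi S := by
    apply le_antisymm
    · apply le_iInf
      intro n
      rw [← h2 (max n k) (le_max_right _ _)]
      exact anti_odd S (le_max_left _ _)
    · exact iInf_le (fun n => sq S (2 * n + 1)) k
  refine ⟨k, fun n hn => ⟨by rw [← hk' n hn, h1], by rw [h2 n hn, h3]⟩⟩

theorem st_lo [Finite G] (S : Subgroup G) : st S (lo S) = hi S := by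
  obtain ⟨k, hk⟩ := stab S
  obtain ⟨h1, h2⟩ := hk k le_rfl
  rw [← h1, ← h2]; rfl

theorem st_hi [Finite G] (S : Subgroup G) : st S (hi S) = lo S := by
  obtain ⟨k, hk⟩ := stab S
  obtain ⟨h1, h2⟩ := hk k le_rfl
  obtain ⟨h3, h4⟩ := hk (k + 1) (Nat.le_succ k)
  rw [← h3, ← h2]; rfl

/-- images under homomorphisms injective on `S` -/
theorem st_map {H : Type*} [Group H] {f : G →* H} (hXS : X ≤ S) (hf : ∀ x ∈ S, f x = 1 → x = 1) :
    (st S X).map f = st (S.map f) (X.map f) := by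
  apply le_antisymm
  · rw [map_le_iff_le_comap]
    refine sSup_le fun A hA => ?_
    rw [← map_le_iff_le_comap]
    refine le_st (Subgroup.map_mono hA.1) ?_ ((Subgroup.map_mono hA.2.2).trans (le_normalizer_map f))
    rintro _ ⟨x, hx, rfl⟩ _ ⟨y, hy, rfl⟩
    rw [← map_mul, hA.2.1 x hx y hy, map_mul]
  · refine sSup_le fun B hB => ?_
    have hBm : (B.comap f ⊓ S).map f = B := by
      apply le_antisymm
      · rintro _ ⟨x, hx, rfl⟩; exact hx.1
      · intro y hy
        obtain ⟨x, hx, rfl⟩ := hB.1 hy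
        exact ⟨x, ⟨hy, hx⟩, rfl⟩
    rw [← hBm]
    apply Subgroup.map_mono
    refine le_st inf_le_right ?_ ?_
    · rintro x ⟨hx1, hx2⟩ y ⟨hy1, hy2⟩
      have h1 : f (x * y * x⁻¹ * y⁻¹) = 1 := by
        rw [map_mul, map_mul, map_mul, map_inv, map_inv, hB.2.1 (f x) hx1 (f y) hy1]; group
      have h2 := hf _ (S.mul_mem (S.mul_mem (S.mul_mem hx2 hy2) (S.inv_mem hx2)) (S.inv_mem hy2)) h1
      exact mul_inv_eq_iff_eq_mul.1 (mul_inv_eq_one.1 h2)
    · intro x hx
      have key : ∀ x ∈ X, ∀ a ∈ B.comap f ⊓ S, x * a * x⁻¹ ∈ B.comap f ⊓ S := by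
        rintro x hx a ⟨ha1, ha2⟩
        refine ⟨?_, S.mul_mem (S.mul_mem (hXS hx) ha2) (S.inv_mem (hXS hx))⟩
        show f (x * a * x⁻¹) ∈ B
        rw [map_mul, map_mul, map_inv]
        exact (mem_normalizer_iff.1 (hB.2.2 ⟨x, hx, rfl⟩) (f a)).1 ha1
      rw [mem_normalizer_iff]
      intro a
      refine ⟨key x hx a, fun h => ?_⟩
      have := key x⁻¹ (X.inv_mem hx) _ h
      have e : x⁻¹ * (x * a * x⁻¹) * x⁻¹⁻¹ = a := by group
      rwa [e] at this

theorem sq_map {H : Type*} [Group H] {f : G →* H} (hf : ∀ x ∈ S, f x = 1 → x = 1) (n : ℕ) :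
    (sq S n).map f = sq (S.map f) n := by
  induction n with
  | zero => exact Subgroup.map_bot f
  | succ n ih => rw [sq_succ, sq_succ, st_map (sq_le S n) hf, ih]

theorem hilo_map [Finite G] {H : Type*} [Group H] [Finite H] {f : G →* H} (hf : ∀ x ∈ S, f x = 1 → x = 1) :
    (hi S).map f = hi (S.map f) ∧ (lo S).map f = lo (S.map f) := by
  obtain ⟨k, hk⟩ := stab S
  obtain ⟨l, hl⟩ := stab (S.map f)
  obtain ⟨h1, h2⟩ := hk (max k l) (le_max_left _ _)
  obtain ⟨h3, h4⟩ := hl (max k l) (le_max_right _ _)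
  rw [← h1, ← h2, ← h3, ← h4, sq_map hf, sq_map hf]
  exact ⟨rfl, rfl⟩

/-- invariance under conjugation -/
theorem norm_sq [Finite G] {g : G} (hg : g ∈ normalizer (S : Set G)) (n : ℕ) : g ∈ normalizer (sq S n : Set G) := by
  have hS : S.map (MulAut.conj g).toMonoidHom = S := by
    apply Subgroup.eq_of_le_of_card_ge
    · rintro _ ⟨x, hx, rfl⟩
      exact (mem_normalizer_iff.1 hg x).1 hx
    · exact (Nat.card_congr (S.equivMapOfInjective _ (MulAut.conj g).injective).symm.toEquiv).ge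
  have h := sq_map (S := S) (f := (MulAut.conj g).toMonoidHom)
    (fun x _ hx => (MulAut.conj g).injective (by rw [map_one]; exact hx)) n
  rw [hS] at h
  rw [mem_normalizer_iff]
  intro x
  constructor
  · intro hx
    have : g * x * g⁻¹ ∈ (sq S n).map (MulAut.conj g).toMonoidHom := ⟨x, hx, rfl⟩
    rwa [h] at this
  · intro hx
    rw [← h] at hx
    obtain ⟨z, hz, e⟩ := hx
    have e' : g * z * g⁻¹ = g * x * g⁻¹ := e
    have : z = x := by simpa using e'
    rwa [← this]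

theorem norm_hi [Finite G] {g : G} (hg : g ∈ normalizer (S : Set G)) : g ∈ normalizer (hi S : Set G) := by
  obtain ⟨k, hk⟩ := stab S
  rw [← (hk k le_rfl).2]; exact norm_sq hg _

theorem norm_lo [Finite G] {g : G} (hg : g ∈ normalizer (S : Set G)) : g ∈ normalizer (lo S : Set G) := by
  obtain ⟨k, hk⟩ := stab S
  rw [← (hk k le_rfl).1]; exact norm_sq hg _

/-- comparison with the definitions -/
theorem puigStep_eq (X : Subgroup G) : Cfsg.puigStep X = st ⊤ X := by
  unfold Cfsg.puigStep st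
  congr 1
  ext A
  constructor
  · rintro ⟨h1, h2⟩
    exact ⟨le_top, fun x hx y hy => congrArg Subtype.val (h1.is_comm.comm (⟨x, hx⟩ : A) ⟨y, hy⟩), h2⟩
  · rintro ⟨-, h1, h2⟩
    exact ⟨⟨⟨fun a b => Subtype.ext (h1 a a.2 b b.2)⟩⟩, h2⟩

theorem puigSeq_eq (n : ℕ) : Cfsg.puigSeq G n = sq ⊤ n := by
  induction n with
  | zero => rfl
  | succ n ih =>
    show Cfsg.puigStep (Cfsg.puigSeq G n) = _
    rw [ih, puigStep_eq]; rfl

theorem puigSubgroup_eq : Cfsg.puigSubgroup G = hi ⊤ := by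
  unfold Cfsg.puigSubgroup hi
  congr 1
  ext n
  rw [puigSeq_eq]

theorem puigLower_eq : Cfsg.puigLower G = lo ⊤ := by
  unfold Cfsg.puigLower lo
  congr 1
  ext n
  rw [puigSeq_eq]

theorem map_puig [Finite G] (S : Subgroup G) :
    (Cfsg.puigSubgroup S).map S.subtype = hi S ∧ (Cfsg.puigLower S).map S.subtype = lo S := by
  have h := hilo_map (S := (⊤ : Subgroup S)) (f := S.subtype) (fun x _ hx => S.subtype_injective (by rw [hx, map_one]))
  rw [← MonoidHom.range_eq_map, Subgroup.range_subtype] at h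
  rw [puigSubgroup_eq, puigLower_eq]
  exact h

/-- self-centralizing -/
theorem self_cent [Finite G] {p : ℕ} [Fact p.Prime] (hS : IsPGroup p S) :
    ∃ A : Subgroup G, A ≤ S ∧ (∀ x ∈ A, ∀ y ∈ A, x * y = y * x) ∧ S ≤ normalizer (A : Set G) ∧
      S ⊓ centralizer (A : Set G) ≤ A := by
  haveI : Group.IsNilpotent S := hS.isNilpotent
  obtain ⟨N, hN1, hN2, hN3⟩ := PUtil.exists_max_abelian_normal (G := S)
  have hc := Lib.Nilp.centralizer_eq_of_maximal_abelian_normal N hN2 hN3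
  have hN2' := PUtil.isMulCommutative_iff.1 hN2
  refine ⟨N.map S.subtype, map_subtype_le _, ?_, ?_, ?_⟩
  · rintro _ ⟨x, hx, rfl⟩ _ ⟨y, hy, rfl⟩
    exact congrArg Subtype.val (hN2' x hx y hy)
  · intro s hs
    have h1 := le_normalizer_map (H := N) S.subtype
    rw [Subgroup.normalizer_eq_top_iff.2 hN1] at h1
    exact h1 ⟨⟨s, hs⟩, trivial, rfl⟩
  · rintro x ⟨hx1, hx2⟩
    have h1 : (⟨x, hx1⟩ : S) ∈ centralizer (N : Set S) := by
      rw [mem_centralizer_iff]
      intro y hy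
      exact Subtype.ext (mem_centralizer_iff.1 hx2 y ⟨y, hy, rfl⟩)
    rw [hc] at h1
    exact ⟨⟨x, hx1⟩, h1, rfl⟩

theorem cent_st [Finite G] {p : ℕ} [Fact p.Prime] (hS : IsPGroup p S) (hX : X ≤ S) :
    S ⊓ centralizer (st S X : Set G) ≤ st S X := by
  obtain ⟨A, h1, h2, h3, h4⟩ := self_cent hS
  have h5 : A ≤ st S X := le_st h1 h2 (hX.trans h3)
  exact (inf_le_inf_left _ (centralizer_le h5)).trans (h4.trans h5)

theorem cent_hi [Finite G] {p : ℕ} [Fact p.Prime] (hS : IsPGroup p S) : S ⊓ centralizer (hi S : Set G) ≤ hi S := by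
  rw [← st_lo]; exact cent_st hS ((lo_le_hi S).trans (hi_le S))

theorem cent_lo [Finite G] {p : ℕ} [Fact p.Prime] (hS : IsPGroup p S) : S ⊓ centralizer (lo S : Set G) ≤ lo S := by
  rw [← st_hi]; exact cent_st hS (hi_le S)

/-- `L(R) = L(S)` if `L(S) ≤ R ≤ S` -/
theorem hi_eq [Finite G] {R : Subgroup G} (hRS : R ≤ S) (h : hi S ≤ R) : hi R = hi S := by
  have key1 : ∀ n, sq S (2 * n) ≤ sq R (2 * n) ∧ sq R (2 * n + 1) ≤ sq S (2 * n + 1) := by
    intro n
    induction n with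
    | zero => exact ⟨bot_le, by rw [show 2 * 0 + 1 = 1 from rfl, sq_one, sq_one]; exact hRS⟩
    | succ n ih =>
      have h1 : sq S (2 * (n + 1)) ≤ sq R (2 * (n + 1)) := by
        show st S (sq S (2 * n + 1)) ≤ st R (sq R (2 * n + 1))
        refine sSup_le fun A hA => ?_
        refine le_st ?_ hA.2.1 (ih.2.trans hA.2.2)
        refine le_trans ?_ h
        have h2 : A ≤ sq S (2 * (n + 1)) := le_sSup hA
        exact h2.trans ((le_iSup (fun n => sq S (2 * n)) (n + 1)).trans (lo_le_hi S))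
      refine ⟨h1, ?_⟩
      show st R (sq R (2 * (n + 1))) ≤ st S (sq S (2 * (n + 1)))
      exact sSup_le fun A hA => le_st (hA.1.trans hRS) hA.2.1 (h1.trans hA.2.2)
  have key2 : ∀ n, sq R (2 * n) ≤ lo S ∧ hi S ≤ sq R (2 * n + 1) := by
    intro n
    induction n with
    | zero => exact ⟨bot_le, by rw [show 2 * 0 + 1 = 1 from rfl, sq_one]; exact h⟩
    | succ n ih =>
      have h1 : sq R (2 * (n + 1)) ≤ lo S := by
        rw [← st_hi]
        show st R (sq R (2 * n + 1)) ≤ _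
        exact sSup_le fun A hA => le_st (hA.1.trans hRS) hA.2.1 (ih.2.trans hA.2.2)
      refine ⟨h1, ?_⟩
      show hi S ≤ st R (sq R (2 * (n + 1)))
      rw [← st_lo]
      refine sSup_le fun A hA => ?_
      refine le_st ?_ hA.2.1 (h1.trans hA.2.2)
      refine le_trans ?_ h
      rw [← st_lo]
      exact le_sSup hA
  exact le_antisymm (iInf_mono fun n => (key1 n).2) (le_iInf fun n => (key2 n).2)

end Cfsg.Agent.H2.Puig
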