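import Cfsg.Agent.H2.Puig
import Cfsg.Agent.H2.OddStabB
import Cfsg.Agent.S1465
import Cfsg.Agent.Lib.SylRel

/-! Puig's theorem for solvable groups of odd order. -/

set_option autoImplicit false
set_option linter.unusedSectionVars false

namespace Cfsg.Agent.H2.PuigB

open Subgroup Cfsg.Agent.Lib Cfsg.Agent.H2.Puig Cfsg.Agent.H2.OddStab Cfsg.Agent.H2.OddStabB

variable {G : Type*} [Group G] [Finite G] {p : ℕ} [Fact p.Prime]

theorem ismc {A : Subgroup G} (h : ∀ x ∈ A, ∀ y ∈ A, x * y = y * x) : IsMulCommutative A :=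
  ⟨⟨fun a b => Subtype.ext (h a a.2 b b.2)⟩⟩

theorem normal_norm {T : Subgroup G} [hT : T.Normal] (g : G) : g ∈ normalizer (T : Set G) := by
  rw [Subgroup.normalizer_eq_top_iff.2 hT]; trivial

theorem lem3 [Group.IsSolvable G] (hodd : Odd (Nat.card G)) (hp : p ≠ 2) (hO : Cfsg.pPrimeCore p G = ⊥) (S : Sylow p G) (n : ℕ) :
    sq (S : Subgroup G) (2 * n) ≤ sq (Cfsg.pCore p G) (2 * n) ∧
      sq (Cfsg.pCore p G) (2 * n + 1) ≤ sq (S : Subgroup G) (2 * n + 1) := by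
  haveI hTn : (Cfsg.pCore p G).Normal := Cores.pCore_normal p
  have hTS : Cfsg.pCore p G ≤ (S : Subgroup G) := Cores.pCore_le_sylow S
  have hTp : IsPGroup p (Cfsg.pCore p G) := Cores.pCore_isPGroup p
  induction n with
  | zero => exact ⟨bot_le, by rw [show 2 * 0 + 1 = 1 from rfl, sq_one, sq_one]; exact hTS⟩
  | succ n ih =>
    have h1 : sq (S : Subgroup G) (2 * (n + 1)) ≤ sq (Cfsg.pCore p G) (2 * (n + 1)) := by
      show st S (sq S (2 * n + 1)) ≤ st (Cfsg.pCore p G) (sq (Cfsg.pCore p G) (2 * n + 1))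
      haveI hPn : (sq (Cfsg.pCore p G) (2 * n + 1)).Normal := by
        rw [← Subgroup.normalizer_eq_top_iff, eq_top_iff]
        intro g _
        exact norm_sq (normal_norm g) _
      have h2 := (Cfsg.Agent.S1465.result hodd p hp (sq (Cfsg.pCore p G) (2 * n + 1)) (hTp.to_le (sq_le _ _))
        {A : Subgroup G | A ≤ (S : Subgroup G) ∧ (∀ x ∈ A, ∀ y ∈ A, x * y = y * x) ∧ sq S (2 * n + 1) ≤ normalizer (A : Set G)}
        (fun B hB => ⟨ismc hB.2.1, S.2.to_le hB.1, ih.2.trans hB.2.2⟩)).2 hO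
        (cent_st (S := Cfsg.pCore p G) (X := sq (Cfsg.pCore p G) (2 * n)) hTp (sq_le _ _))
      refine sSup_le fun A hA => le_st ?_ hA.2.1 (ih.2.trans hA.2.2)
      exact le_trans (le_sSup hA) h2
    refine ⟨h1, ?_⟩
    show st (Cfsg.pCore p G) (sq (Cfsg.pCore p G) (2 * (n + 1))) ≤ st S (sq S (2 * (n + 1)))
    exact sSup_le fun A hA => le_st (hA.1.trans hTS) hA.2.1 (h1.trans hA.2.2)

theorem lem3' [Group.IsSolvable G] (hodd : Odd (Nat.card G)) (hp : p ≠ 2) (hO : Cfsg.pPrimeCore p G = ⊥) (S : Sylow p G) :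
    lo (S : Subgroup G) ≤ lo (Cfsg.pCore p G) ∧ hi (Cfsg.pCore p G) ≤ hi (S : Subgroup G) :=
  ⟨iSup_mono fun n => (lem3 hodd hp hO S n).1, iInf_mono fun n => (lem3 hodd hp hO S n).2⟩

/-- `Z(L(S))` -/
def Zp (S : Subgroup G) : Subgroup G := hi S ⊓ centralizer (hi S : Set G)

theorem Zp_norm {S : Subgroup G} {g : G} (hg : g ∈ normalizer (S : Set G)) : g ∈ normalizer (Zp S : Set G) := by
  have h1 := norm_hi hg
  have key : ∀ g ∈ normalizer (hi S : Set G), ∀ x ∈ Zp S, g * x * g⁻¹ ∈ Zp S := by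
    rintro g hg x ⟨hx1, hx2⟩
    refine ⟨(mem_normalizer_iff.1 hg x).1 hx1, ?_⟩
    show g * x * g⁻¹ ∈ centralizer _
    rw [mem_centralizer_iff]
    intro y hy
    have h2 : g⁻¹ * y * g⁻¹⁻¹ ∈ hi S := (mem_normalizer_iff.1 (inv_mem hg) y).1 hy
    have h3 := mem_centralizer_iff.1 hx2 _ h2
    calc y * (g * x * g⁻¹) = g * (g⁻¹ * y * g⁻¹⁻¹ * x) * g⁻¹ := by group
      _ = g * (x * (g⁻¹ * y * g⁻¹⁻¹)) * g⁻¹ := by rw [h3]
      _ = _ := by group
  rw [mem_normalizer_iff]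
  intro x
  refine ⟨key g h1 x, fun h => ?_⟩
  have := key g⁻¹ (inv_mem h1) _ h
  have e : g⁻¹ * (g * x * g⁻¹) * g⁻¹⁻¹ = x := by group
  rwa [e] at this

/-- Puig's theorem, reduced case -/
theorem puig_normal [Group.IsSolvable G] (hodd : Odd (Nat.card G)) (hp : p ≠ 2) (hO : Cfsg.pPrimeCore p G = ⊥) (S : Sylow p G) :
    (Zp (S : Subgroup G)).Normal := by
  classical
  haveI hTn : (Cfsg.pCore p G).Normal := Cores.pCore_normal p
  have hTS : Cfsg.pCore p G ≤ (S : Subgroup G) := Cores.pCore_le_sylow S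
  have hTp : IsPGroup p (Cfsg.pCore p G) := Cores.pCore_isPGroup p
  obtain ⟨hlo, hhi⟩ := lem3' hodd hp hO S
  -- `Y = Z(L_*(T))`
  let Y : Subgroup G := lo (Cfsg.pCore p G) ⊓ centralizer (lo (Cfsg.pCore p G) : Set G)
  haveI hlon : (lo (Cfsg.pCore p G)).Normal := by
    rw [← Subgroup.normalizer_eq_top_iff, eq_top_iff]
    intro g _
    exact norm_lo (normal_norm g)
  haveI hYn : Y.Normal := inferInstance
  have hYT : Y ≤ Cfsg.pCore p G := inf_le_left.trans ((lo_le_hi _).trans (hi_le _))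
  have hYp : IsPGroup p Y := hTp.to_le hYT
  -- `Z(L(S)) ≤ T`
  have hZT : Zp (S : Subgroup G) ≤ Cfsg.pCore p G := by
    apply mem_core inferInstance hO hp hodd
    · intro x hx y hy
      exact (mem_centralizer_iff.1 hx.2 y hy.1).symm
    · intro t ht
      exact Zp_norm (le_normalizer (hTS ht))
  have hZY : Zp (S : Subgroup G) ≤ Y := by
    intro z hz
    have h1 : z ∈ centralizer (lo (Cfsg.pCore p G) : Set G) :=
      (centralizer_le ((lo_le_hi (Cfsg.pCore p G)).trans hhi)) hz.2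
    exact ⟨cent_lo hTp ⟨hZT hz, h1⟩, h1⟩
  -- `Y ≤ L_*(S)`
  have hYlo : Y ≤ lo (S : Subgroup G) := by
    intro y hy
    apply cent_lo S.2
    exact ⟨hTS (hYT hy), (centralizer_le hlo) hy.2⟩
  have hCn : (centralizer (Y : Set G)).Normal := inferInstance
  -- the preimage of `O_p(G / C(Y))`
  let G₀ : Subgroup G := (Cfsg.pCore p (G ⧸ centralizer (Y : Set G))).comap (QuotientGroup.mk' (centralizer (Y : Set G)))
  have hG₀n : G₀.Normal := (Cores.pCore_normal p).comap _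
  have hhiG₀ : hi (S : Subgroup G) ≤ G₀ := by
    have h2 := (Cfsg.Agent.S1465.result hodd p hp Y hYp
      {A : Subgroup G | A ≤ (S : Subgroup G) ∧ (∀ x ∈ A, ∀ y ∈ A, x * y = y * x) ∧ lo (S : Subgroup G) ≤ normalizer (A : Set G)}
      (fun B hB => ⟨ismc hB.2.1, S.2.to_le hB.1, hYlo.trans hB.2.2⟩)).1
    rw [Subgroup.map_le_iff_le_comap] at h2
    rw [← st_lo]
    exact h2
  let R : Subgroup G := (S : Subgroup G) ⊓ G₀
  have hR : hi R = hi (S : Subgroup G) := hi_eq inf_le_left (le_inf (hi_le _) hhiG₀)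
  -- `G₀ = C(Y) R`
  have hG₀ : G₀ ≤ centralizer (Y : Set G) ⊔ R := by
    have h1 := QuadB.le_sup_sylow (p := p) (C := centralizer (Y : Set G)) (D := G₀) ZJ.le_comap_pCore ZJ.relIndex_comap_pCore S
    exact h1
  rw [← Subgroup.normalizer_eq_top_iff, eq_top_iff]
  intro g _
  -- Frattini
  have hRs : SylRel.SylIn p R G₀ := (SylRel.sylIn_of_sylow S).inf_normal le_top (by
    rw [Subgroup.normalizer_eq_top_iff.2 hG₀n])
  obtain ⟨d, hd, hdg⟩ := hRs.frattini (g := g) (fun x hx => hG₀n.conj_mem x hx g)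
  have h3 : d * g ∈ normalizer (R : Set G) := PUtil.mem_normalizer_of_conj_mem hdg
  have h4 : d * g ∈ normalizer (Zp (S : Subgroup G) : Set G) := by
    have := Zp_norm h3
    unfold Zp at this ⊢
    rwa [hR] at this
  have h5 : G₀ ≤ normalizer (Zp (S : Subgroup G) : Set G) := by
    refine hG₀.trans (sup_le ?_ ?_)
    · exact (centralizer_le hZY).trans (centralizer_le_normalizer _)
    · intro x hx
      exact Zp_norm (le_normalizer hx.1)
  have h6 := mul_mem (inv_mem (h5 hd)) h4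
  rwa [inv_mul_cancel_left] at h6

end Cfsg.Agent.H2.PuigB
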