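import Cfsg.Agent.H2.NarrowAct
import Cfsg.Agent.Lib.RankTwoC
import Cfsg.Prelude
import Mathlib

/-! `p`-groups of rank two, `p > 3`, which are not metacyclic. -/

set_option autoImplicit false

namespace Cfsg.Agent.H2.RankTwoP

open Subgroup Cfsg.Agent.Lib Cfsg.Agent.H2
open scoped commutatorElement

universe u

/-- non-abelian groups of order `p³` -/
theorem cube_center {P : Type*} [Group P] [Finite P] {p : ℕ} [Fact p.Prime] (hc : Nat.card P = p ^ 3) {x y : P} (hxy : x * y ≠ y * x) :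
    Nat.card (center P) = p ∧ (∀ a b : P, ⁅a, b⁆ ∈ center P) ∧ closure {x, y} = (⊤ : Subgroup P) := by
  have hpp : p.Prime := Fact.out
  have hP : IsPGroup p P := IsPGroup.of_card hc
  obtain ⟨k, hk0, hk⟩ := IsPGroup.card_center_eq_prime_pow hc (by norm_num)
  have hk3 : k ≤ 3 := by
    have h1 := Subgroup.card_subgroup_dvd_card (center P)
    rw [hk, hc] at h1
    exact (Nat.pow_dvd_pow_iff_le_right hpp.one_lt).1 h1
  have hq : Nat.card (P ⧸ center P) * p ^ k = p ^ 3 := by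
    have := (center P).card_eq_card_quotient_mul_card_subgroup
    rw [hc, hk] at this
    exact this.symm
  have hk1 : k = 1 := by
    by_contra hne
    have hle : Nat.card (P ⧸ center P) ≤ p := by
      have h1 : Nat.card (P ⧸ center P) * p ^ 2 ≤ p * p ^ 2 := by
        calc _ ≤ Nat.card (P ⧸ center P) * p ^ k := Nat.mul_le_mul_left _ (Nat.pow_le_pow_right hpp.pos (by omega))
          _ = p ^ 3 := hq
          _ = p * p ^ 2 := by ring
      exact Nat.le_of_mul_le_mul_right h1 (pow_pos hpp.pos 2)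
    have hcyc : IsCyclic (P ⧸ center P) := TwoDim.cyc_of_card (hP.to_quotient _) hle
    apply hxy
    exact commutative_of_cyclic_center_quotient (QuotientGroup.mk' (center P)) (by rw [QuotientGroup.ker_mk']) x y
  rw [hk1, pow_one] at hk hq
  have hq2 : Nat.card (P ⧸ center P) = p ^ 2 := by
    have h1 : Nat.card (P ⧸ center P) * p = p ^ 2 * p := by rw [hq]; ring
    exact Nat.eq_of_mul_eq_mul_right hpp.pos h1
  refine ⟨hk, fun a b => ?_, ?_⟩
  · have h1 := IsPGroup.commutative_of_card_eq_prime_sq hq2 (a : P ⧸ center P) (b : P ⧸ center P)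
    rw [← QuotientGroup.eq_one_iff]
    show ⁅(a : P ⧸ center P), (b : P ⧸ center P)⁆ = 1
    rw [_root_.commutatorElement_eq_one_iff_mul_comm]
    exact h1
  · by_contra hne
    obtain ⟨j, hj⟩ := IsPGroup.iff_card.1 (hP.to_subgroup (closure {x, y}))
    have h1 := Subgroup.card_subgroup_dvd_card (closure {x, y} : Subgroup P)
    rw [hj, hc] at h1
    have h2 := (Nat.pow_dvd_pow_iff_le_right hpp.one_lt).1 h1
    have hj3 : j ≠ 3 := by
      rintro rfl
      apply hne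
      rw [← Subgroup.card_eq_iff_eq_top, hj, hc]
    have hx : x ∈ closure {x, y} := Subgroup.subset_closure (by simp)
    have hy : y ∈ closure {x, y} := Subgroup.subset_closure (by simp)
    apply hxy
    have hcomm : ∀ a b : (closure {x, y} : Subgroup P), a * b = b * a := by
      rcases (show j ≤ 1 ∨ j = 2 by omega) with h3 | h3
      · have hcyc : IsCyclic (closure {x, y} : Subgroup P) := TwoDim.cyc_of_card (hP.to_subgroup _) (by
          rw [hj]
          calc p ^ j ≤ p ^ 1 := Nat.pow_le_pow_right hpp.pos h3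
            _ = p := pow_one p)
        exact (IsCyclic.commGroup (α := (closure {x, y} : Subgroup P))).mul_comm
      · rw [h3] at hj
        exact IsPGroup.commutative_of_card_eq_prime_sq hj
    exact congrArg Subtype.val (hcomm ⟨x, hx⟩ ⟨y, hy⟩)

variable {R : Type u} [Group R] [Finite R] {p : ℕ} [Fact p.Prime]

/-- invariance under all automorphisms -/
def AI (N : Subgroup R) : Prop := ∀ ψ : MulAut R, ∀ x ∈ N, ψ x ∈ N

theorem AI.normal {N : Subgroup R} (h : AI N) : N.Normal := ⟨fun x hx g => h (MulAut.conj g) x hx⟩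

theorem AI.inf {N M : Subgroup R} (h : AI N) (h' : AI M) : AI (N ⊓ M) := fun ψ x hx => ⟨h ψ x hx.1, h' ψ x hx.2⟩

theorem AI.centralizer {N : Subgroup R} (h : AI N) : AI (centralizer (N : Set R)) := by
  intro ψ x hx
  rw [mem_centralizer_iff] at hx ⊢
  intro y hy
  have h1 := hx _ (h ψ⁻¹ y hy)
  have h2 := congrArg ψ h1
  rw [map_mul, map_mul] at h2
  have h3 : ψ (ψ⁻¹ y) = y := by rw [← MulAut.mul_apply, mul_inv_cancel, MulAut.one_apply]
  rw [h3] at h2
  exact h2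

/-- `Ω₁` -/
def O1 (p : ℕ) (R : Type u) [Group R] : Subgroup R := closure {x : R | x ^ p = 1}

structure Hyp (p : ℕ) (R : Type u) [Group R] : Prop where
  h3 : 3 < p
  hR : IsPGroup p R
  hr : Cfsg.PRankLE p 2 R
  hnm : ¬ Cfsg.IsMetacyclic R

theorem rk {k : ℕ} (hr : Cfsg.PRankLE p k R) (E : Subgroup R) (hE : Cfsg.IsElementaryAbelian p E) : Nat.card E ≤ p ^ k := hr E hE.1 hE.2

theorem mem_O1 (h : Hyp p R) {x : R} : x ∈ O1 p R ↔ x ^ p = 1 :=
  ⟨fun hx => RankTwo.omega_exp h.h3 h.hR (fun E hE => rk h.hr E hE) hx, fun hx => Subgroup.subset_closure hx⟩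

theorem ai_O1 (h : Hyp p R) : AI (O1 p R) := by
  intro ψ x hx
  rw [mem_O1 h] at hx ⊢
  rw [← map_pow, hx, map_one]

theorem card_O1 (h : Hyp p R) : Nat.card (O1 p R) = p ^ 3 := by
  have hpp : p.Prime := Fact.out
  have h1 := TwoDimB.card_le_cube' h.hR h.hr (O1 p R) (fun x hx => (mem_O1 h).1 hx)
  obtain ⟨k, hk⟩ := IsPGroup.iff_card.1 (h.hR.to_subgroup (O1 p R))
  rw [hk] at h1
  have h2 := (Nat.pow_le_pow_iff_right hpp.one_lt).1 h1
  have h3 : k = 3 := by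
    by_contra hne
    apply h.hnm
    apply RankTwoC.metacyclic h.h3 (Nat.card R) R le_rfl h.hR
    show Nat.card (O1 p R) ≤ p ^ 2
    rw [hk]
    exact Nat.pow_le_pow_right hpp.pos (by omega)
  rw [hk, h3]

theorem O1_nc (h : Hyp p R) : ∃ x ∈ O1 p R, ∃ y ∈ O1 p R, x * y ≠ y * x := by
  by_contra hcon
  push Not at hcon
  have h1 := h.hr (O1 p R) (PUtil.isMulCommutative_iff.2 hcon) (fun x hx => (mem_O1 h).1 hx)
  rw [card_O1 h] at h1
  have := (Nat.pow_le_pow_iff_right (Fact.out : p.Prime).one_lt).1 h1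
  omega

/-- the centre of `Ω₁` -/
def Z1 (p : ℕ) (R : Type u) [Group R] : Subgroup R := (center (O1 p R)).map (O1 p R).subtype

theorem mem_Z1 {x : R} : x ∈ Z1 p R ↔ x ∈ O1 p R ∧ ∀ y ∈ O1 p R, y * x = x * y := by
  constructor
  · rintro ⟨z, hz, rfl⟩
    exact ⟨z.2, fun y hy => congrArg Subtype.val (mem_center_iff.1 hz ⟨y, hy⟩)⟩
  · rintro ⟨h1, h2⟩
    exact ⟨⟨x, h1⟩, mem_center_iff.2 (fun g => Subtype.ext (h2 g g.2)), rfl⟩

theorem card_Z1 (h : Hyp p R) : Nat.card (Z1 p R) = p := by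
  obtain ⟨x, hx, y, hy, hxy⟩ := O1_nc h
  have h1 := (cube_center (card_O1 h) (x := ⟨x, hx⟩) (y := ⟨y, hy⟩) (fun e => hxy (congrArg Subtype.val e))).1
  exact (Nat.card_congr ((center (O1 p R)).equivMapOfInjective _ (O1 p R).subtype_injective).symm.toEquiv).trans h1

theorem comm_Z1 (h : Hyp p R) {a b : R} (ha : a ∈ O1 p R) (hb : b ∈ O1 p R) : ⁅a, b⁆ ∈ Z1 p R := by
  obtain ⟨x, hx, y, hy, hxy⟩ := O1_nc h
  have h1 := (cube_center (card_O1 h) (x := ⟨x, hx⟩) (y := ⟨y, hy⟩) (fun e => hxy (congrArg Subtype.val e))).2.1 ⟨a, ha⟩ ⟨b, hb⟩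
  exact ⟨_, h1, rfl⟩

theorem ai_Z1 (h : Hyp p R) : AI (Z1 p R) := by
  intro ψ x hx
  rw [mem_Z1] at hx ⊢
  refine ⟨ai_O1 h ψ x hx.1, fun y hy => ?_⟩
  have h1 := hx.2 _ (ai_O1 h ψ⁻¹ y hy)
  have h2 := congrArg ψ h1
  rw [map_mul, map_mul] at h2
  have h3 : ψ (ψ⁻¹ y) = y := by rw [← MulAut.mul_apply, mul_inv_cancel, MulAut.one_apply]
  rw [h3] at h2
  exact h2

theorem Z1_center (h : Hyp p R) : Z1 p R ≤ center R := by
  haveI := (ai_Z1 h).normal
  exact PGrpA.le_center_of_card_eq_prime h.hR (card_Z1 h)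

/-- elements inducing inner automorphisms on `Ω₁` -/
def K0 (p : ℕ) (R : Type u) [Group R] : Set R := {g | ∀ x ∈ O1 p R, ⁅g, x⁆ ∈ Z1 p R}

theorem mem_pow {z w : R} (h : Hyp p R) (hz : z ∈ Z1 p R) (hz1 : z ≠ 1) (hw : w ∈ Z1 p R) : ∃ n : ℕ, w = z ^ n := by
  have hpp : p.Prime := Fact.out
  have h1 : zpowers z = Z1 p R := by
    apply Subgroup.eq_of_le_of_card_ge (zpowers_le.2 hz)
    rw [card_Z1 h, Nat.card_zpowers]
    have h2 : z ^ p = 1 := (mem_O1 h).1 (mem_Z1.1 hz).1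
    exact (orderOf_eq_prime h2 hz1).ge
  rw [← h1] at hw
  obtain ⟨n, hn⟩ := (mem_powers_iff_mem_zpowers (x := z) (y := w)).2 hw
  exact ⟨n, hn.symm⟩

/-- (P1) -/
theorem K0_le (h : Hyp p R) {g : R} (hg : g ∈ K0 p R) : g ∈ O1 p R ⊔ centralizer (O1 p R : Set R) := by
  obtain ⟨x, hx, y, hy, hxy⟩ := O1_nc h
  have hcl := (cube_center (card_O1 h) (x := ⟨x, hx⟩) (y := ⟨y, hy⟩) (fun e => hxy (congrArg Subtype.val e)))
  have hC2 : PGrpA.Class2 (O1 p R) := fun a b => hcl.2.1 a b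
  set X : O1 p R := ⟨x, hx⟩ with hX
  set Y : O1 p R := ⟨y, hy⟩ with hY
  have hz1 : ⁅x, y⁆ ≠ 1 := fun e => hxy (_root_.commutatorElement_eq_one_iff_mul_comm.1 e)
  obtain ⟨i, hi⟩ := mem_pow h (comm_Z1 h hx hy) hz1 (inv_mem (hg x hx))
  obtain ⟨j, hj⟩ := mem_pow h (comm_Z1 h hx hy) hz1 (hg y hy)
  -- the inner element
  have e1 : ⁅X ^ j * Y ^ i, X⁆ = (⁅X, Y⁆ ^ i)⁻¹ := by
    rw [hC2.mul_left, hC2.pow_left, hC2.pow_left, commutatorElement_self, one_pow, one_mul,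
      ← _root_.commutatorElement_inv X Y, inv_pow]
  have e2 : ⁅X ^ j * Y ^ i, Y⁆ = ⁅X, Y⁆ ^ j := by
    rw [hC2.mul_left, hC2.pow_left, hC2.pow_left, commutatorElement_self, one_pow, mul_one]
  have f1 : ⁅x ^ j * y ^ i, x⁆ = ⁅g, x⁆ := by
    have h1 : ⁅x ^ j * y ^ i, x⁆ = (⁅x, y⁆ ^ i)⁻¹ := congrArg Subtype.val e1
    rw [h1, ← hi, inv_inv]
  have f2 : ⁅x ^ j * y ^ i, y⁆ = ⁅g, y⁆ := by
    have h1 : ⁅x ^ j * y ^ i, y⁆ = ⁅x, y⁆ ^ j := congrArg Subtype.val e2
    rw [h1, ← hj]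
  have g1 := NarrowAct.comm_eq_iff.1 f1
  have g2 := NarrowAct.comm_eq_iff.1 f2
  have hs : x ^ j * y ^ i ∈ O1 p R := mul_mem (pow_mem hx j) (pow_mem hy i)
  have hc : (x ^ j * y ^ i)⁻¹ * g ∈ centralizer (O1 p R : Set R) := by
    rw [mem_centralizer_iff]
    intro w hw
    have h2 : (⊤ : Subgroup (O1 p R)) ≤ (centralizer {(x ^ j * y ^ i)⁻¹ * g}).comap (O1 p R).subtype := by
      rw [← hcl.2.2, closure_le]
      rintro _ (rfl | rfl)
      · exact mem_centralizer_singleton_iff.2 (mem_centralizer_singleton_iff.1 g1).symm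
      · exact mem_centralizer_singleton_iff.2 (mem_centralizer_singleton_iff.1 g2).symm
    have h3 := h2 (mem_top (⟨w, hw⟩ : O1 p R))
    exact mem_centralizer_singleton_iff.1 h3
  have e : g = (x ^ j * y ^ i) * ((x ^ j * y ^ i)⁻¹ * g) := by group
  rw [e]
  exact mul_mem_sup hs hc

/-- the canonical subgroup of order `p²` -/
def EE (p : ℕ) (R : Type u) [Group R] [(Z1 p R).Normal] : Subgroup R := O1 p R ⊓ (center (R ⧸ Z1 p R)).comap (QuotientGroup.mk' (Z1 p R))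

theorem mem_EE [hn : (Z1 p R).Normal] {x : R} : x ∈ EE p R ↔ x ∈ O1 p R ∧ ∀ g : R, ⁅x, g⁆ ∈ Z1 p R := by
  show x ∈ O1 p R ∧ (x : R ⧸ Z1 p R) ∈ center (R ⧸ Z1 p R) ↔ _
  refine and_congr Iff.rfl ?_
  rw [mem_center_iff]
  constructor
  · intro h r
    have h1 := h (r : R ⧸ Z1 p R)
    rw [← QuotientGroup.eq_one_iff]
    show ⁅(x : R ⧸ Z1 p R), (r : R ⧸ Z1 p R)⁆ = 1
    rw [_root_.commutatorElement_eq_one_iff_mul_comm]
    exact h1.symm
  · intro h g
    obtain ⟨r, rfl⟩ := QuotientGroup.mk_surjective g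
    have h1 := (QuotientGroup.eq_one_iff _).2 (h r)
    have h2 : ⁅(x : R ⧸ Z1 p R), (r : R ⧸ Z1 p R)⁆ = 1 := h1
    rw [_root_.commutatorElement_eq_one_iff_mul_comm] at h2
    exact h2.symm

theorem ai_EE (h : Hyp p R) [hn : (Z1 p R).Normal] : AI (EE p R) := by
  intro ψ x hx
  rw [mem_EE] at hx ⊢
  refine ⟨ai_O1 h ψ x hx.1, fun g => ?_⟩
  have h1 := ai_Z1 h ψ _ (hx.2 (ψ⁻¹ g))
  rw [map_commutatorElement] at h1
  have h3 : ψ (ψ⁻¹ g) = g := by rw [← MulAut.mul_apply, mul_inv_cancel, MulAut.one_apply]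
  rwa [h3] at h1

theorem card_EE (h : Hyp p R) [hn : (Z1 p R).Normal] (hK : ∃ g, g ∉ K0 p R) : Nat.card (EE p R) = p ^ 2 := by
  have hpp : p.Prime := Fact.out
  haveI hnil : Group.IsNilpotent R := h.hR.isNilpotent
  haveI := (ai_O1 h).normal
  have hle : EE p R ≤ O1 p R := inf_le_left
  have hne : EE p R ≠ O1 p R := by
    intro he
    obtain ⟨g, hg⟩ := hK
    apply hg
    intro x hx
    rw [← he] at hx
    have h1 := inv_mem ((mem_EE.1 hx).2 g)
    rwa [_root_.commutatorElement_inv] at h1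
  have hlt : Z1 p R < O1 p R := by
    refine lt_of_le_of_ne (fun x hx => (mem_Z1.1 hx).1) ?_
    intro he
    have h1 := card_Z1 h
    rw [he, card_O1 h] at h1
    have h2 : p ^ 3 = p ^ 1 := by rw [h1, pow_one]
    have := Nat.pow_right_injective hpp.two_le h2
    omega
  obtain ⟨M, hM1, hM2, hM3, -, hM5⟩ := NarrowAct.next hlt (MonoidHom.id (MulAut R)) (ai_Z1 h) (ai_O1 h)
  have hME : M ≤ EE p R := fun m hm => mem_EE.2 ⟨hM3 hm, fun g => hM5 m hm g⟩
  obtain ⟨i, hi⟩ := IsPGroup.iff_card.1 (h.hR.to_subgroup (EE p R))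
  have h1 : i < 3 := by
    have h2 := Subgroup.card_dvd_of_le hle
    rw [hi, card_O1 h] at h2
    have h3 := (Nat.pow_dvd_pow_iff_le_right hpp.one_lt).1 h2
    rcases h3.lt_or_eq with h4 | h4
    · exact h4
    · exfalso
      apply hne
      apply Subgroup.eq_of_le_of_card_ge hle
      rw [hi, card_O1 h, h4]
  have h2 : 1 < i := by
    by_contra hcon
    have h3 : EE p R = Z1 p R := by
      symm
      apply Subgroup.eq_of_le_of_card_ge (hM2.le.trans hME)
      rw [hi, card_Z1 h]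
      calc p ^ i ≤ p ^ 1 := Nat.pow_le_pow_right hpp.pos (by omega)
        _ = p := pow_one p
    rw [h3] at hME
    exact hM2.not_ge hME
  have : i = 2 := by omega
  rw [hi, this]

end Cfsg.Agent.H2.RankTwoP
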