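import Cfsg.Agent.H2.RankTwoP
import Cfsg.Prelude
import Mathlib

/-! Automorphisms of `p`-groups of rank two, `p > 3`, which are not metacyclic: weights. -/

set_option autoImplicit false

namespace Cfsg.Agent.H2.RankTwoPB

open Subgroup Cfsg.Agent.Lib Cfsg.Agent.H2 Cfsg.Agent.H2.RankTwoP
open scoped commutatorElement

universe u

variable {R : Type u} [Group R] [Finite R] {p : ℕ} [Fact p.Prime]

/-- weights on sections of order dividing `p` -/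
theorem weight (hR : IsPGroup p R) {N H : Subgroup R} (hN : AI N) (hH : AI H) (hc : N.relIndex H ≤ p) (ψ : MulAut R) :
    ∃ n : ℤ, ∀ x ∈ H, (x ^ n)⁻¹ * ψ x ∈ N := by
  haveI := hN.normal
  haveI hNn' : (N.subgroupOf H).Normal := inferInstance
  let φ := MonoidHom.id (MulAut R)
  have hHi : ∀ x, ∀ m ∈ H, φ x m ∈ H := fun x m hm => hH x m hm
  have hNi' : ∀ x, ∀ e ∈ N.subgroupOf H, MaschkeAb.restr φ H hHi x e ∈ N.subgroupOf H := fun x e he => hN x e he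
  let Ψ := MaschkeAb.quot (MaschkeAb.restr φ H hHi) (N.subgroupOf H) hNi' ψ
  have hcyc : IsCyclic (H ⧸ N.subgroupOf H) := TwoDim.cyc_of_card ((hR.to_subgroup H).to_quotient _) (by
    rw [← Subgroup.index_eq_card]; exact hc)
  obtain ⟨n, hn⟩ := MonoidHom.map_cyclic Ψ.toMonoidHom
  refine ⟨n, fun x hx => ?_⟩
  have h1 := hn ((⟨x, hx⟩ : H) : H ⧸ N.subgroupOf H)
  have h2 : ((⟨ψ x, hH ψ x hx⟩ : H) : H ⧸ N.subgroupOf H) = ((⟨x, hx⟩ ^ n : H) : H ⧸ N.subgroupOf H) := by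
    rw [QuotientGroup.mk_zpow]; exact h1
  have h3 := QuotientGroup.eq.1 h2.symm
  exact h3

/-- elements whose coprime power lies in a subgroup -/
theorem dvd_of_zpow_mem {N : Subgroup R} {x : R} (hx : x ∉ N) (hxp : x ^ p ∈ N) {n : ℤ} (hn : x ^ n ∈ N) : (p : ℤ) ∣ n := by
  have hpp : p.Prime := Fact.out
  by_contra hd
  have h1 : IsCoprime (p : ℤ) n := (Nat.prime_iff_prime_int.1 hpp).coprime_iff_not_dvd.2 hd
  obtain ⟨a, b, hab⟩ := h1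
  apply hx
  have h2 : x = (x ^ p) ^ a * (x ^ n) ^ b := by
    rw [← zpow_natCast, ← zpow_mul, ← zpow_mul, ← zpow_add, mul_comm (p : ℤ), mul_comm n, hab, zpow_one]
  rw [h2]
  exact mul_mem (zpow_mem hxp a) (zpow_mem hn b)

/-- pairing lemma -/
theorem pair {X : Type*} [Group X] {g r k e : X} (hc1 : ⁅g, r⁆ * g = g * ⁅g, r⁆) (hc2 : ⁅g, r⁆ * r = r * ⁅g, r⁆)
    (hkr : k * r = r * k) (hke : k * e = e * k) (heg : e * g = g * e) (i j : ℤ) :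
    ⁅g ^ i * k, r ^ j * e⁆ = ⁅g, r⁆ ^ (i * j) := by
  have c1 : Commute k (r ^ j) := (show Commute k r from hkr).zpow_right j
  have c2 : Commute k e := hke
  have c3 : Commute e (g ^ i) := (show Commute e g from heg).zpow_right i
  have h1 : ⁅g ^ i * k, r ^ j * e⁆ = ⁅g ^ i, r ^ j⁆ := by
    rw [_root_.commutatorElement_def, _root_.commutatorElement_def, mul_inv_rev, mul_inv_rev]
    calc g ^ i * k * (r ^ j * e) * (k⁻¹ * (g ^ i)⁻¹) * (e⁻¹ * (r ^ j)⁻¹) = g ^ i * (k * r ^ j) * e * k⁻¹ * (g ^ i)⁻¹ * e⁻¹ * (r ^ j)⁻¹ := by group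
      _ = g ^ i * (r ^ j * k) * e * k⁻¹ * (g ^ i)⁻¹ * e⁻¹ * (r ^ j)⁻¹ := by rw [c1.eq]
      _ = g ^ i * r ^ j * (k * e) * k⁻¹ * (g ^ i)⁻¹ * e⁻¹ * (r ^ j)⁻¹ := by group
      _ = g ^ i * r ^ j * (e * k) * k⁻¹ * (g ^ i)⁻¹ * e⁻¹ * (r ^ j)⁻¹ := by rw [c2.eq]
      _ = g ^ i * r ^ j * (e * (g ^ i)⁻¹) * e⁻¹ * (r ^ j)⁻¹ := by group
      _ = g ^ i * r ^ j * ((g ^ i)⁻¹ * e) * e⁻¹ * (r ^ j)⁻¹ := by rw [c3.inv_right.eq]
      _ = _ := by group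
  rw [h1]
  -- r⁻¹-type computations
  set c := ⁅g, r⁆ with hc
  have hcg : Commute c g := hc1
  have hcr : Commute c r := hc2
  have hgr : g * r * g⁻¹ = c * r := by rw [hc, _root_.commutatorElement_def]; group
  have h2 : g * r ^ j * g⁻¹ = c ^ j * r ^ j := by
    rw [← conj_zpow, hgr, hcr.mul_zpow]
  -- conj by g^i
  have h3 : r ^ j * g * (r ^ j)⁻¹ = (c ^ j)⁻¹ * g := by
    have h4 : g * r ^ j = c ^ j * r ^ j * g := by rw [← h2]; group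
    have h5 : r ^ j * g = (c ^ j)⁻¹ * (g * r ^ j) := by rw [h4]; group
    rw [h5]; group
  have h4 : r ^ j * g ^ i * (r ^ j)⁻¹ = (c ^ (i * j))⁻¹ * g ^ i := by
    rw [← conj_zpow, h3, ((hcg.zpow_left j).inv_left).mul_zpow, inv_zpow, ← zpow_mul, mul_comm j i]
  have h5 : ⁅g ^ i, r ^ j⁆ = g ^ i * (r ^ j * g ^ i * (r ^ j)⁻¹)⁻¹ := by
    rw [_root_.commutatorElement_def]; group
  rw [h5, h4, mul_inv_rev, inv_inv]
  have c6 : Commute (c ^ (i * j)) (g ^ i) := hcg.zpow_zpow _ _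
  calc g ^ i * ((g ^ i)⁻¹ * c ^ (i * j)) = c ^ (i * j) := by group
    _ = _ := rfl

/-- eigenvectors in the abelian part -/
theorem eigen {D : Subgroup R} (hDc : ∀ x ∈ D, ∀ y ∈ D, x * y = y * x) {ψ : MulAut R} (hDψ : ∀ x ∈ D, ψ x ∈ D) {n : ℤ} {K : Subgroup R}
    (hK : ∀ x ∈ D, (x ^ n)⁻¹ * ψ x ∈ K) (hDK : ¬ D ≤ K) : ∃ x ∈ D, x ≠ 1 ∧ ψ x = x ^ n := by
  let β : D →* D :=
    { toFun := fun x => ⟨((x : R) ^ n)⁻¹ * ψ x, mul_mem (inv_mem (zpow_mem x.2 n)) (hDψ x x.2)⟩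
      map_one' := by
        apply Subtype.ext
        show ((1 : R) ^ n)⁻¹ * ψ 1 = 1
        rw [one_zpow, map_one]; simp
      map_mul' := fun x y => by
        apply Subtype.ext
        show (((x : R) * y) ^ n)⁻¹ * ψ (x * y) = ((x : R) ^ n)⁻¹ * ψ x * (((y : R) ^ n)⁻¹ * ψ y)
        have hxy : Commute (x : R) y := hDc x x.2 y y.2
        rw [hxy.mul_zpow, map_mul, mul_inv_rev]
        have h1 : (ψ (x : R)) * ((y : R) ^ n)⁻¹ = ((y : R) ^ n)⁻¹ * ψ (x : R) := hDc _ (hDψ x x.2) _ (inv_mem (zpow_mem y.2 n))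
        have h2 : ((y : R) ^ n)⁻¹ * ((x : R) ^ n)⁻¹ = ((x : R) ^ n)⁻¹ * ((y : R) ^ n)⁻¹ := hDc _ (inv_mem (zpow_mem y.2 n)) _ (inv_mem (zpow_mem x.2 n))
        calc ((y : R) ^ n)⁻¹ * ((x : R) ^ n)⁻¹ * (ψ x * ψ y) = (((y : R) ^ n)⁻¹ * ((x : R) ^ n)⁻¹) * ψ x * ψ y := by group
          _ = (((x : R) ^ n)⁻¹ * ((y : R) ^ n)⁻¹) * ψ x * ψ y := by rw [h2]
          _ = ((x : R) ^ n)⁻¹ * (((y : R) ^ n)⁻¹ * ψ x) * ψ y := by group
          _ = ((x : R) ^ n)⁻¹ * (ψ x * ((y : R) ^ n)⁻¹) * ψ y := by rw [h1]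
          _ = _ := by group }
  have hns : ¬ Function.Surjective β := by
    intro hs
    apply hDK
    intro x hx
    obtain ⟨y, hy⟩ := hs ⟨x, hx⟩
    have h1 : ((y : R) ^ n)⁻¹ * ψ y = x := congrArg Subtype.val hy
    rw [← h1]
    exact hK y y.2
  have hni : ¬ Function.Injective β := fun h => hns (Finite.injective_iff_surjective.1 h)
  rw [injective_iff_map_eq_one] at hni
  push Not at hni
  obtain ⟨x, hx, hx1⟩ := hni
  refine ⟨x, x.2, fun h => hx1 (Subtype.ext h), ?_⟩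
  have h1 : ((x : R) ^ n)⁻¹ * ψ x = 1 := congrArg Subtype.val hx
  exact (inv_mul_eq_one.1 h1).symm

theorem exists_pow_p (hR : IsPGroup p R) {x : R} (hx : x ≠ 1) : ∃ j : ℕ, x ^ j ≠ 1 ∧ (x ^ j) ^ p = 1 := by
  have hpp : p.Prime := Fact.out
  obtain ⟨k, hk⟩ := IsPGroup.iff_orderOf.1 hR x
  have hk0 : k ≠ 0 := by
    rintro rfl
    rw [pow_zero, _root_.orderOf_eq_one_iff] at hk
    exact hx hk
  obtain ⟨m, rfl⟩ := Nat.exists_eq_succ_of_ne_zero hk0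
  refine ⟨p ^ m, ?_, ?_⟩
  · intro h
    have h1 := _root_.orderOf_dvd_of_pow_eq_one h
    rw [hk] at h1
    have := (Nat.pow_dvd_pow_iff_le_right hpp.one_lt).1 h1
    omega
  · rw [← pow_mul, ← pow_succ, ← hk, pow_orderOf_eq_one]

end Cfsg.Agent.H2.RankTwoPB
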