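import Cfsg.Agent.H2.RankTwoPB
import Cfsg.Prelude
import Mathlib

/-! Automorphisms of `p`-groups of rank two, `p > 3`, which are not metacyclic: the main computation. -/

set_option autoImplicit false

namespace Cfsg.Agent.H2.RankTwoPC

open Subgroup Cfsg.Agent.Lib Cfsg.Agent.H2 Cfsg.Agent.H2.RankTwoP Cfsg.Agent.H2.RankTwoPB
open scoped commutatorElement

universe u

variable {R : Type u} [Group R] [Finite R] {p : ℕ} [Fact p.Prime]

/-- `K0` as a subgroup -/
def KS (p : ℕ) (R : Type u) [Group R] [(Z1 p R).Normal] : Subgroup R :=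
  (centralizer (((O1 p R).map (QuotientGroup.mk' (Z1 p R)) : Subgroup (R ⧸ Z1 p R)) : Set (R ⧸ Z1 p R))).comap (QuotientGroup.mk' (Z1 p R))

theorem mk_comm [hn : (Z1 p R).Normal] {g x : R} : (x : R ⧸ Z1 p R) * (g : R ⧸ Z1 p R) = (g : R ⧸ Z1 p R) * (x : R ⧸ Z1 p R) ↔ ⁅g, x⁆ ∈ Z1 p R := by
  rw [← QuotientGroup.eq_one_iff]
  show _ ↔ ⁅(g : R ⧸ Z1 p R), (x : R ⧸ Z1 p R)⁆ = 1
  rw [_root_.commutatorElement_eq_one_iff_mul_comm]
  exact eq_comm

theorem mem_KS [hn : (Z1 p R).Normal] {g : R} : g ∈ KS p R ↔ ∀ x ∈ O1 p R, ⁅g, x⁆ ∈ Z1 p R := by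
  show (g : R ⧸ Z1 p R) ∈ centralizer _ ↔ _
  rw [mem_centralizer_iff]
  constructor
  · intro h x hx
    exact mk_comm.1 (h _ ⟨x, hx, rfl⟩)
  · rintro h _ ⟨x, hx, rfl⟩
    exact mk_comm.2 (h x hx)

theorem ai_KS (h : Hyp p R) [hn : (Z1 p R).Normal] : AI (KS p R) := by
  intro ψ g hg
  rw [mem_KS] at hg ⊢
  intro x hx
  have h1 := ai_Z1 h ψ _ (hg _ (ai_O1 h ψ⁻¹ x hx))
  rw [map_commutatorElement] at h1
  have h3 : ψ (ψ⁻¹ x) = x := by rw [← MulAut.mul_apply, mul_inv_cancel, MulAut.one_apply]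
  rwa [h3] at h1

theorem index_cent_le {X : Type*} [Group X] [Finite X] {N : Subgroup X} {x : X} (hx : ∀ g : X, ⁅g, x⁆ ∈ N) :
    (centralizer {x} : Subgroup X).index ≤ Nat.card N := by
  classical
  rw [Subgroup.index_eq_card]
  let f : X ⧸ (centralizer {x} : Subgroup X) → N := Quotient.lift (s := QuotientGroup.leftRel _) (fun m : X => (⟨⁅m, x⁆, hx m⟩ : N)) (by
    intro a b hab
    have h2 := QuotientGroup.leftRel_apply.1 hab
    apply Subtype.ext
    exact NarrowAct.comm_eq_iff.2 h2)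
  have hf : Function.Injective f := by
    intro q r hqr
    obtain ⟨a, rfl⟩ := QuotientGroup.mk_surjective q
    obtain ⟨b, rfl⟩ := QuotientGroup.mk_surjective r
    have h2 : ⁅a, x⁆ = ⁅b, x⁆ := congrArg Subtype.val hqr
    exact QuotientGroup.eq.2 (NarrowAct.comm_eq_iff.1 h2)
  exact Nat.card_le_card_of_injective f hf

theorem relIndex_of_card {N H : Subgroup R} (hNH : N ≤ H) {a b : ℕ} (hN : Nat.card N = p ^ a) (hH : Nat.card H = p ^ (a + b)) : N.relIndex H = p ^ b := by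
  have h := Subgroup.relIndex_mul_relIndex (⊥ : Subgroup R) N H bot_le hNH
  rw [relIndex_bot_left, relIndex_bot_left, hN, hH, pow_add] at h
  exact Nat.eq_of_mul_eq_mul_left (pow_pos (Fact.out : p.Prime).pos a) h

/-- subgroup of a group of prime square order -/
theorem eq_of_lt {Z F E : Subgroup R} (hZ : Nat.card Z = p) (hE : Nat.card E = p ^ 2) (hZF : Z ≤ F) (hFE : F ≤ E) {x : R} (hx : x ∈ F) (hxZ : x ∉ Z) : F = E := by
  have hpp : p.Prime := Fact.out
  apply Subgroup.eq_of_le_of_card_ge hFE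
  have h1 := Subgroup.card_dvd_of_le hFE
  rw [hE] at h1
  obtain ⟨i, hi, hi'⟩ := (Nat.dvd_prime_pow hpp).1 h1
  have : i = 2 := by
    by_contra hne
    have h2 : Z = F := by
      apply Subgroup.eq_of_le_of_card_ge hZF
      rw [hi', hZ]
      calc p ^ i ≤ p ^ 1 := Nat.pow_le_pow_right hpp.pos (by omega)
        _ = p := pow_one p
    exact hxZ (h2 ▸ hx)
  rw [hi', hE, this]

theorem eq_of_lt' {E F O : Subgroup R} (hE : Nat.card E = p ^ 2) (hO : Nat.card O = p ^ 3) (hEF : E ≤ F) (hFO : F ≤ O) {x : R} (hx : x ∈ F) (hxE : x ∉ E) : F = O := by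
  have hpp : p.Prime := Fact.out
  apply Subgroup.eq_of_le_of_card_ge hFO
  have h1 := Subgroup.card_dvd_of_le hFO
  rw [hO] at h1
  obtain ⟨i, hi, hi'⟩ := (Nat.dvd_prime_pow hpp).1 h1
  have : i = 3 := by
    by_contra hne
    have h2 : E = F := by
      apply Subgroup.eq_of_le_of_card_ge hEF
      rw [hi', hE]
      exact Nat.pow_le_pow_right hpp.pos (by omega)
    exact hxE (h2 ▸ hx)
  rw [hi', hO, this]

structure Facts (p : ℕ) (R : Type u) [Group R] [(Z1 p R).Normal] : Prop where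
  cE : Nat.card (EE p R) = p ^ 2
  zE : Z1 p R ≤ EE p R
  eO : EE p R ≤ O1 p R
  f1 : ∀ g : R, ∀ x ∈ O1 p R, ⁅g, x⁆ ∈ EE p R
  f2 : ∀ x ∈ EE p R, ∀ y ∈ EE p R, x * y = y * x
  f3 : ∀ m ∈ centralizer (EE p R : Set R), m ^ p = 1 → m ∈ EE p R
  f4 : Cfsg.IsMetacyclic (centralizer (EE p R : Set R))
  f5 : ∀ w e : R, e ∈ EE p R → e ∉ Z1 p R → w * e = e * w → w ∈ centralizer (EE p R : Set R)
  f6 : O1 p R ⊔ centralizer (EE p R : Set R) = ⊤

theorem facts (h : Hyp p R) [hn : (Z1 p R).Normal] (hK : ∃ g, g ∉ K0 p R) : Facts p R := by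
  have hpp : p.Prime := Fact.out
  have cE := card_EE h hK
  have zE : Z1 p R ≤ EE p R := by
    intro x hx
    rw [mem_EE]
    refine ⟨(mem_Z1.1 hx).1, fun g => ?_⟩
    have : ⁅x, g⁆ = 1 := by
      rw [_root_.commutatorElement_eq_one_iff_mul_comm]
      exact (mem_center_iff.1 (Z1_center h hx) g).symm
    rw [this]; exact one_mem _
  have eO : EE p R ≤ O1 p R := inf_le_left
  haveI hEn := (ai_EE h).normal
  haveI hOn := (ai_O1 h).normal
  have f1 : ∀ g : R, ∀ x ∈ O1 p R, ⁅g, x⁆ ∈ EE p R := by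
    have h1 : Nat.card ((O1 p R).map (QuotientGroup.mk' (EE p R))) = p := by
      rw [← Subgroup.relIndex_ker, QuotientGroup.ker_mk', relIndex_of_card eO cE (b := 1) (card_O1 h), pow_one]
    haveI hmn : ((O1 p R).map (QuotientGroup.mk' (EE p R))).Normal := Normal.map hOn _ (QuotientGroup.mk'_surjective _)
    have h2 := PGrpA.le_center_of_card_eq_prime (h.hR.to_quotient (EE p R)) h1
    intro g x hx
    have h3 := mem_center_iff.1 (h2 ⟨x, hx, rfl⟩) (g : R ⧸ EE p R)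
    rw [← QuotientGroup.eq_one_iff]
    show ⁅(g : R ⧸ EE p R), (x : R ⧸ EE p R)⁆ = 1
    rw [_root_.commutatorElement_eq_one_iff_mul_comm]
    exact h3
  have f2 : ∀ x ∈ EE p R, ∀ y ∈ EE p R, x * y = y * x := fun x hx y hy =>
    congrArg Subtype.val (IsPGroup.commutative_of_card_eq_prime_sq cE ⟨x, hx⟩ ⟨y, hy⟩)
  have hea : Cfsg.IsElementaryAbelian p (EE p R) := ThompsonJ.ea_iff.2 ⟨f2, fun x hx => (mem_O1 h).1 (eO hx)⟩
  have hmax : ∀ B : Subgroup R, Cfsg.IsElementaryAbelian p B → EE p R ≤ B → B = EE p R := by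
    intro B hB hEB
    refine (Subgroup.eq_of_le_of_card_ge hEB ?_).symm
    rw [cE]; exact rk h.hr B hB
  have f3 : ∀ m ∈ centralizer (EE p R : Set R), m ^ p = 1 → m ∈ EE p R := by
    intro m hm hmp
    exact RankThree.mem_of_cent hea hmax (fun e he => mem_centralizer_iff.1 hm e he) hmp
  have f4 : Cfsg.IsMetacyclic (centralizer (EE p R : Set R)) := by
    apply RankTwoC.metacyclic h.h3 (Nat.card (centralizer (EE p R : Set R))) _ le_rfl (h.hR.to_subgroup _)
    show Nat.card (closure {x : centralizer (EE p R : Set R) | x ^ p = 1}) ≤ p ^ 2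
    rw [← cE]
    have h1 : (closure {x : centralizer (EE p R : Set R) | x ^ p = 1}).map (centralizer (EE p R : Set R)).subtype ≤ EE p R := by
      rw [Subgroup.map_le_iff_le_comap, closure_le]
      intro x hx
      exact f3 x x.2 (congrArg Subtype.val hx)
    calc _ = Nat.card ((closure {x : centralizer (EE p R : Set R) | x ^ p = 1}).map (centralizer (EE p R : Set R)).subtype) :=
          Nat.card_congr ((Subgroup.closure _).equivMapOfInjective _ (Subgroup.subtype_injective _)).toEquiv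
      _ ≤ _ := Nat.card_le_card_of_injective _ (Subgroup.inclusion_injective h1)
  have f5 : ∀ w e : R, e ∈ EE p R → e ∉ Z1 p R → w * e = e * w → w ∈ centralizer (EE p R : Set R) := by
    intro w e he heZ hwe
    have h1 : EE p R ⊓ centralizer {w} = EE p R := by
      refine eq_of_lt (card_Z1 h) cE (le_inf zE ?_) inf_le_left (x := e) ⟨he, ?_⟩ heZ
      · intro z hz
        rw [mem_centralizer_singleton_iff]
        exact (mem_center_iff.1 (Z1_center h hz) w).symm
      · exact mem_centralizer_singleton_iff.2 hwe.symm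
    rw [mem_centralizer_iff]
    intro y hy
    rw [← h1] at hy
    exact (mem_centralizer_singleton_iff.1 hy.2)
  refine ⟨cE, zE, eO, f1, f2, f3, f4, f5, ?_⟩
  -- e ∈ E \ Z1
  have hne : ¬ EE p R ≤ Z1 p R := by
    intro hle
    have h1 := Nat.card_le_card_of_injective _ (Subgroup.inclusion_injective hle)
    rw [cE, card_Z1 h] at h1
    have := hpp.two_le
    nlinarith
  obtain ⟨e, he, heZ⟩ := SetLike.not_le_iff_exists.1 hne
  have hre : ∃ r ∈ O1 p R, ⁅r, e⁆ ≠ 1 := by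
    by_contra hcon
    push Not at hcon
    apply heZ
    rw [mem_Z1]
    exact ⟨eO he, fun y hy => _root_.commutatorElement_eq_one_iff_mul_comm.1 (hcon y hy)⟩
  obtain ⟨r, hr, hre⟩ := hre
  rw [eq_top_iff]
  intro g _
  have hge : ⁅g, e⁆ ∈ Z1 p R := by
    have := inv_mem ((mem_EE.1 he).2 g)
    rwa [_root_.commutatorElement_inv] at this
  obtain ⟨n, hnn⟩ := mem_pow h (comm_Z1 h hr (eO he)) hre hge
  have hC2 : PGrpA.Class2 (O1 p R) := by
    obtain ⟨x, hx, y, hy, hxy⟩ := O1_nc h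
    intro a b
    exact (cube_center (card_O1 h) (x := ⟨x, hx⟩) (y := ⟨y, hy⟩) (fun e => hxy (congrArg Subtype.val e))).2.1 a b
  have h1 : ⁅r ^ n, e⁆ = ⁅g, e⁆ := by
    rw [hnn]
    exact congrArg Subtype.val (hC2.pow_left ⟨r, hr⟩ ⟨e, eO he⟩ n)
  have h2 := NarrowAct.comm_eq_iff.1 h1
  have h3 := f5 _ e he heZ (mem_centralizer_singleton_iff.1 h2)
  have e1 : g = r ^ n * ((r ^ n)⁻¹ * g) := by group
  rw [e1]
  exact mul_mem_sup (pow_mem hr n) h3

end Cfsg.Agent.H2.RankTwoPC
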