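import Cfsg.Agent.H2.RankTwoPC
import Cfsg.Prelude
import Mathlib

/-! Automorphisms of `p`-groups of rank two, `p > 3`, which are not metacyclic: conclusion. -/

set_option autoImplicit false

namespace Cfsg.Agent.H2.RankTwoPD

open Subgroup Cfsg.Agent.Lib Cfsg.Agent.H2 Cfsg.Agent.H2.RankTwoP Cfsg.Agent.H2.RankTwoPB Cfsg.Agent.H2.RankTwoPC
open scoped commutatorElement

universe u

variable {R : Type u} [Group R] [Finite R] {p : ℕ} [Fact p.Prime]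

/-- action splits on metacyclic characteristic subgroups -/
def Split (ψ : MulAut R) (M : Subgroup R) : Prop :=
  ∃ D F : Subgroup R, D ≤ M ∧ F ≤ M ∧ (∀ x ∈ D, ∀ y ∈ D, x * y = y * x) ∧ (∀ x ∈ D, ψ x ∈ D) ∧ (∀ x ∈ F, ψ x = x) ∧
    (∀ m ∈ M, m⁻¹ * ψ m ∈ D) ∧ (∀ m ∈ M, ∃ d ∈ D, ∃ f ∈ F, m = d * f)

theorem zpow_eq_of_dvd {x : R} (hx : x ^ p = 1) {n : ℤ} (h : (p : ℤ) ∣ n) : x ^ n = 1 := by
  obtain ⟨k, rfl⟩ := h
  rw [zpow_mul, zpow_natCast, hx, one_zpow]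

theorem zpow_mem_of_dvd {x : R} {N : Subgroup R} (hx : x ^ p ∈ N) {n : ℤ} (h : (p : ℤ) ∣ n) : x ^ n ∈ N := by
  obtain ⟨k, rfl⟩ := h
  rw [zpow_mul, zpow_natCast]
  exact zpow_mem hx k

theorem KS_index (h : Hyp p R) [hn : (Z1 p R).Normal] (hK : ∃ g, g ∉ K0 p R) {r : R} (hr : r ∈ O1 p R) (hrE : r ∉ EE p R) :
    (KS p R).index ≤ p := by
  have F := facts h hK
  have hle : (centralizer {(r : R ⧸ Z1 p R)} : Subgroup (R ⧸ Z1 p R)).comap (QuotientGroup.mk' (Z1 p R)) ≤ KS p R := by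
    intro g hg
    have hgr : ⁅g, r⁆ ∈ Z1 p R := mk_comm.1 (mem_centralizer_singleton_iff.1 hg).symm
    rw [mem_KS]
    -- subgroup of x ∈ O1 commuting with g modulo Z1
    let X : Subgroup R := (centralizer {(g : R ⧸ Z1 p R)} : Subgroup (R ⧸ Z1 p R)).comap (QuotientGroup.mk' (Z1 p R))
    have hX : ∀ x, x ∈ X ↔ ⁅g, x⁆ ∈ Z1 p R := by
      intro x
      show (x : R ⧸ Z1 p R) ∈ centralizer {(g : R ⧸ Z1 p R)} ↔ _
      rw [mem_centralizer_singleton_iff]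
      exact mk_comm
    have h1 : O1 p R ⊓ X = O1 p R := by
      refine eq_of_lt' F.cE (card_O1 h) (le_inf F.eO ?_) inf_le_left (x := r) ⟨hr, (hX r).2 hgr⟩ hrE
      intro e he
      rw [hX]
      have := inv_mem ((mem_EE.1 he).2 g)
      rwa [_root_.commutatorElement_inv] at this
    intro x hx
    rw [← h1] at hx
    exact (hX x).1 hx.2
  have h2 : ((centralizer {(r : R ⧸ Z1 p R)} : Subgroup (R ⧸ Z1 p R)).comap (QuotientGroup.mk' (Z1 p R))).index =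
      (centralizer {(r : R ⧸ Z1 p R)} : Subgroup (R ⧸ Z1 p R)).index := index_comap_of_surjective _ (QuotientGroup.mk'_surjective _)
  have h3 : (centralizer {(r : R ⧸ Z1 p R)} : Subgroup (R ⧸ Z1 p R)).index ≤ Nat.card ((EE p R).map (QuotientGroup.mk' (Z1 p R))) := by
    apply index_cent_le
    intro g
    obtain ⟨g, rfl⟩ := QuotientGroup.mk_surjective g
    exact ⟨⁅g, r⁆, F.f1 g r hr, rfl⟩
  have h4 : Nat.card ((EE p R).map (QuotientGroup.mk' (Z1 p R))) = p := by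
    rw [← Subgroup.relIndex_ker, QuotientGroup.ker_mk', relIndex_of_card F.zE (a := 1) (b := 1) (by rw [pow_one]; exact card_Z1 h) F.cE, pow_one]
  rw [h4, ← h2] at h3
  exact (Nat.le_of_dvd (Nat.pos_of_ne_zero (Subgroup.index_ne_zero_of_finite)) (Subgroup.index_dvd_of_le hle)).trans h3

theorem KS_pow (h : Hyp p R) [hn : (Z1 p R).Normal] (hi : (KS p R).index ≤ p) (g : R) : g ^ p ∈ KS p R := by
  have hpp : p.Prime := Fact.out
  haveI := (ai_KS h).normal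
  obtain ⟨k, hk⟩ := IsPGroup.iff_card.1 (h.hR.to_quotient (KS p R))
  rw [← Subgroup.index_eq_card] at hk
  have h1 : (KS p R).index ∣ p := by
    rw [hk] at hi ⊢
    rcases Nat.eq_zero_or_pos k with h0 | h0
    · rw [h0, pow_zero]; exact one_dvd _
    · have : k = 1 := by
        by_contra hne
        have h4 : p ^ 2 ≤ p ^ k := Nat.pow_le_pow_right hpp.pos (by omega)
        have := hpp.two_le
        nlinarith
      rw [this, pow_one]
  obtain ⟨m, hm⟩ := h1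
  have h2 : g ^ p = (g ^ (KS p R).index) ^ m := by rw [← pow_mul, ← hm]
  rw [h2]
  exact pow_mem (Subgroup.pow_index_mem (KS p R) g) m

/-- claim C -/
theorem claimC (h : Hyp p R) [hn : (Z1 p R).Normal] (F : Facts p R) {ψ : MulAut R} (hs : Split ψ (centralizer (EE p R : Set R)))
    {g : R} (hgM : g ∈ centralizer (EE p R : Set R)) (hgK : g ∉ KS p R) (hpow : ∀ g, g ^ p ∈ KS p R) {n₃ : ℤ}
    (hn3 : ∀ x, (x ^ n₃)⁻¹ * ψ x ∈ KS p R) : ∃ w ∈ EE p R, w ≠ 1 ∧ ψ w = w ^ n₃ := by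
  obtain ⟨D, Fx, hDM, hFM, hDc, hDψ, hFψ, hMD, hMDF⟩ := hs
  by_cases hDK : D ≤ KS p R
  · -- F is not in KS
    obtain ⟨d, hd, f, hf, hgdf⟩ := hMDF g hgM
    have hf1 : f ≠ 1 := by
      rintro rfl
      rw [mul_one] at hgdf
      exact hgK (hgdf ▸ hDK hd)
    obtain ⟨j, hj1, hj2⟩ := exists_pow_p h.hR hf1
    have hwF : f ^ j ∈ Fx := pow_mem hf j
    refine ⟨f ^ j, F.f3 _ (hFM hwF) hj2, hj1, ?_⟩
    rw [hFψ _ hwF]
    have h1 : (p : ℤ) ∣ n₃ - 1 := by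
      refine dvd_of_zpow_mem hgK (hpow g) ?_
      have h2 : g⁻¹ * ψ g ∈ KS p R := hDK (hMD g hgM)
      have h3 : g ^ (n₃ - 1) = (g⁻¹ * ψ g) * ((g ^ n₃)⁻¹ * ψ g)⁻¹ := by
        rw [zpow_sub_one, mul_inv_rev, inv_inv]
        have e : g ^ n₃ * g⁻¹ = g⁻¹ * g ^ n₃ := by
          rw [← zpow_neg_one, ← zpow_add, ← zpow_add, add_comm]
        rw [e]; group
      rw [h3]
      exact mul_mem h2 (inv_mem (hn3 g))
    have h2 : f ^ j = (f ^ j) ^ (n₃ - 1) * f ^ j := by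
      rw [zpow_eq_of_dvd hj2 h1, one_mul]
    calc f ^ j = (f ^ j) ^ (n₃ - 1) * f ^ j := h2
      _ = (f ^ j) ^ (n₃ - 1) * (f ^ j) ^ (1 : ℤ) := by rw [zpow_one]
      _ = _ := by rw [← zpow_add, sub_add_cancel]
  · obtain ⟨x, hx, hx1, hxψ⟩ := eigen hDc hDψ (fun x _ => hn3 x) hDK
    obtain ⟨j, hj1, hj2⟩ := exists_pow_p h.hR hx1
    refine ⟨x ^ j, F.f3 _ (hDM (pow_mem hx j)) hj2, hj1, ?_⟩
    rw [map_pow, hxψ, ← zpow_natCast, ← zpow_natCast, ← zpow_mul, ← zpow_mul, mul_comm]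

/-- arithmetic -/
theorem arith {n₀ n₁ n₂ n₃ : ℤ} (hpp : p.Prime) (hA : (p : ℤ) ∣ n₃ * n₁ - n₂) (hB : (p : ℤ) ∣ n₂ * n₁ - n₀) (hC : (p : ℤ) ∣ n₃ - n₀ ∨ (p : ℤ) ∣ n₃ - n₂)
    (h3 : ¬ (p : ℤ) ∣ n₃) : (p : ℤ) ∣ n₁ - 1 ∨ (p : ℤ) ∣ n₁ + 1 := by
  have hP : Prime (p : ℤ) := Nat.prime_iff_prime_int.1 hpp
  rcases hC with hC | hC
  · have h1 : (p : ℤ) ∣ n₃ * ((n₁ - 1) * (n₁ + 1)) := by
      have e : n₃ * ((n₁ - 1) * (n₁ + 1)) = (n₃ * n₁ - n₂) * n₁ + (n₂ * n₁ - n₀) - (n₃ - n₀) := by ring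
      rw [e]
      exact dvd_sub (dvd_add (Dvd.dvd.mul_right hA _) hB) hC
    rcases hP.dvd_or_dvd h1 with h2 | h2
    · exact absurd h2 h3
    · exact hP.dvd_or_dvd h2
  · have h1 : (p : ℤ) ∣ n₃ * (n₁ - 1) := by
      have e : n₃ * (n₁ - 1) = (n₃ * n₁ - n₂) - (n₃ - n₂) := by ring
      rw [e]
      exact dvd_sub hA hC
    rcases hP.dvd_or_dvd h1 with h2 | h2
    · exact absurd h2 h3
    · exact Or.inl h2

/-- Main result. -/
theorem main (h : Hyp p R) [hn : (Z1 p R).Normal] (hK : ∃ g, g ∉ K0 p R) (ψ : MulAut R) (hodd : Odd (orderOf ψ))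
    (hs : Split ψ (centralizer (EE p R : Set R))) : ∀ x : R, x⁻¹ * ψ x ∈ centralizer (EE p R : Set R) := by
  have hpp : p.Prime := Fact.out
  have F := facts h hK
  have hZc := Z1_center h
  have hO1p : ∀ x ∈ O1 p R, x ^ p = 1 := fun x hx => (mem_O1 h).1 hx
  -- g
  have hO1K : O1 p R ≤ KS p R := fun x hx => mem_KS.2 (fun y hy => comm_Z1 h hx hy)
  have hMK : ¬ centralizer (EE p R : Set R) ≤ KS p R := by
    intro hle
    obtain ⟨g, hg⟩ := hK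
    apply hg
    have h1 : g ∈ KS p R := by
      have : (⊤ : Subgroup R) ≤ KS p R := by rw [← F.f6]; exact sup_le hO1K hle
      exact this trivial
    exact mem_KS.1 h1
  obtain ⟨g, hgM, hgK⟩ := SetLike.not_le_iff_exists.1 hMK
  have hex : ∃ r ∈ O1 p R, ⁅g, r⁆ ∉ Z1 p R := by
    by_contra hcon
    push Not at hcon
    exact hgK (mem_KS.2 hcon)
  obtain ⟨r, hr, hc⟩ := hex
  set c := ⁅g, r⁆ with hcdef
  have hcE : c ∈ EE p R := F.f1 g r hr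
  have hrE : r ∉ EE p R := by
    intro hrE
    apply hc
    have h1 : c = 1 := by
      rw [hcdef, _root_.commutatorElement_eq_one_iff_mul_comm]
      exact (mem_centralizer_iff.1 hgM r hrE).symm
    rw [h1]; exact one_mem _
  have hz1 : ⁅c, r⁆ ≠ 1 := by
    intro he
    rw [_root_.commutatorElement_eq_one_iff_mul_comm] at he
    exact hrE (F.f3 r (F.f5 r c hcE hc he.symm) (hO1p r hr))
  have hzZ : ⁅c, r⁆ ∈ Z1 p R := (mem_EE.1 hcE).2 r
  have hKi := KS_index h hK hr hrE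
  have hpow := KS_pow h hKi
  -- weights
  obtain ⟨n₃, hn3⟩ := weight h.hR (ai_KS h) (H := ⊤) (fun _ _ _ => trivial) (by rw [relIndex_top_right]; exact hKi) ψ
  have hn3' : ∀ x, (x ^ n₃)⁻¹ * ψ x ∈ KS p R := fun x => hn3 x trivial
  obtain ⟨n₁, hn1⟩ := weight h.hR (ai_EE h) (ai_O1 h) (by rw [relIndex_of_card F.eO F.cE (b := 1) (card_O1 h), pow_one]) ψ
  obtain ⟨n₂, hn2⟩ := weight h.hR (ai_Z1 h) (ai_EE h) (by
    rw [relIndex_of_card F.zE (a := 1) (b := 1) (by rw [pow_one]; exact card_Z1 h) F.cE, pow_one]) ψ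
  obtain ⟨n₀, hn0⟩ := weight h.hR (N := ⊥) (fun ψ x hx => by rw [mem_bot] at hx ⊢; rw [hx, map_one]) (ai_Z1 h) (by
    rw [relIndex_bot_left, card_Z1 h]) ψ
  -- relation A
  have hA : (p : ℤ) ∣ n₃ * n₁ - n₂ := by
    refine dvd_of_zpow_mem hc (by rw [hO1p c (F.eO hcE)]; exact one_mem _) ?_
    have e1 : ψ g = g ^ n₃ * ((g ^ n₃)⁻¹ * ψ g) := by group
    have e2 : ψ r = r ^ n₁ * ((r ^ n₁)⁻¹ * ψ r) := by group
    have hk := hn3' g
    have he := hn1 r hr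
    generalize (g ^ n₃)⁻¹ * ψ g = k at e1 hk
    generalize (r ^ n₁)⁻¹ * ψ r = e at e2 he
    have h1 : ψ c = ⁅ψ g, ψ r⁆ := by rw [hcdef, map_commutatorElement]
    rw [e1, e2] at h1
    have hcz : ∀ x : R, (c : R ⧸ Z1 p R) * (x : R ⧸ Z1 p R) = (x : R ⧸ Z1 p R) * (c : R ⧸ Z1 p R) := by
      intro x
      have h2 := inv_mem ((mem_EE.1 hcE).2 x)
      rw [_root_.commutatorElement_inv] at h2
      exact mk_comm.2 h2
    have h2 := pair (X := R ⧸ Z1 p R) (g := (g : R ⧸ Z1 p R)) (r := (r : R ⧸ Z1 p R)) (k := (k : R ⧸ Z1 p R)) (e := (e : R ⧸ Z1 p R))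
      (hcz g) (hcz r) (mk_comm.2 (mem_KS.1 hk r hr)).symm (mk_comm.2 (mem_KS.1 hk e (F.eO he))).symm
      (mk_comm.2 (by
        have := inv_mem ((mem_EE.1 he).2 g)
        rwa [_root_.commutatorElement_inv] at this)) n₃ n₁
    have h3 : ((ψ c : R) : R ⧸ Z1 p R) = ((c ^ (n₃ * n₁) : R) : R ⧸ Z1 p R) := by
      rw [h1]; exact h2
    have h4 : ((ψ c : R) : R ⧸ Z1 p R) = ((c ^ n₂ : R) : R ⧸ Z1 p R) := (QuotientGroup.eq.2 (hn2 c hcE)).symm
    rw [h4] at h3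
    have h5 := QuotientGroup.eq.1 h3
    have e : c ^ (n₃ * n₁ - n₂) = (c ^ n₂)⁻¹ * c ^ (n₃ * n₁) := by
      rw [← zpow_neg, ← zpow_add]; congr 1; ring
    rw [e]; exact h5
  -- relation B
  have hB : (p : ℤ) ∣ n₂ * n₁ - n₀ := by
    refine dvd_of_zpow_mem (N := ⊥) (x := ⁅c, r⁆) (fun hm => hz1 (mem_bot.1 hm)) (by rw [hO1p _ (mem_Z1.1 hzZ).1]; exact one_mem _) ?_
    have e1 : ψ c = c ^ n₂ * ((c ^ n₂)⁻¹ * ψ c) := by group
    have e2 : ψ r = r ^ n₁ * ((r ^ n₁)⁻¹ * ψ r) := by group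
    have hk := hn2 c hcE
    have he := hn1 r hr
    generalize (c ^ n₂)⁻¹ * ψ c = k at e1 hk
    generalize (r ^ n₁)⁻¹ * ψ r = e at e2 he
    have h1 : ψ ⁅c, r⁆ = ⁅ψ c, ψ r⁆ := map_commutatorElement _ _ _
    rw [e1, e2] at h1
    have hzc : ∀ z ∈ Z1 p R, ∀ x : R, z * x = x * z := fun z hz x => (mem_center_iff.1 (hZc hz) x).symm
    rw [pair (hzc _ hzZ c) (hzc _ hzZ r) (hzc _ hk r) (hzc _ hk e) (F.f2 e he c hcE)] at h1
    have h2 := mem_bot.1 (hn0 _ hzZ)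
    rw [h1] at h2
    have h3 : ⁅c, r⁆ ^ (n₂ * n₁ - n₀) = (⁅c, r⁆ ^ n₀)⁻¹ * ⁅c, r⁆ ^ (n₂ * n₁) := by
      rw [← zpow_neg, ← zpow_add]; congr 1; ring
    rw [h3, mem_bot]; exact h2
  -- claim C
  have hC : (p : ℤ) ∣ n₃ - n₀ ∨ (p : ℤ) ∣ n₃ - n₂ := by
    obtain ⟨w, hwE, hw1, hwψ⟩ := claimC h F hs hgM hgK hpow hn3'
    by_cases hwZ : w ∈ Z1 p R
    · left
      refine dvd_of_zpow_mem (N := ⊥) (x := w) (fun hm => hw1 (mem_bot.1 hm)) (by rw [hO1p _ (F.eO hwE)]; exact one_mem _) ?_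
      have h2 := hn0 w hwZ
      rw [hwψ] at h2
      have h3 : w ^ (n₃ - n₀) = (w ^ n₀)⁻¹ * w ^ n₃ := by
        rw [← zpow_neg, ← zpow_add]; congr 1; ring
      rw [h3]; exact h2
    · right
      refine dvd_of_zpow_mem (x := w) hwZ (by rw [hO1p _ (F.eO hwE)]; exact one_mem _) ?_
      have h2 := hn2 w hwE
      rw [hwψ] at h2
      have h3 : w ^ (n₃ - n₂) = (w ^ n₂)⁻¹ * w ^ n₃ := by
        rw [← zpow_neg, ← zpow_add]; congr 1; ring
      rw [h3]; exact h2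
  have h3nd : ¬ (p : ℤ) ∣ n₃ := by
    intro hd
    apply hgK
    have h1 := hn3' g
    have h2 : ψ g ∈ KS p R := by
      have h3 : ψ g = g ^ n₃ * ((g ^ n₃)⁻¹ * ψ g) := by group
      rw [h3]
      exact mul_mem (zpow_mem_of_dvd (hpow g) hd) h1
    have h4 := ai_KS h ψ⁻¹ _ h2
    rwa [← MulAut.mul_apply, inv_mul_cancel, MulAut.one_apply] at h4
  have h1 : (p : ℤ) ∣ n₁ - 1 := by
    rcases arith hpp hA hB hC h3nd with h1 | h1
    · exact h1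
    · exfalso
      -- iterate
      have hit : ∀ m : ℕ, (r ^ (n₁ ^ m))⁻¹ * (ψ ^ m) r ∈ EE p R ∧ (ψ ^ m) r ∈ O1 p R := by
        intro m
        induction m with
        | zero => rw [pow_zero, zpow_one, pow_zero, MulAut.one_apply]; exact ⟨by rw [inv_mul_cancel]; exact one_mem _, hr⟩
        | succ m ih =>
          obtain ⟨ih1, ih2⟩ := ih
          have h2 : (ψ ^ (m + 1)) r = (ψ ^ m) (ψ r) := by rw [pow_succ, MulAut.mul_apply]
          have h3 : ψ r = r ^ n₁ * ((r ^ n₁)⁻¹ * ψ r) := by group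
          have h4 := ai_EE h (ψ ^ m) _ (hn1 r hr)
          have h5 : (ψ ^ (m + 1)) r = ((ψ ^ m) r) ^ n₁ * (ψ ^ m) ((r ^ n₁)⁻¹ * ψ r) := by
            rw [h2]
            conv_lhs => rw [h3]
            rw [map_mul, map_zpow]
          refine ⟨?_, ai_O1 h _ _ hr⟩
          have h6 : ((r ^ n₁ ^ m) ^ n₁)⁻¹ * ((ψ ^ m) r) ^ n₁ ∈ EE p R := by
            haveI := (ai_EE h).normal
            have h8 : ((r ^ n₁ ^ m : R) : R ⧸ EE p R) = (((ψ ^ m) r : R) : R ⧸ EE p R) := QuotientGroup.eq.2 ih1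
            rw [← QuotientGroup.eq, QuotientGroup.mk_zpow (EE p R) (r ^ n₁ ^ m) n₁, QuotientGroup.mk_zpow (EE p R) ((ψ ^ m) r) n₁, h8]
          have h7 : r ^ n₁ ^ (m + 1) = (r ^ n₁ ^ m) ^ n₁ := by rw [← zpow_mul, pow_succ]
          rw [h5, h7, ← mul_assoc]
          exact mul_mem h6 h4
      obtain ⟨t, ht⟩ := hodd
      have h2 := (hit (orderOf ψ)).1
      rw [pow_orderOf_eq_one, MulAut.one_apply] at h2
      have h3 : (p : ℤ) ∣ 1 - n₁ ^ orderOf ψ := by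
        refine dvd_of_zpow_mem hrE (by rw [hO1p r hr]; exact one_mem _) ?_
        have e : r ^ (1 - n₁ ^ orderOf ψ) = (r ^ n₁ ^ orderOf ψ)⁻¹ * r := by
          rw [sub_eq_add_neg, add_comm, zpow_add, zpow_neg, zpow_one]
        rw [e]; exact h2
      have h4 : (p : ℤ) ∣ n₁ ^ orderOf ψ + 1 := by
        have h5 : n₁ + 1 ∣ n₁ ^ orderOf ψ + 1 ^ orderOf ψ := Odd.add_dvd_pow_add_pow n₁ 1 ⟨t, ht⟩
        rw [one_pow] at h5
        exact h1.trans h5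
      have h5 : (p : ℤ) ∣ 2 := by
        have := dvd_add h3 h4
        have e : (1 - n₁ ^ orderOf ψ) + (n₁ ^ orderOf ψ + 1) = 2 := by ring
        rwa [e] at this
      have h6 : p ∣ 2 := by exact_mod_cast h5
      have := Nat.le_of_dvd (by norm_num) h6
      have := h.h3
      omega
  -- conclude
  have hEM : EE p R ≤ centralizer (EE p R : Set R) := by
    intro x hx
    rw [mem_centralizer_iff]
    exact fun y hy => F.f2 y hy x hx
  have hO : ∀ x ∈ O1 p R, x⁻¹ * ψ x ∈ centralizer (EE p R : Set R) := by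
    intro x hx
    apply hEM
    have h2 := hn1 x hx
    have h3 : x ^ n₁ = x := by
      have : x ^ n₁ = x ^ (n₁ - 1) * x := by
        rw [zpow_sub_one]; group
      rw [this, zpow_eq_of_dvd (hO1p x hx) h1, one_mul]
    rwa [h3] at h2
  haveI hMn : (centralizer (EE p R : Set R)).Normal := (ai_EE h).centralizer.normal
  intro y
  have hy : y ∈ O1 p R ⊔ centralizer (EE p R : Set R) := by rw [F.f6]; trivial
  obtain ⟨x, hx, m, hm, rfl⟩ := Subgroup.mem_sup_of_normal_right.1 hy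
  rw [map_mul, mul_inv_rev]
  have e : m⁻¹ * x⁻¹ * (ψ x * ψ m) = (m⁻¹ * (x⁻¹ * ψ x) * m) * (m⁻¹ * ψ m) := by group
  rw [e]
  refine mul_mem (mul_mem (mul_mem (inv_mem hm) (hO x hx)) hm) (mul_mem (inv_mem hm) ((ai_EE h).centralizer ψ m hm))

end Cfsg.Agent.H2.RankTwoPD
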