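import Cfsg.Agent.Lib.SL2
import Cfsg.Agent.H2.AbelSum
import Mathlib.Algebra.CharP.Lemmas

/-! Unipotent elements of `SL₂(q)` acting on `p'`-subgroups. -/

set_option autoImplicit false
set_option linter.unusedSectionVars false
set_option linter.style.haveILetI false
set_option linter.unusedVariables false

namespace Cfsg.Agent.H2.SLQuad

open Matrix Subgroup Cfsg.Agent.Lib
open scoped MatrixGroups

variable {F : Type*} [Field F] {p : ℕ} [hp : Fact p.Prime] [CharP F p]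

/-- the inclusion of `SL₂` in the matrix ring -/
def ρ (F : Type*) [Field F] : SL(2, F) →* Matrix (Fin 2) (Fin 2) F where
  toFun g := g.1
  map_one' := rfl
  map_mul' _ _ := rfl

theorem ρ_inj : Function.Injective (ρ F) := fun _ _ h => Subtype.ext h

theorem conj_form [Fintype F] (a : SL(2, F)) (ha : IsPGroup p (zpowers a)) : ∃ (g : SL(2, F)) (b : F), a = g * SL2.t b * g⁻¹ := by
  classical
  obtain ⟨P, hP⟩ := ha.exists_le_sylow
  obtain ⟨g, hg⟩ := SL2.exists_conj_U p P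
  have h1 : a ∈ (P : Subgroup SL(2, F)) := hP (mem_zpowers a)
  rw [hg, Subgroup.mem_pointwise_smul_iff_inv_smul_mem] at h1
  obtain ⟨b, hb⟩ := SL2.mem_U.1 h1
  refine ⟨g, b, ?_⟩
  rw [← hb]
  have : (MulAut.conj g)⁻¹ • a = g⁻¹ * a * g := by
    rw [← map_inv]
    show g⁻¹ * a * (g⁻¹)⁻¹ = _
    rw [inv_inv]
  rw [this]; group

theorem sq_zero {a g : SL(2, F)} {b : F} (h : a = g * SL2.t b * g⁻¹) : (ρ F a - 1) ^ 2 = 0 := by
  have h1 : (ρ F (SL2.t b) - 1) ^ 2 = 0 := by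
    rw [sq]
    ext i j
    fin_cases i <;> fin_cases j <;> simp [ρ, Matrix.mul_apply, Fin.sum_univ_two]
  have e1 : ρ F g * ρ F g⁻¹ = 1 := by rw [← map_mul, mul_inv_cancel, map_one]
  have e2 : ρ F g⁻¹ * ρ F g = 1 := by rw [← map_mul, inv_mul_cancel, map_one]
  have h2 : ρ F a - 1 = ρ F g * (ρ F (SL2.t b) - 1) * ρ F g⁻¹ := by
    rw [h, map_mul, map_mul, mul_sub, sub_mul, mul_one, e1]
  rw [h2, sq]
  calc ρ F g * (ρ F (SL2.t b) - 1) * ρ F g⁻¹ * (ρ F g * (ρ F (SL2.t b) - 1) * ρ F g⁻¹)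
      = ρ F g * (ρ F (SL2.t b) - 1) * (ρ F g⁻¹ * ρ F g) * (ρ F (SL2.t b) - 1) * ρ F g⁻¹ := by simp only [mul_assoc]
    _ = ρ F g * (ρ F (SL2.t b) - 1) ^ 2 * ρ F g⁻¹ := by rw [e2, mul_one, sq]; simp only [mul_assoc]
    _ = 0 := by rw [h1, mul_zero, zero_mul]

theorem pow_form {a : SL(2, F)} (h : (ρ F a - 1) ^ 2 = 0) (n : ℕ) : ρ F a ^ n = 1 + n • (ρ F a - 1) := by
  set N := ρ F a - 1 with hN
  have ha : ρ F a = 1 + N := by rw [hN]; abel
  rw [ha]
  induction n with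
  | zero => simp
  | succ n ih =>
    rw [pow_succ, ih]
    have h1 : (1 + n • N) * (1 + N) = 1 + N + n • N + n • (N * N) := by
      rw [add_mul, one_mul, mul_add, mul_one, smul_mul_assoc]; abel
    rw [h1, ← sq, h, smul_zero, add_zero, succ_nsmul]; abel

theorem smul_p (M : Matrix (Fin 2) (Fin 2) F) : p • M = 0 := by
  ext i j
  rw [Matrix.smul_apply, nsmul_eq_mul, CharP.cast_eq_zero, zero_mul]; rfl

theorem pow_p {a : SL(2, F)} (h : (ρ F a - 1) ^ 2 = 0) : a ^ p = 1 := by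
  apply ρ_inj
  rw [map_pow, pow_form h, smul_p, add_zero, map_one]

theorem trace_zero (hp2 : p ≠ 2) {a : SL(2, F)} (h : (ρ F a - 1) ^ 2 = 0) : ∑ i ∈ Finset.range p, ρ F a ^ i = 0 := by
  rw [Finset.sum_congr rfl fun i _ => pow_form h i, Finset.sum_add_distrib, Finset.sum_const, Finset.card_range, smul_p, zero_add,
    ← Finset.sum_smul]
  have h1 : p ∣ ∑ i ∈ Finset.range p, i := by
    have h2 := Finset.sum_range_id_mul_two p
    have h3 : p ∣ (∑ i ∈ Finset.range p, i) * 2 := by rw [h2]; exact Dvd.intro _ rfl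
    exact ((Nat.coprime_primes hp.out Nat.prime_two).2 hp2).dvd_of_dvd_mul_right h3
  obtain ⟨k, hk⟩ := h1
  rw [hk, mul_comm, mul_nsmul, smul_p]

/-- a unipotent element centralizes every abelian `p'`-group normalized by it -/
theorem ab_cent (hp2 : p ≠ 2) {a : SL(2, F)} (h : (ρ F a - 1) ^ 2 = 0) {Q : Subgroup SL(2, F)} [Finite Q]
    (haQ : ∀ x ∈ Q, a * x * a⁻¹ ∈ Q) (hQ : ∀ x ∈ Q, ∀ y ∈ Q, x * y = y * x) (hcop : (Nat.card Q).Coprime p) :
    ∀ z ∈ Q, a * z * a⁻¹ = z := by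
  intro z hz
  have h1 := AbelSum.ring_key (R := Matrix (Fin 2) (Fin 2) F) hp.out (n := 1) one_ne_zero smul_p (ρ F) Q a haQ
    (fun x hx y hy => by rw [← map_mul, hQ x hx y hy, map_mul]) (m := Nat.card Q) (fun x hx => by
      rw [← map_pow, ← map_one (ρ F)]
      congr 1
      exact congrArg Subtype.val (pow_card_eq_one' (x := (⟨x, hx⟩ : Q)))) hcop
    (by rw [pow_one, ← map_pow, pow_p h, map_one]) (by rw [pow_one]; exact trace_zero hp2 h) z hz
  rw [Nat.sub_self, pow_zero, pow_one] at h1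
  exact ρ_inj h1

theorem cen {a x : SL(2, F)} [Fintype F] (ha : IsPGroup p (zpowers a)) (ha1 : a ≠ 1) (hx : (orderOf x).Coprime p) (hax : a * x = x * a) : x ^ 2 = 1 := by
  obtain ⟨g, b, rfl⟩ := conj_form (p := p) a ha
  have hb : b ≠ 0 := by
    rintro rfl
    apply ha1
    rw [SL2.t_zero]; group
  set y := g⁻¹ * x * g with hy
  have h1 : y * SL2.t b * y⁻¹ = SL2.t b := by
    rw [mul_inv_eq_iff_eq_mul, hy]
    have e1 : g⁻¹ * x * g * SL2.t b = g⁻¹ * (x * (g * SL2.t b * g⁻¹)) * g := by group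
    have e2 : SL2.t b * (g⁻¹ * x * g) = g⁻¹ * ((g * SL2.t b * g⁻¹) * x) * g := by group
    rw [e1, e2, hax]
  have h2 := SL2.mem_B_of_conj_t hb h1
  have h3 := SL2.conj_t_of_mem_B h2 b
  rw [h1] at h3
  have h4 := SL2.t_injective h3
  have h5 : (y : Matrix (Fin 2) (Fin 2) F) 0 0 ^ 2 = 1 := by
    have : ((y : Matrix (Fin 2) (Fin 2) F) 0 0 ^ 2 - 1) * b = 0 := by rw [sub_mul, one_mul, ← h4, sub_self]
    rcases mul_eq_zero.1 this with h6 | h6
    · exact sub_eq_zero.1 h6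
    · exact absurd h6 hb
  have h6 : y ^ 2 ∈ SL2.U F := by
    rw [SL2.mem_U_iff, sq]
    rw [SL2.mem_B] at h2
    constructor
    · simp [Matrix.mul_apply, Fin.sum_univ_two, h2]
    · rw [Matrix.SpecialLinearGroup.coe_mul, Matrix.mul_apply, Fin.sum_univ_two, h2, mul_zero, add_zero, ← sq, h5]
  obtain ⟨c, hc⟩ := SL2.mem_U.1 h6
  have h7 : (y ^ 2) ^ p = 1 := by
    rw [hc, SL2.t_pow, CharP.cast_eq_zero, zero_mul, SL2.t_zero]
  have h8 : x ^ 2 = g * y ^ 2 * g⁻¹ := by rw [hy, sq, sq]; group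
  have h9 : (x ^ 2) ^ p = 1 := by rw [h8, conj_pow, h7, mul_one, mul_inv_cancel]
  have h10 : (x ^ 2) ^ orderOf x = 1 := by rw [← pow_mul, mul_comm, pow_mul, pow_orderOf_eq_one, one_pow]
  have h11 : orderOf (x ^ 2) = 1 := Nat.eq_one_of_dvd_coprimes hx (orderOf_dvd_of_pow_eq_one h10) (orderOf_dvd_of_pow_eq_one h9)
  exact orderOf_eq_one_iff.1 h11

theorem pm_one (h2 : (2 : F) ≠ 0) {x : SL(2, F)} (h : x ^ 2 = 1) : x = 1 ∨ x = -1 := by
  have h1 : x = x⁻¹ := by rw [eq_inv_iff_mul_eq_one, ← sq]; exact h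
  have hb := congrArg (fun g : SL(2, F) => (g : Matrix (Fin 2) (Fin 2) F) 0 1) h1
  have hc := congrArg (fun g : SL(2, F) => (g : Matrix (Fin 2) (Fin 2) F) 1 0) h1
  have ha := congrArg (fun g : SL(2, F) => (g : Matrix (Fin 2) (Fin 2) F) 0 0) h1
  simp only [Matrix.SpecialLinearGroup.coe_inv, Matrix.adjugate_fin_two] at hb hc ha
  simp at hb hc ha
  have hb0 : (x : Matrix (Fin 2) (Fin 2) F) 0 1 = 0 := by
    have : 2 * (x : Matrix (Fin 2) (Fin 2) F) 0 1 = 0 := by linear_combination hb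
    exact (mul_eq_zero.1 this).resolve_left h2
  have hc0 : (x : Matrix (Fin 2) (Fin 2) F) 1 0 = 0 := by
    have : 2 * (x : Matrix (Fin 2) (Fin 2) F) 1 0 = 0 := by linear_combination hc
    exact (mul_eq_zero.1 this).resolve_left h2
  have hd := x.det_coe
  rw [Matrix.det_fin_two, hb0, hc0, ← ha] at hd
  have h3 : (x : Matrix (Fin 2) (Fin 2) F) 0 0 = 1 ∨ (x : Matrix (Fin 2) (Fin 2) F) 0 0 = -1 := by
    apply mul_self_eq_one_iff.1
    rw [mul_zero, sub_zero] at hd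
    exact hd
  rcases h3 with h3 | h3
  · left
    ext i j
    fin_cases i <;> fin_cases j <;> simp [hb0, hc0, h3, ← ha]
  · right
    ext i j
    fin_cases i <;> fin_cases j <;> simp [hb0, hc0, h3, ← ha]

end Cfsg.Agent.H2.SLQuad
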