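import Cfsg.Agent.H2.SLQuad
import Cfsg.Agent.Lib.Coprime
import Cfsg.Agent.Lib.Cores
import Cfsg.Agent.Lib.PGrpD
import Cfsg.Agent.Lib.QuatSL
import Cfsg.Agent.Lib.QuatApp
import Cfsg.Agent.Lib.PNilp

/-! `p`-elements of `SL₂(q)` acting on `p'`-subgroups. -/

set_option autoImplicit false
set_option linter.unusedSectionVars false
set_option linter.style.haveILetI false
set_option linter.unusedVariables false

namespace Cfsg.Agent.H2.SLQuadB

open Matrix Subgroup Cfsg.Agent.Lib Cfsg.Agent.Lib.QuatSyl Cfsg.Agent.Lib.PNilp Cfsg.Agent.H2.SLQuad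
open scoped MatrixGroups

variable {F : Type} [Field F] [Fintype F] {p : ℕ} [hp : Fact p.Prime] [CharP F p]

theorem a_sq {a : SL(2, F)} (ha : IsPGroup p (zpowers a)) : (ρ F a - 1) ^ 2 = 0 := by
  obtain ⟨g, b, h⟩ := conj_form (p := p) a ha
  exact sq_zero h

theorem order_dvd {Γ : Type*} [Group Γ] {R : Subgroup Γ} {x : Γ} (hx : x ∈ R) : orderOf x ∣ Nat.card R := by
  have := orderOf_dvd_natCard (⟨x, hx⟩ : R)
  rwa [← Subgroup.orderOf_coe] at this

theorem two_group (hp2 : p ≠ 2) {a : SL(2, F)} (ha : IsPGroup p (zpowers a)) (ha1 : a ≠ 1) {R : Subgroup SL(2, F)}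
    (hR : (Nat.card R).Coprime p) (haR : a ∈ normalizer (R : Set SL(2, F))) : IsPGroup 2 R := by
  have hsq := a_sq (p := p) ha
  have hap : orderOf a = p := orderOf_eq_prime (pow_p hsq) ha1
  have hunique : ∀ {r : ℕ}, r.Prime → r ∣ Nat.card R → r = 2 := by
    intro r hr hrd
    by_contra hr2
    haveI : Fact r.Prime := ⟨hr⟩
    haveI : Finite SL(2, F) := inferInstance
    obtain ⟨Q, hQ⟩ := Coprime.exists_invariant_sylow (A := zpowers a) (K := R) (by rw [zpowers_le]; exact haR)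
      (by rw [Nat.card_zpowers, hap]; exact hR.symm) (Or.inl (by
        haveI := ha.isNilpotent
        infer_instance)) r
    set QR := (Q : Subgroup R).map R.subtype with hQR
    have hQRr : IsPGroup r QR := Q.2.map _
    have hQRR : QR ≤ R := map_subtype_le _
    have hQR1 : QR ≠ ⊥ := by
      intro h
      rw [hQR, Subgroup.map_eq_bot_iff_of_injective _ R.subtype_injective] at h
      have h1 := Q.not_dvd_index
      rw [h, Subgroup.index_bot] at h1
      exact h1 hrd
    haveI : Nontrivial QR := (Subgroup.nontrivial_iff_ne_bot _).2 hQR1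
    have haQ : a ∈ normalizer (QR : Set SL(2, F)) := hQ (mem_zpowers a)
    haveI := hQRr.center_nontrivial
    obtain ⟨c, hc⟩ := exists_ne (1 : center QR)
    set Z : Subgroup SL(2, F) := QR ⊓ centralizer (QR : Set SL(2, F)) with hZ
    have hcZ : ((c : QR) : SL(2, F)) ∈ Z := by
      refine ⟨(c : QR).2, mem_centralizer_iff.2 fun y hy => ?_⟩
      exact congrArg (fun t : QR => (t : SL(2, F))) (mem_center_iff.1 c.2 ⟨y, hy⟩)
    have hc1 : ((c : QR) : SL(2, F)) ≠ 1 := fun h => hc (Subtype.ext (Subtype.ext h))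
    have haZ : ∀ x ∈ Z, a * x * a⁻¹ ∈ Z := by
      rintro x ⟨hx1, hx2⟩
      refine ⟨(mem_normalizer_iff.1 haQ x).1 hx1, mem_centralizer_iff.2 fun y hy => ?_⟩
      have hy' : a⁻¹ * y * a ∈ QR := by
        have h1 := (mem_normalizer_iff.1 ((normalizer (QR : Set SL(2, F))).inv_mem haQ) y).1 hy
        rwa [inv_inv] at h1
      have h2 := mem_centralizer_iff.1 hx2 _ hy'
      calc y * (a * x * a⁻¹) = a * ((a⁻¹ * y * a) * x) * a⁻¹ := by group
        _ = a * (x * (a⁻¹ * y * a)) * a⁻¹ := by rw [h2]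
        _ = _ := by group
    have hZab : ∀ x ∈ Z, ∀ y ∈ Z, x * y = y * x := fun x hx y hy => mem_centralizer_iff.1 hy.2 x hx.1
    have hZc : (Nat.card Z).Coprime p := Nat.Coprime.coprime_dvd_left (Subgroup.card_dvd_of_le (inf_le_left.trans hQRR)) hR
    have h1 := ab_cent hp2 hsq haZ hZab hZc _ hcZ
    have h2 := cen ha ha1 (Nat.Coprime.coprime_dvd_left (order_dvd hcZ) hZc) (mul_inv_eq_iff_eq_mul.1 h1)
    obtain ⟨k, hk⟩ := IsPGroup.iff_card.1 hQRr
    have h3 : orderOf ((c : QR) : SL(2, F)) ∣ r ^ k := by rw [← hk]; exact order_dvd (c : QR).2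
    have h4 : orderOf ((c : QR) : SL(2, F)) = 1 := by
      apply Nat.eq_one_of_dvd_coprimes _ h3 (orderOf_dvd_of_pow_eq_one h2)
      exact Nat.Coprime.pow_left k ((Nat.coprime_primes hr Nat.prime_two).2 hr2)
    exact hc1 (orderOf_eq_one_iff.1 h4)
  have h1 := Nat.eq_prime_pow_of_unique_prime_dvd (n := Nat.card R) (p := 2) Nat.card_pos.ne' hunique
  exact IsPGroup.of_card h1

theorem main (hp2 : p ≠ 2) {a : SL(2, F)} (ha : IsPGroup p (zpowers a)) {R : Subgroup SL(2, F)}
    (hR : (Nat.card R).Coprime p) (haR : a ∈ normalizer (R : Set SL(2, F))) (hnt : ⁅R, zpowers a⁆ ≠ ⊥) :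
    p = 3 ∧ Nonempty (R ≃* QuaternionGroup 2) ∧ Nonempty ((R ⊔ zpowers a : Subgroup SL(2, F)) ≃* SL(2, ZMod 3)) := by
  haveI : Fact (Nat.Prime 2) := ⟨Nat.prime_two⟩
  haveI : Finite SL(2, F) := inferInstance
  have hnc : ¬ ∀ x ∈ R, a * x = x * a := by
    intro h
    apply hnt
    rw [Subgroup.commutator_comm, Subgroup.commutator_eq_bot_iff_le_centralizer, zpowers_le, mem_centralizer_iff]
    exact fun x hx => (h x hx).symm
  have ha1 : a ≠ 1 := by
    rintro rfl
    exact hnc fun x _ => by rw [one_mul, mul_one]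
  have h2F : (2 : F) ≠ 0 := by
    intro h
    have h1 : ((2 : ℕ) : F) = 0 := by exact_mod_cast h
    have h2 := (CharP.cast_eq_zero_iff F p 2).1 h1
    exact hp2 ((Nat.prime_dvd_prime_iff_eq hp.out Nat.prime_two).1 h2)
  have hsq := a_sq (p := p) ha
  have hap : orderOf a = p := orderOf_eq_prime (pow_p hsq) ha1
  have hR2 := two_group hp2 ha ha1 hR haR
  have hRna : ¬ ∀ x ∈ R, ∀ y ∈ R, x * y = y * x := by
    intro h
    apply hnc
    intro x hx
    exact mul_inv_eq_iff_eq_mul.1 (ab_cent hp2 hsq (fun x hx => (mem_normalizer_iff.1 haR x).1 hx) h hR x hx)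
  set X := (R ⊔ zpowers a : Subgroup SL(2, F)) with hX
  have hRX : R ≤ X := le_sup_left
  have haX : a ∈ X := (le_sup_right : zpowers a ≤ X) (mem_zpowers a)
  have hcardX : Nat.card X = Nat.card R * p := by
    have h1 := Basic.card_sup_mul_card_inf (N := R) (H := zpowers a) (by rw [zpowers_le]; exact haR)
    have h2 : Nat.card (R ⊓ zpowers a : Subgroup SL(2, F)) = 1 := by
      apply Nat.eq_one_of_dvd_coprimes hR (Subgroup.card_dvd_of_le inf_le_left)
      have h3 : Nat.card (R ⊓ zpowers a : Subgroup SL(2, F)) ∣ Nat.card (zpowers a) := Subgroup.card_dvd_of_le inf_le_right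
      rwa [Nat.card_zpowers, hap] at h3
    rw [h2, mul_one, Nat.card_zpowers, hap] at h1
    exact h1
  set R' : Subgroup X := R.subgroupOf X with hR'
  have hR'c : Nat.card R' = Nat.card R := Nat.card_congr (Subgroup.subgroupOfEquivOfLe hRX).toEquiv
  have hR'2 : IsPGroup 2 R' := by
    obtain ⟨k, hk⟩ := IsPGroup.iff_card.1 hR2
    exact IsPGroup.of_card (n := k) (by rw [hR'c, hk])
  have hidx : R'.index = p := by
    have h1 := R'.card_mul_index
    rw [hR'c, hcardX] at h1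
    exact Nat.eq_of_mul_eq_mul_left Nat.card_pos h1
  have hS : ¬ 2 ∣ R'.index := by
    rw [hidx]
    intro h
    exact hp2 ((Nat.prime_dvd_prime_iff_eq Nat.prime_two hp.out).1 h).symm
  obtain ⟨S, hSR⟩ : ∃ S : Sylow 2 X, (S : Subgroup X) = R' := ⟨hR'2.toSylow hS, rfl⟩
  have hmemS : ∀ x : X, x ∈ (S : Subgroup X) ↔ (x : SL(2, F)) ∈ R := by
    intro x; rw [hSR, hR', mem_subgroupOf]
  have huniq : ∀ x y : S, orderOf x = 2 → orderOf y = 2 → x = y := by
    have key : ∀ x : S, orderOf x = 2 → (((x : X) : SL(2, F))) = -1 := by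
      intro x hx
      have h1 : x ^ 2 = 1 := orderOf_dvd_iff_pow_eq_one.1 hx.dvd
      have h2 : ((x : X) : SL(2, F)) ^ 2 = 1 := congrArg (fun t : S => ((t : X) : SL(2, F))) h1
      rcases pm_one h2F h2 with h3 | h3
      · exfalso
        have h4 : x = 1 := Subtype.ext (Subtype.ext h3)
        rw [h4, orderOf_one] at hx
        omega
      · exact h3
    intro x y hx hy
    exact Subtype.ext (Subtype.ext ((key x hx).trans (key y hy).symm))
  rcases PGrpD.cyclic_or_quaternion S.2 huniq with hcyc | ⟨m, u, v, hm, hu, hv, huv, hvu, hcard⟩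
  · exfalso
    apply hRna
    intro x hx y hy
    obtain ⟨g, hg⟩ := hcyc.exists_generator
    obtain ⟨k, hk⟩ := mem_zpowers_iff.1 (hg ⟨⟨x, hRX hx⟩, (hmemS _).2 hx⟩)
    obtain ⟨l, hl⟩ := mem_zpowers_iff.1 (hg ⟨⟨y, hRX hy⟩, (hmemS _).2 hy⟩)
    have h2 : (⟨⟨x, hRX hx⟩, (hmemS _).2 hx⟩ : S) * ⟨⟨y, hRX hy⟩, (hmemS _).2 hy⟩ = ⟨⟨y, hRX hy⟩, (hmemS _).2 hy⟩ * ⟨⟨x, hRX hx⟩, (hmemS _).2 hx⟩ := by
      rw [← hk, ← hl, ← _root_.zpow_add, ← _root_.zpow_add, add_comm]
    exact congrArg (fun t : S => ((t : X) : SL(2, F))) h2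
  obtain ⟨e⟩ := PGrpD.quaternion_iso hu hv huv hvu hcard
  obtain ⟨a0, b0, hQS⟩ := QuatApp.qs_of_equiv S hm e
  set a' : X := ⟨a, haX⟩ with ha'
  have ho : (orderOf a').Coprime 2 := by
    rw [← Subgroup.orderOf_coe, hap]
    exact (Nat.coprime_primes hp.out Nat.prime_two).2 hp2
  have ha'n : a' ∈ normalizer ((S : Subgroup X) : Set X) := by
    rw [mem_normalizer_iff]
    intro x
    rw [hmemS, hmemS]
    exact mem_normalizer_iff.1 haR x
  have hac : a' ∉ centralizer ((S : Subgroup X) : Set X) := by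
    intro h
    apply hnc
    intro x hx
    have h1 := mem_centralizer_iff.1 h ⟨x, hRX hx⟩ ((hmemS _).2 hx)
    exact (congrArg Subtype.val h1).symm
  have h4 := QuatSL.pow4_eq_one hQS le_rfl ha'n ho hac
  have hm1 : m = 1 := by
    have h5 := orderOf_dvd_of_pow_eq_one (h4 a0 hQS.ha)
    rw [hQS.hao, show (4 : ℕ) = 2 ^ 2 by norm_num] at h5
    have h6 := (Nat.pow_dvd_pow_iff_le_right (by norm_num : 1 < 2)).1 h5
    omega
  have hcR : Nat.card R = 8 := by
    rw [← hR'c, ← hSR]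
    have := hQS.hc
    rw [hm1] at this
    exact this
  have hn : ¬ PNil 2 X := by
    rw [pNil_iff_frobCond]
    intro hf
    exact hac (hf _ S.2 a' ha'n ho)
  obtain ⟨i, j, g, hi, hj, hgo, hi2, hji, hrel⟩ := QuatSL.exists_rel hQS hn
  have hg1 : g ≠ 1 := by
    rintro rfl
    have h5 := hrel.gi
    rw [one_mul, mul_one] at h5
    exact hji (by rw [← h5]; exact mem_zpowers i)
  have hgp : orderOf g = p := by
    have h5 : orderOf g ∣ 8 * p := by rw [← hcR, ← hcardX]; exact orderOf_dvd_natCard g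
    have h6 : (orderOf g).Coprime 8 := by
      rw [show (8 : ℕ) = 2 ^ 3 by norm_num]; exact hgo.pow_right 3
    have h7 : orderOf g ∣ p := h6.dvd_of_dvd_mul_left h5
    rcases (Nat.dvd_prime hp.out).1 h7 with h8 | h8
    · exact absurd (orderOf_eq_one_iff.1 h8) hg1
    · exact h8
  have hg3i : g ^ 3 * i = i * g ^ 3 := by
    have e1 : j * i * j = i := by
      rw [hrel.ji, mul_assoc, hrel.j2, ← pow_add, show 3 + 2 = 4 + 1 by norm_num, pow_succ, hrel.i4, one_mul]
    calc g ^ 3 * i = g * (g * (g * i)) := by rw [pow_succ, pow_succ, pow_one]; simp only [mul_assoc]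
      _ = g * ((g * j) * g) := by rw [hrel.gi]; simp only [mul_assoc]
      _ = (g * i) * j * g * g := by rw [hrel.gj]; simp only [mul_assoc]
      _ = j * (g * j) * g * g := by rw [hrel.gi]; simp only [mul_assoc]
      _ = (j * i * j) * (g * g * g) := by rw [hrel.gj]; simp only [mul_assoc]
      _ = i * g ^ 3 := by rw [e1, pow_succ, pow_succ, pow_one]
  have hg3 : g ^ 3 = 1 := by
    by_contra hne
    have h5 : IsPGroup p (zpowers ((g ^ 3 : X) : SL(2, F))) := by
      have h6 : orderOf ((g ^ 3 : X) : SL(2, F)) ∣ p ^ 1 := by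
        rw [Subgroup.orderOf_coe, pow_one, ← hgp]
        exact orderOf_pow_dvd 3
      obtain ⟨k, -, hk⟩ := (Nat.dvd_prime_pow hp.out).1 h6
      exact IsPGroup.of_card (n := k) (by rw [Nat.card_zpowers, hk])
    have h6 : ((g ^ 3 : X) : SL(2, F)) ≠ 1 := fun h => hne (Subtype.ext h)
    have h7 := cen h5 h6 (x := (i : SL(2, F))) (Nat.Coprime.coprime_dvd_left (order_dvd ((hmemS i).1 hi)) hR)
      (congrArg Subtype.val hg3i)
    exact hi2 (Subtype.ext h7)
  have hp3 : p = 3 := by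
    have h5 := orderOf_dvd_of_pow_eq_one hg3
    rw [hgp] at h5
    exact (Nat.prime_dvd_prime_iff_eq hp.out Nat.prime_three).1 h5
  refine ⟨hp3, ?_, ?_⟩
  · rw [hm1, pow_one] at e
    have e1 : R ≃* R' := (Subgroup.subgroupOfEquivOfLe hRX).symm
    exact ⟨(e1.trans (MulEquiv.subgroupCongr hSR.symm)).trans e⟩
  · have hz : zpowers (g ^ 3) = ⊥ := by rw [hg3, zpowers_one_eq_bot]
    have hgS : ∀ n : ℕ, g ^ n ∈ (S : Subgroup X) → g ^ n = 1 := by
      intro n hn'
      obtain ⟨k, hk⟩ := S.2 ⟨_, hn'⟩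
      have h5 : (g ^ n) ^ 2 ^ k = 1 := congrArg Subtype.val hk
      have h6 : (g ^ n) ^ orderOf g = 1 := by rw [← pow_mul, mul_comm, pow_mul, pow_orderOf_eq_one, one_pow]
      exact orderOf_eq_one_iff.1 (Nat.eq_one_of_dvd_coprimes (hgo.pow_right k) (orderOf_dvd_of_pow_eq_one h6) (orderOf_dvd_of_pow_eq_one h5))
    have hio : orderOf i = 4 := by
      refine orderOf_eq_prime_pow (p := 2) (n := 1) ?_ ?_
      · rw [pow_one]; exact hi2
      · exact hrel.i4
    have hg3o : orderOf g = 3 := by rw [hgp, hp3]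
    have hinj : ∀ v w : QuatSL.T, ∀ k ∈ zpowers (g ^ 3), QuatSL.F i j g v = QuatSL.F i j g w * k → v = w := by
      rintro ⟨v1, v2, v3⟩ ⟨w1, w2, w3⟩ k hk h5
      rw [hz, mem_bot] at hk
      rw [hk, mul_one] at h5
      unfold QuatSL.F at h5
      simp only at h5
      -- third coordinate
      have hc3 : v3 = w3 := by
        have h6 : ∀ x y : Fin 3, (y : ℕ) ≤ x → g ^ (x : ℕ) * (g ^ (y : ℕ))⁻¹ ∈ (S : Subgroup X) → x = y := by
          intro x y hxy h7
          have h8 : g ^ (x : ℕ) * (g ^ (y : ℕ))⁻¹ = g ^ ((x : ℕ) - y) := (pow_sub g hxy).symm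
          rw [h8] at h7
          have h9 := orderOf_dvd_of_pow_eq_one (hgS _ h7)
          rw [hg3o] at h9
          have h10 : (x : ℕ) - y = 0 := Nat.eq_zero_of_dvd_of_lt h9 (by omega)
          exact Fin.ext (by omega)
        have h7 : g ^ (v3 : ℕ) * (g ^ (w3 : ℕ))⁻¹ ∈ (S : Subgroup X) := by
          have h8 : g ^ (v3 : ℕ) * (g ^ (w3 : ℕ))⁻¹ = (i ^ (v1 : ℕ) * j ^ (v2 : ℕ))⁻¹ * (i ^ (w1 : ℕ) * j ^ (w2 : ℕ)) := by
            rw [mul_inv_eq_iff_eq_mul, mul_assoc, ← h5]; group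
          rw [h8]
          exact mul_mem (inv_mem (mul_mem (pow_mem hi _) (pow_mem hj _))) (mul_mem (pow_mem hi _) (pow_mem hj _))
        rcases le_total (w3 : ℕ) v3 with h8 | h8
        · exact h6 v3 w3 h8 h7
        · refine (h6 w3 v3 h8 ?_).symm
          have h9 := inv_mem h7
          rwa [_root_.mul_inv_rev, inv_inv] at h9
      subst hc3
      have h6 := mul_right_cancel h5
      have hc2 : v2 = w2 := by
        have h7 : j ^ (v2 : ℕ) * (j ^ (w2 : ℕ))⁻¹ ∈ zpowers i := by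
          have h8 : j ^ (v2 : ℕ) * (j ^ (w2 : ℕ))⁻¹ = (i ^ (v1 : ℕ))⁻¹ * i ^ (w1 : ℕ) := by
            rw [mul_inv_eq_iff_eq_mul, mul_assoc, ← h6]; group
          rw [h8]
          exact mul_mem (inv_mem (pow_mem (mem_zpowers i) _)) (pow_mem (mem_zpowers i) _)
        fin_cases v2 <;> fin_cases w2
        · rfl
        · exfalso
          simp at h7
          exact hji h7
        · exfalso
          simp at h7
          exact hji h7
        · rfl
      subst hc2
      have h7 := mul_right_cancel h6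
      have hc1 : v1 = w1 := by
        have h8 := pow_inj_mod.1 h7
        rw [hio, Nat.mod_eq_of_lt v1.2, Nat.mod_eq_of_lt w1.2] at h8
        exact Fin.ext h8
      rw [hc1]
    obtain ⟨hK, ⟨E⟩⟩ := QuatSL.section_iso hrel hinj
    have hY : Nat.card SL(2, ZMod 3) = 24 := by
      haveI : Fact (Nat.Prime 3) := ⟨by norm_num⟩
      have := Cfsg.Agent.Lib.SL2.card_SL2_eq (F := ZMod 3)
      rw [ZMod.card] at this
      exact this
    set H := closure ({i, j, g} : Set X) with hH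
    have hbot : (zpowers (g ^ 3)).subgroupOf H = ⊥ := by rw [hz, Subgroup.bot_subgroupOf]
    have hHc : Nat.card H = 24 := by
      have h5 := ((zpowers (g ^ 3)).subgroupOf H).card_mul_index
      rw [Subgroup.index_eq_card, Nat.card_congr E.toEquiv, hY, hbot, Subgroup.card_bot, one_mul] at h5
      exact h5.symm
    have hHt : H = ⊤ := Subgroup.eq_top_of_card_eq _ (by rw [hHc, hcardX, hcR, hp3])
    let q : H →* H ⧸ (zpowers (g ^ 3)).subgroupOf H := QuotientGroup.mk' _
    have hq : Function.Bijective q := by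
      constructor
      · rw [← MonoidHom.ker_eq_bot_iff, QuotientGroup.ker_mk', hbot]
      · exact QuotientGroup.mk'_surjective _
    have e2 : X ≃* H := (Subgroup.topEquiv.symm).trans (MulEquiv.subgroupCongr hHt.symm)
    exact ⟨(e2.trans (MulEquiv.ofBijective q hq)).trans E⟩

end Cfsg.Agent.H2.SLQuadB
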