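import Mathlib
import Cfsg.Agent.Lib.SchurMult
import Cfsg.Agent.Lib.HeisGrp
import Cfsg.Agent.H2.SchurMeta
set_option autoImplicit false

open scoped commutatorElement IsMulCommutative TensorProduct
open Cfsg.Agent.Lib.SchurMult Cfsg.Agent.H2.SchurMeta Cfsg.Agent.Lib.HeisGrp

namespace Cfsg.Agent.H2.SchurProd

universe u v w

section Lower
universe x y z
variable {Q₁ : Type u} {Q₂ : Type v} [Group Q₁] [Group Q₂] {Γ₁ : Type x} {Γ₂ : Type y} [Group Γ₁]
  [Group Γ₂] {T : Type z} [CommGroup T]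

/-- the stem extension of a product attached to stem extensions of the factors and a bilinear
map whose values generate -/
theorem stem_heis (σ₁ : Γ₁ →* Q₁) (σ₂ : Γ₂ →* Q₂) (h1 : Cfsg.IsStemExtension σ₁)
    (h2 : Cfsg.IsStemExtension σ₂) (c : Q₁ →* (Q₂ →* T))
    (hc : Subgroup.closure {t | ∃ x y, t = c x y} = ⊤) :
    ∃ (Γ : Type (max x y z)) (_ : Group Γ) (σ : Γ →* Q₁ × Q₂), Cfsg.IsStemExtension σ ∧
      Nonempty (σ.ker ≃* σ₁.ker × σ₂.ker × T) := by
  let c' : Γ₁ →* (Γ₂ →* T) :=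
    { toFun := fun x => (c (σ₁ x)).comp σ₂
      map_one' := by
        refine MonoidHom.ext fun y => ?_
        simp
      map_mul' := by
        intro a b
        refine MonoidHom.ext fun y => ?_
        simp }
  have hc' : ∀ x y, c' x y = c (σ₁ x) (σ₂ y) := fun _ _ => rfl
  let σ : Heis c' →* Q₁ × Q₂ := (MonoidHom.prodMap σ₁ σ₂).comp proj
  have hσ : ∀ a, σ a = (σ₁ a.x, σ₂ a.y) := fun _ => rfl
  have hmem : ∀ a : Heis c', a ∈ σ.ker ↔ a.x ∈ σ₁.ker ∧ a.y ∈ σ₂.ker := by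
    intro a
    rw [MonoidHom.mem_ker, hσ, Prod.mk_eq_one, MonoidHom.mem_ker, MonoidHom.mem_ker]
  have hT : ∀ t : T, (inT t : Heis c') ∈ commutator (Heis c') := by
    have : (Subgroup.closure {t | ∃ x y, t = c x y}) ≤
        (commutator (Heis c')).comap (inT : T →* Heis c') := by
      rw [Subgroup.closure_le]
      rintro _ ⟨x, y, rfl⟩
      obtain ⟨x, rfl⟩ := h1.1 x
      obtain ⟨y, rfl⟩ := h2.1 y
      change inT (c' x y) ∈ commutator (Heis c')
      rw [← commutator_inX_inY]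
      exact Subgroup.commutator_mem_commutator (Subgroup.mem_top _) (Subgroup.mem_top _)
    rw [hc] at this
    intro t
    exact this (Subgroup.mem_top t)
  refine ⟨Heis c', inferInstance, σ, ⟨?_, ?_, ?_⟩, ?_⟩
  · rintro ⟨a, b⟩
    obtain ⟨x, rfl⟩ := h1.1 a
    obtain ⟨y, rfl⟩ := h2.1 b
    exact ⟨⟨x, y, 1⟩, rfl⟩
  · intro a ha
    obtain ⟨hx, hy⟩ := (hmem a).mp ha
    rw [Subgroup.mem_center_iff]
    intro b
    refine ext' ?_ ?_ ?_
    · exact Subgroup.mem_center_iff.mp (h1.2.1 hx) _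
    · exact Subgroup.mem_center_iff.mp (h2.2.1 hy) _
    · rw [mul_t, mul_t, hc', hc', MonoidHom.mem_ker.mp hx, MonoidHom.mem_ker.mp hy, map_one,
        map_one, MonoidHom.one_apply, mul_comm a.t]
  · intro a ha
    obtain ⟨hx, hy⟩ := (hmem a).mp ha
    rw [eq_mul a]
    refine mul_mem (mul_mem ?_ ?_) (hT _)
    · have : (commutator Γ₂).map (inY : Γ₂ →* Heis c') ≤ commutator (Heis c') := by
        rw [commutator_def, Subgroup.map_commutator]
        exact Subgroup.commutator_mono le_top le_top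
      exact this ⟨a.y, h2.2.2 hy, rfl⟩
    · have : (commutator Γ₁).map (inX : Γ₁ →* Heis c') ≤ commutator (Heis c') := by
        rw [commutator_def, Subgroup.map_commutator]
        exact Subgroup.commutator_mono le_top le_top
      exact this ⟨a.x, h1.2.2 hx, rfl⟩
  · refine ⟨{ toFun := fun a => (⟨a.1.x, ((hmem a.1).mp a.2).1⟩, ⟨a.1.y, ((hmem a.1).mp a.2).2⟩, a.1.t),
              invFun := fun b => ⟨⟨b.1, b.2.1, b.2.2⟩, (hmem _).mpr ⟨b.1.2, b.2.1.2⟩⟩,
              left_inv := fun a => rfl,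
              right_inv := fun b => rfl,
              map_mul' := ?_ }⟩
    intro a b
    refine Prod.ext rfl (Prod.ext rfl ?_)
    change a.1.t * b.1.t * c' a.1.x b.1.y = a.1.t * b.1.t
    rw [hc', MonoidHom.mem_ker.mp ((hmem a.1).mp a.2).1, map_one, MonoidHom.one_apply, mul_one]

end Lower

section Tensor
variable (Q₁ : Type u) (Q₂ : Type v) [Group Q₁] [Group Q₂]

/-- the tensor product of the abelianizations, written multiplicatively -/
abbrev AbTensor : Type (max u v) :=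
  Multiplicative (TensorProduct ℤ (Additive (Abelianization Q₁)) (Additive (Abelianization Q₂)))

/-- the universal bimultiplicative map -/
noncomputable def abTmul : Q₁ →* (Q₂ →* AbTensor Q₁ Q₂) where
  toFun x :=
    { toFun := fun y => Multiplicative.ofAdd
        (Additive.ofMul (Abelianization.of x) ⊗ₜ[ℤ] Additive.ofMul (Abelianization.of y))
      map_one' := by
        rw [map_one, ofMul_one, TensorProduct.tmul_zero]; rfl
      map_mul' := by
        intro a b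
        rw [map_mul, ofMul_mul, TensorProduct.tmul_add]; rfl }
  map_one' := by
    refine MonoidHom.ext fun y => ?_
    change Multiplicative.ofAdd (Additive.ofMul (Abelianization.of 1) ⊗ₜ[ℤ] _) = 1
    rw [map_one, ofMul_one, TensorProduct.zero_tmul]; rfl
  map_mul' := by
    intro a b
    refine MonoidHom.ext fun y => ?_
    change Multiplicative.ofAdd (Additive.ofMul (Abelianization.of (a * b)) ⊗ₜ[ℤ] _) = _
    rw [map_mul, ofMul_mul, TensorProduct.add_tmul]; rfl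

theorem abTmul_apply (x : Q₁) (y : Q₂) : abTmul Q₁ Q₂ x y = Multiplicative.ofAdd
    (Additive.ofMul (Abelianization.of x) ⊗ₜ[ℤ] Additive.ofMul (Abelianization.of y)) := rfl

theorem closure_abTmul : Subgroup.closure {t | ∃ x y, t = abTmul Q₁ Q₂ x y} = ⊤ := by
  rw [eq_top_iff]
  intro t _
  have : ∀ t : TensorProduct ℤ (Additive (Abelianization Q₁)) (Additive (Abelianization Q₂)),
      Multiplicative.ofAdd t ∈ Subgroup.closure {t | ∃ x y, t = abTmul Q₁ Q₂ x y} := by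
    intro t
    induction t using TensorProduct.induction_on with
    | zero => exact one_mem _
    | tmul a b =>
      obtain ⟨x, hx⟩ := QuotientGroup.mk_surjective a.toMul
      obtain ⟨y, hy⟩ := QuotientGroup.mk_surjective b.toMul
      apply Subgroup.subset_closure
      refine ⟨x, y, ?_⟩
      rw [abTmul_apply]
      congr 1
      have h1 : Abelianization.of x = a.toMul := hx
      have h2 : Abelianization.of y = b.toMul := hy
      rw [h1, h2]; rfl
    | add a b ha hb => exact mul_mem ha hb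
  exact this t.toAdd

/-- universal property -/
theorem exists_lift_abTmul {P : Type w} [CommGroup P] (b : Q₁ →* (Q₂ →* P)) :
    ∃ F : AbTensor Q₁ Q₂ →* P, ∀ x y, F (abTmul Q₁ Q₂ x y) = b x y := by
  let b₁ : Q₁ →* (Abelianization Q₂ →* P) :=
    { toFun := fun x => Abelianization.lift (b x)
      map_one' := by
        rw [map_one]
        refine MonoidHom.ext fun y => ?_
        obtain ⟨y, rfl⟩ := QuotientGroup.mk_surjective y
        rfl
      map_mul' := by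
        intro a c
        rw [map_mul]
        refine MonoidHom.ext fun y => ?_
        obtain ⟨y, rfl⟩ := QuotientGroup.mk_surjective y
        rfl }
  let b₂ : Abelianization Q₁ →* (Abelianization Q₂ →* P) := Abelianization.lift b₁
  have hb₂ : ∀ x y, b₂ (Abelianization.of x) (Abelianization.of y) = b x y := fun x y => rfl
  let g : Additive (Abelianization Q₁) →+ (Additive (Abelianization Q₂) →+ Additive P) :=
    { toFun := fun a => MonoidHom.toAdditive (b₂ a.toMul)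
      map_zero' := by
        change MonoidHom.toAdditive (b₂ 1) = 0
        rw [map_one]; rfl
      map_add' := by
        intro x y
        change MonoidHom.toAdditive (b₂ (x.toMul * y.toMul)) = _
        rw [map_mul]; rfl }
  let G := TensorProduct.liftAddHom (R := ℤ) g (by
    intro r m n
    rw [map_zsmul, map_zsmul, AddMonoidHom.zsmul_apply])
  refine ⟨{ toFun := fun t => (G t.toAdd).toMul
            map_one' := by
              change (G 0).toMul = 1
              rw [map_zero]; rfl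
            map_mul' := by
              intro s t
              change (G (s.toAdd + t.toAdd)).toMul = _
              rw [map_add]; rfl }, ?_⟩
  intro x y
  change (G (_ ⊗ₜ[ℤ] _)).toMul = _
  rw [TensorProduct.liftAddHom_tmul]
  exact hb₂ x y

end Tensor

section Upper
variable {Q₁ : Type u} {Q₂ : Type v} [Group Q₁] [Group Q₂]

/-- the commutator pairing of a central extension of a product -/
theorem exists_pairing {Δ : Type*} [Group Δ] (σ : Δ →* Q₁ × Q₂) (hs : Function.Surjective σ)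
    (hc : σ.ker ≤ Subgroup.center Δ) :
    ∃ F : AbTensor Q₁ Q₂ →* Δ, (∀ t, F t ∈ σ.ker) ∧
      ∀ a b : Δ, (σ a).2 = 1 → (σ b).1 = 1 → ⁅a, b⁆ ∈ F.range := by
  have hK : IsMulCommutative σ.ker := isMulCommutative_of_le_center hc
  choose s hs' using hs
  -- the commutator only depends on images
  have key : ∀ a b a' b' : Δ, σ a = σ a' → σ b = σ b' → ⁅a, b⁆ = ⁅a', b'⁆ := by
    intro a b a' b' h1 h2
    have hz : a'⁻¹ * a ∈ Subgroup.center Δ := hc (by
      rw [MonoidHom.mem_ker, map_mul, map_inv, h1, inv_mul_cancel])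
    have hw : b'⁻¹ * b ∈ Subgroup.center Δ := hc (by
      rw [MonoidHom.mem_ker, map_mul, map_inv, h2, inv_mul_cancel])
    have := commutatorElement_mul_central a' b' _ _ hz hw
    rwa [mul_inv_cancel_left, mul_inv_cancel_left] at this
  have hker : ∀ a b : Δ, (σ a).2 = 1 → (σ b).1 = 1 → ⁅a, b⁆ ∈ σ.ker := by
    intro a b h1 h2
    rw [MonoidHom.mem_ker, map_commutatorElement, commutatorElement_eq_one_iff_mul_comm]
    refine Prod.ext ?_ ?_
    · rw [Prod.fst_mul, Prod.fst_mul, h2, mul_one, one_mul]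
    · rw [Prod.snd_mul, Prod.snd_mul, h1, mul_one, one_mul]
  have hcen : ∀ z ∈ σ.ker, ∀ x : Δ, x * z = z * x := fun z hz x =>
    Subgroup.mem_center_iff.mp (hc hz) x
  let b : Q₁ →* (Q₂ →* σ.ker) :=
    { toFun := fun x =>
        { toFun := fun y => ⟨⁅s (x, 1), s (1, y)⁆, hker _ _ (by rw [hs']) (by rw [hs'])⟩
          map_one' := by
            apply Subtype.ext
            change ⁅s (x, 1), s (1, 1)⁆ = 1
            rw [key _ _ (s (x, 1)) 1 rfl (by rw [hs', map_one]; rfl)]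
            exact commutatorElement_one_right _
          map_mul' := by
            intro y y'
            apply Subtype.ext
            change ⁅s (x, 1), s (1, y * y')⁆ = ⁅s (x, 1), s (1, y)⁆ * ⁅s (x, 1), s (1, y')⁆
            rw [key _ _ (s (x, 1)) (s (1, y) * s (1, y')) rfl (by
              rw [map_mul, hs', hs', hs', Prod.mk_mul_mk, one_mul])]
            have h1 : ⁅s (x, 1), s (1, y) * s (1, y')⁆ =
              ⁅s (x, 1), s (1, y)⁆ * (s (1, y) * ⁅s (x, 1), s (1, y')⁆ * (s (1, y))⁻¹) := by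
              simp only [commutatorElement_def]; group
            rw [h1, hcen _ (hker (s (x, 1)) (s (1, y')) (by rw [hs']) (by rw [hs'])) (s (1, y)),
              mul_inv_cancel_right] }
      map_one' := by
        refine MonoidHom.ext fun y => Subtype.ext ?_
        change ⁅s (1, 1), s (1, y)⁆ = 1
        rw [key _ _ 1 (s (1, y)) (by rw [hs', map_one]; rfl) rfl]
        exact commutatorElement_one_left _
      map_mul' := by
        intro x x'
        refine MonoidHom.ext fun y => Subtype.ext ?_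
        change ⁅s (x * x', 1), s (1, y)⁆ = ⁅s (x, 1), s (1, y)⁆ * ⁅s (x', 1), s (1, y)⁆
        rw [key _ _ (s (x, 1) * s (x', 1)) (s (1, y)) (by
              rw [map_mul, hs', hs', hs', Prod.mk_mul_mk, one_mul]) rfl]
        have h1 : ⁅s (x, 1) * s (x', 1), s (1, y)⁆ =
              (s (x, 1) * ⁅s (x', 1), s (1, y)⁆ * (s (x, 1))⁻¹) * ⁅s (x, 1), s (1, y)⁆ := by
          simp only [commutatorElement_def]; group
        rw [h1, hcen _ (hker (s (x', 1)) (s (1, y)) (by rw [hs']) (by rw [hs'])) (s (x, 1)),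
              mul_inv_cancel_right]
        exact (hcen _ (hker (s (x', 1)) (s (1, y)) (by rw [hs']) (by rw [hs'])) _).symm }
  obtain ⟨F, hF⟩ := exists_lift_abTmul Q₁ Q₂ b
  refine ⟨σ.ker.subtype.comp F, fun t => (F t).2, ?_⟩
  intro a d h1 h2
  refine ⟨abTmul Q₁ Q₂ (σ a).1 (σ d).2, ?_⟩
  change ((F (abTmul Q₁ Q₂ (σ a).1 (σ d).2) : σ.ker) : Δ) = ⁅a, d⁆
  rw [hF]
  change ⁅s ((σ a).1, 1), s (1, (σ d).2)⁆ = ⁅a, d⁆
  apply key
  · rw [hs']; exact Prod.ext rfl h1.symm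
  · rw [hs']; exact Prod.ext h2.symm rfl

theorem surj_prod {A B : Type w} [CommGroup A] [CommGroup B]
    (hA : Cfsg.HasSchurMultiplier Q₁ A) (hB : Cfsg.HasSchurMultiplier Q₂ B)
    {Δ : Type*} [Group Δ] (σ : Δ →* Q₁ × Q₂) (hσ : Cfsg.IsStemExtension σ) :
    ∃ f : A × B × AbTensor Q₁ Q₂ →* σ.ker, Function.Surjective f := by
  have hcen : ∀ z ∈ σ.ker, ∀ x : Δ, x * z = z * x := fun z hz x =>
    Subgroup.mem_center_iff.mp (hσ.2.1 hz) x
  let Δ₁ : Subgroup Δ := ((MonoidHom.snd Q₁ Q₂).comp σ).ker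
  let Δ₂ : Subgroup Δ := ((MonoidHom.fst Q₁ Q₂).comp σ).ker
  have hΔ₁ : ∀ x, x ∈ Δ₁ ↔ (σ x).2 = 1 := fun x => Iff.rfl
  have hΔ₂ : ∀ x, x ∈ Δ₂ ↔ (σ x).1 = 1 := fun x => Iff.rfl
  let σ₁ : Δ₁ →* Q₁ := ((MonoidHom.fst Q₁ Q₂).comp σ).comp Δ₁.subtype
  let σ₂ : Δ₂ →* Q₂ := ((MonoidHom.snd Q₁ Q₂).comp σ).comp Δ₂.subtype
  have hσ₁s : Function.Surjective σ₁ := by
    intro q
    obtain ⟨x, hx⟩ := hσ.1 (q, 1)
    exact ⟨⟨x, by rw [hΔ₁, hx]⟩, by change (σ x).1 = q; rw [hx]⟩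
  have hσ₂s : Function.Surjective σ₂ := by
    intro q
    obtain ⟨x, hx⟩ := hσ.1 (1, q)
    exact ⟨⟨x, by rw [hΔ₂, hx]⟩, by change (σ x).2 = q; rw [hx]⟩
  have hk₁ : ∀ x : Δ₁, x ∈ σ₁.ker → (x : Δ) ∈ σ.ker := fun x hx =>
    MonoidHom.mem_ker.mpr (Prod.ext hx x.2)
  have hk₂ : ∀ x : Δ₂, x ∈ σ₂.ker → (x : Δ) ∈ σ.ker := fun x hx =>
    MonoidHom.mem_ker.mpr (Prod.ext x.2 hx)
  have hc₁ : σ₁.ker ≤ Subgroup.center Δ₁ := by
    intro x hx
    rw [Subgroup.mem_center_iff]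
    intro y
    exact Subtype.ext (hcen _ (hk₁ x hx) y)
  have hc₂ : σ₂.ker ≤ Subgroup.center Δ₂ := by
    intro x hx
    rw [Subgroup.mem_center_iff]
    intro y
    exact Subtype.ext (hcen _ (hk₂ x hx) y)
  obtain ⟨f₁, hf₁⟩ := exists_surj_of_central hA σ₁ hσ₁s hc₁
  obtain ⟨f₂, hf₂⟩ := exists_surj_of_central hB σ₂ hσ₂s hc₂
  obtain ⟨F₃, hF₃k, hF₃⟩ := exists_pairing σ hσ.1 hσ.2.1
  let F₁ : A →* Δ := (Δ₁.subtype.comp (Subgroup.subtype _)).comp f₁
  let F₂ : B →* Δ := (Δ₂.subtype.comp (Subgroup.subtype _)).comp f₂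
  have hF₁k : ∀ a, F₁ a ∈ σ.ker := fun a => hk₁ _ (Subgroup.mem_inf.mp (f₁ a).2).1
  have hF₂k : ∀ a, F₂ a ∈ σ.ker := fun a => hk₂ _ (Subgroup.mem_inf.mp (f₂ a).2).1
  let F₂₃ : B × AbTensor Q₁ Q₂ →* Δ := MonoidHom.noncommCoprod F₂ F₃ (fun a b =>
    hcen _ (hF₃k b) _)
  have hF₂₃k : ∀ a, F₂₃ a ∈ σ.ker := fun a => mul_mem (hF₂k _) (hF₃k _)
  let F : A × B × AbTensor Q₁ Q₂ →* Δ := MonoidHom.noncommCoprod F₁ F₂₃ (fun a b =>
    hcen _ (hF₂₃k b) _)
  have hFk : ∀ a, F a ∈ σ.ker := fun a => mul_mem (hF₁k _) (hF₂₃k _)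
  refine ⟨F.codRestrict _ hFk, ?_⟩
  -- the commutator subgroup
  let D₁ : Subgroup Δ := ⁅Δ₁, Δ₁⁆
  let D₂ : Subgroup Δ := ⁅Δ₂, Δ₂⁆
  have hR : F₃.range ≤ Subgroup.center Δ := by
    rintro _ ⟨t, rfl⟩
    exact hσ.2.1 (hF₃k t)
  have hRn : F₃.range.Normal := normal_of_le_center hR
  have hgen : Subgroup.closure ((Δ₁ : Set Δ) ∪ Δ₂) = ⊤ := by
    rw [eq_top_iff]
    intro x _
    obtain ⟨y, hy⟩ := hσ.1 ((σ x).1, 1)
    have h1 : y ∈ Δ₁ := by rw [hΔ₁, hy]
    have h2 : y⁻¹ * x ∈ Δ₂ := by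
      rw [hΔ₂, map_mul, map_inv, hy]
      change (σ x).1⁻¹ * (σ x).1 = 1
      exact inv_mul_cancel _
    have := mul_mem (Subgroup.subset_closure (Set.mem_union_left _ h1))
      (Subgroup.subset_closure (Set.mem_union_right (Δ₁ : Set Δ) h2))
    rwa [mul_inv_cancel_left] at this
  have hcomm : commutator Δ ≤ D₁ ⊔ (D₂ ⊔ F₃.range) := by
    apply commutator_le_of_gen hgen
    have hx : ∀ a ∈ Δ₁, ∀ b ∈ Δ₂, ⁅a, b⁆ ∈ F₃.range := fun a ha b hb => hF₃ a b ha hb
    rintro a (ha | ha) b (hb | hb)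
    · exact Subgroup.mem_sup_left (Subgroup.commutator_mem_commutator ha hb)
    · exact Subgroup.mem_sup_right (Subgroup.mem_sup_right (hx a ha b hb))
    · refine Subgroup.mem_sup_right (Subgroup.mem_sup_right ?_)
      rw [← commutatorElement_inv]
      exact inv_mem (hx b hb a ha)
    · exact Subgroup.mem_sup_right (Subgroup.mem_sup_left
        (Subgroup.commutator_mem_commutator ha hb))
  have hD₁ : ∀ x ∈ D₁, ∃ y : Δ₁, y ∈ commutator Δ₁ ∧ (y : Δ) = x := by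
    intro x hx
    have : D₁ = (commutator Δ₁).map Δ₁.subtype := by
      rw [commutator_def, Subgroup.map_commutator, ← MonoidHom.range_eq_map, Subgroup.range_subtype]
    rw [this] at hx
    exact hx
  have hD₂ : ∀ x ∈ D₂, ∃ y : Δ₂, y ∈ commutator Δ₂ ∧ (y : Δ) = x := by
    intro x hx
    have : D₂ = (commutator Δ₂).map Δ₂.subtype := by
      rw [commutator_def, Subgroup.map_commutator, ← MonoidHom.range_eq_map, Subgroup.range_subtype]
    rw [this] at hx
    exact hx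
  rintro ⟨k, hk⟩
  obtain ⟨d₁, hd₁, e, he, rfl⟩ := Subgroup.mem_sup_of_normal_left.mp (hcomm (hσ.2.2 hk))
  obtain ⟨d₂, hd₂, r, hr, rfl⟩ := Subgroup.mem_sup_of_normal_left.mp he
  obtain ⟨y₁, hy₁, rfl⟩ := hD₁ d₁ hd₁
  obtain ⟨y₂, hy₂, rfl⟩ := hD₂ d₂ hd₂
  obtain ⟨t, rfl⟩ := hr
  rw [MonoidHom.mem_ker, map_mul, map_mul, MonoidHom.mem_ker.mp (hF₃k t), mul_one] at hk
  have hk1 : (σ (y₁ : Δ)).1 * (σ (y₂ : Δ)).1 = 1 := congrArg Prod.fst hk
  have hk2 : (σ (y₁ : Δ)).2 * (σ (y₂ : Δ)).2 = 1 := congrArg Prod.snd hk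
  rw [(hΔ₂ _).mp y₂.2, mul_one] at hk1
  rw [(hΔ₁ _).mp y₁.2, one_mul] at hk2
  obtain ⟨a, ha⟩ := hf₁ ⟨y₁, Subgroup.mem_inf.mpr ⟨hk1, hy₁⟩⟩
  obtain ⟨b, hb⟩ := hf₂ ⟨y₂, Subgroup.mem_inf.mpr ⟨hk2, hy₂⟩⟩
  refine ⟨(a, b, t), Subtype.ext ?_⟩
  change F₁ a * (F₂ b * F₃ t) = _
  have h1 : F₁ a = y₁ := by
    change (((f₁ a : ↥(σ₁.ker ⊓ commutator Δ₁)) : Δ₁) : Δ) = y₁
    rw [ha]
  have h2 : F₂ b = y₂ := by
    change (((f₂ b : ↥(σ₂.ker ⊓ commutator Δ₂)) : Δ₂) : Δ) = y₂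
    rw [hb]
  rw [h1, h2]

end Upper

/-- **Schur's formula** for the multiplier of a direct product -/
theorem hasSchurMultiplier_prod {Q₁ : Type u} {Q₂ : Type v} [Group Q₁] [Group Q₂] [Finite Q₁]
    [Finite Q₂] {A B : Type w} [CommGroup A] [CommGroup B]
    (hA : Cfsg.HasSchurMultiplier Q₁ A) (hB : Cfsg.HasSchurMultiplier Q₂ B) :
    Cfsg.HasSchurMultiplier (Q₁ × Q₂) (A × B × AbTensor Q₁ Q₂) := by
  refine ⟨?_, ?_⟩
  · obtain ⟨⟨Γ₁, _, _, σ₁, h₁, ⟨e₁⟩⟩, -⟩ := hA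
    obtain ⟨⟨Γ₂, _, _, σ₂, h₂, ⟨e₂⟩⟩, -⟩ := hB
    obtain ⟨Γ, iΓ, σ, hσ, ⟨e⟩⟩ := stem_heis σ₁ σ₂ h₁ h₂ (abTmul Q₁ Q₂) (closure_abTmul Q₁ Q₂)
    exact ⟨Γ, iΓ, finite_of_stem σ hσ, σ, hσ,
      ⟨e.trans (MulEquiv.prodCongr e₁ (MulEquiv.prodCongr e₂ (MulEquiv.refl _)))⟩⟩
  · intro Γ _ _ σ hσ
    exact surj_prod hA hB σ hσ

end Cfsg.Agent.H2.SchurProd
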