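import Mathlib
import Cfsg.Agent.Lib.SchurMult
set_option autoImplicit false

open scoped commutatorElement IsMulCommutative
open Cfsg.Agent.Lib.SchurMult

namespace Cfsg.Agent.H2.SchurRank

universe u v w

variable {F : Type u} {G : Type v} [Group F] [Group G]

/-- the map from the cover to the abelianization of the free group -/
def covAb (π : F →* G) : Cov π →* Abelianization F :=
  QuotientGroup.lift _ Abelianization.of (by
    rw [Abelianization.ker_of, commutator_def]
    exact Subgroup.commutator_mono le_rfl le_top)

theorem covAb_mk (π : F →* G) (x : F) : covAb π (QuotientGroup.mk x) = Abelianization.of x := rfl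

theorem ker_covAb (π : F →* G) : (covAb π).ker = commutator (Cov π) := by
  ext x
  obtain ⟨x, rfl⟩ := QuotientGroup.mk_surjective x
  rw [MonoidHom.mem_ker, covAb_mk, ← MonoidHom.mem_ker, Abelianization.ker_of,
    commutator_quotient]
  constructor
  · intro h; exact ⟨x, h, rfl⟩
  · rintro ⟨y, hy, hyx⟩
    have h1 : y⁻¹ * x ∈ ⁅(⊤ : Subgroup F), π.ker⁆ := QuotientGroup.eq.mp hyx
    have h2 : y⁻¹ * x ∈ commutator F := by
      rw [commutator_def]
      exact Subgroup.commutator_mono le_rfl le_top h1
    have := mul_mem hy h2
    rwa [mul_inv_cancel_left] at this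

/-- generators for the kernel -/
theorem ker_covHom_eq_closure (π : F →* G) (rels : Set F)
    (hrels : Subgroup.normalClosure rels = π.ker) :
    (covHom π).ker = Subgroup.closure ((QuotientGroup.mk : F → Cov π) '' rels) := by
  apply le_antisymm
  · intro x hx
    obtain ⟨r, rfl⟩ := QuotientGroup.mk_surjective x
    have hr : r ∈ Subgroup.normalClosure rels := by rw [hrels]; exact hx
    have hle : Subgroup.closure ((QuotientGroup.mk : F → Cov π) '' rels) ≤
        Subgroup.center (Cov π) := by
      rw [Subgroup.closure_le]
      rintro _ ⟨y, hy, rfl⟩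
      apply ker_covHom_le π
      have : y ∈ π.ker := by rw [← hrels]; exact Subgroup.subset_normalClosure hy
      exact this
    have hn : (Subgroup.closure ((QuotientGroup.mk : F → Cov π) '' rels)).Normal :=
      normal_of_le_center hle
    have h1 : Subgroup.normalClosure rels ≤
        (Subgroup.closure ((QuotientGroup.mk : F → Cov π) '' rels)).comap (QuotientGroup.mk' _) := by
      apply Subgroup.normalClosure_le_normal
      intro y hy
      exact Subgroup.subset_closure ⟨y, hy, rfl⟩
    exact h1 hr
  · rw [Subgroup.closure_le]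
    rintro _ ⟨y, hy, rfl⟩
    have : y ∈ π.ker := by rw [← hrels]; exact Subgroup.subset_normalClosure hy
    exact this

theorem rank_mult_le (n : ℕ) (rels : Finset (FreeGroup (Fin n)))
    {G : Type v} [Group G] [Finite G] (π : FreeGroup (Fin n) →* G) (hπ : Function.Surjective π)
    (hrels : Subgroup.normalClosure (rels : Set (FreeGroup (Fin n))) = π.ker) :
    Group.rank (Mult π) ≤ rels.card - n := by
  classical
  let K := (covHom π).ker
  have hKc : IsMulCommutative K := isMulCommutative_of_le_center (ker_covHom_le π)
  let V := Additive (Abelianization (FreeGroup (Fin n)))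
  let hK : Additive K →ₗ[ℤ] V :=
    (MonoidHom.toAdditive ((covAb π).comp K.subtype)).toIntLinearMap
  have hrK : ∀ x : rels, (QuotientGroup.mk (x : FreeGroup (Fin n)) : Cov π) ∈ K := by
    intro x
    have : (x : FreeGroup (Fin n)) ∈ π.ker := by
      rw [← hrels]; exact Subgroup.subset_normalClosure x.2
    exact this
  let L : (rels → ℤ) →ₗ[ℤ] Additive K :=
    Fintype.linearCombination ℤ (fun x : rels => Additive.ofMul ⟨QuotientGroup.mk (x : FreeGroup (Fin n)), hrK x⟩)
  have hLs : Function.Surjective L := by
    let W : Subgroup K :=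
      { carrier := {k | Additive.ofMul k ∈ LinearMap.range L}
        one_mem' := (LinearMap.range L).zero_mem
        mul_mem' := fun ha hb => (LinearMap.range L).add_mem ha hb
        inv_mem' := fun ha => (LinearMap.range L).neg_mem ha }
    have h1 : (covHom π).ker ≤ W.map K.subtype := by
      rw [ker_covHom_eq_closure π rels hrels, Subgroup.closure_le]
      rintro _ ⟨x, hx, rfl⟩
      refine ⟨⟨QuotientGroup.mk x, hrK ⟨x, hx⟩⟩, ?_, rfl⟩
      refine ⟨Pi.single ⟨x, hx⟩ 1, ?_⟩
      rw [Fintype.linearCombination_apply_single, one_smul]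
    intro k
    obtain ⟨y, hy, hyk⟩ := h1 k.toMul.2
    obtain ⟨z, hz⟩ := hy
    refine ⟨z, ?_⟩
    rw [hz]
    exact congrArg Additive.ofMul (Subtype.ext hyk)
  let g := hK.comp L
  have hVn : Module.finrank ℤ V = n := by
    have e : V ≃+ (Fin n →₀ ℤ) := FreeAbelianGroup.equivFinsupp (Fin n)
    rw [LinearEquiv.finrank_eq e.toIntLinearEquiv]
    simp
  have hVfin : Module.Finite ℤ V := by
    have e : V ≃+ (Fin n →₀ ℤ) := FreeAbelianGroup.equivFinsupp (Fin n)
    exact Module.Finite.equiv e.toIntLinearEquiv.symm
  have hrange : Module.finrank ℤ (LinearMap.range g) = n := by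
    have h1 := Submodule.finrank_quotient_add_finrank (LinearMap.range g)
    have hfinq : Finite (V ⧸ LinearMap.range g) := by
      choose s hs using hπ
      refine Finite.of_surjective (fun x : G =>
        (Submodule.Quotient.mk (Additive.ofMul (Abelianization.of (s x))) :
          V ⧸ LinearMap.range g)) ?_
      intro q
      obtain ⟨v, rfl⟩ := Submodule.Quotient.mk_surjective _ q
      obtain ⟨f, hf⟩ := QuotientGroup.mk_surjective v.toMul
      refine ⟨π f, ?_⟩
      have hv : v = Additive.ofMul (Abelianization.of f) := congrArg Additive.ofMul hf.symm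
      rw [hv]
      rw [Submodule.Quotient.eq]
      have hk : (QuotientGroup.mk (s (π f) * f⁻¹) : Cov π) ∈ K := by
        change π (s (π f) * f⁻¹) = 1
        rw [map_mul, hs, map_inv, mul_inv_cancel]
      obtain ⟨z, hz⟩ := hLs (Additive.ofMul ⟨QuotientGroup.mk (s (π f) * f⁻¹), hk⟩)
      refine ⟨z, ?_⟩
      change hK (L z) = _
      rw [hz]
      change Additive.ofMul (Abelianization.of (s (π f) * f⁻¹)) = _
      rw [map_mul, map_inv, ← div_eq_mul_inv]
      rfl
    have h2 : Module.finrank ℤ (V ⧸ LinearMap.range g) = 0 := by
      rw [Module.finrank_eq_zero_iff_isTorsion]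
      intro x
      refine ⟨⟨(Nat.card (V ⧸ LinearMap.range g) : ℤ), ?_⟩, ?_⟩
      · rw [mem_nonZeroDivisors_iff_ne_zero]
        exact_mod_cast Nat.card_pos.ne'
      · change (Nat.card (V ⧸ LinearMap.range g) : ℤ) • x = 0
        rw [natCast_zsmul]
        exact card_nsmul_eq_zero'
    rw [h2, zero_add, hVn] at h1
    exact h1
  have hker : Module.finrank ℤ (LinearMap.ker g) = rels.card - n := by
    have h1 := Submodule.finrank_quotient_add_finrank (LinearMap.ker g)
    rw [LinearEquiv.finrank_eq g.quotKerEquivRange, hrange, Module.finrank_fintype_fun_eq_card,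
      Fintype.card_coe] at h1
    omega
  -- generators of the multiplier
  let b := Module.finBasis ℤ (LinearMap.ker g)
  have hmem : ∀ x : LinearMap.ker g, ((L x).toMul : Cov π) ∈ Mult π := by
    intro x
    refine Subgroup.mem_inf.mpr ⟨(L x).toMul.2, ?_⟩
    rw [← ker_covAb]
    exact x.2
  let S : Finset (Mult π) := Finset.univ.image (fun i => ⟨((L (b i)).toMul : Cov π), hmem (b i)⟩)
  have hS : Subgroup.closure (S : Set (Mult π)) = ⊤ := by
    rw [eq_top_iff]
    rintro ⟨y, hy⟩ _
    obtain ⟨hy1, hy2⟩ := Subgroup.mem_inf.mp hy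
    obtain ⟨z, hz⟩ := hLs (Additive.ofMul ⟨y, hy1⟩)
    have hz0 : z ∈ LinearMap.ker g := by
      rw [LinearMap.mem_ker]
      change hK (L z) = 0
      rw [hz]
      rw [← ker_covAb] at hy2
      exact hy2
    let φ : LinearMap.ker g →+ Additive (Mult π) :=
      { toFun := fun x => Additive.ofMul ⟨((L x).toMul : Cov π), hmem x⟩
        map_zero' := by
          apply congrArg Additive.ofMul
          apply Subtype.ext
          change ((L 0).toMul : Cov π) = 1
          rw [map_zero]; rfl
        map_add' := by
          intro x y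
          apply congrArg Additive.ofMul
          apply Subtype.ext
          change ((L (x + y)).toMul : Cov π) = (L x).toMul * (L y).toMul
          rw [map_add]; rfl }
    have hφ : ∀ x : LinearMap.ker g, (φ x).toMul ∈ Subgroup.closure (S : Set (Mult π)) := by
      intro x
      rw [← b.sum_repr x, map_sum]
      have : ∀ s : Finset (Fin (Module.finrank ℤ (LinearMap.ker g))),
          (∑ i ∈ s, φ (b.repr x i • b i)).toMul ∈ Subgroup.closure (S : Set (Mult π)) := by
        intro s
        induction s using Finset.induction_on with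
        | empty => rw [Finset.sum_empty]; exact one_mem _
        | insert i s hi ih =>
          rw [Finset.sum_insert hi]
          refine mul_mem ?_ ih
          rw [map_zsmul]
          refine zpow_mem (Subgroup.subset_closure ?_) _
          rw [Finset.mem_coe, Finset.mem_image]
          exact ⟨i, Finset.mem_univ _, rfl⟩
      exact this _
    have h3 := hφ ⟨z, hz0⟩
    have h4 : (φ ⟨z, hz0⟩).toMul = ⟨y, hy⟩ := by
      apply Subtype.ext
      change ((L z).toMul : Cov π) = y
      rw [hz]; rfl
    rwa [h4] at h3
  have h5 := Group.rank_le hS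
  refine h5.trans ?_
  refine Finset.card_image_le.trans ?_
  rw [Finset.card_univ, Fintype.card_fin, hker]

end Cfsg.Agent.H2.SchurRank
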