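import Mathlib
import Cfsg.Agent.Lib.SchurMult
set_option autoImplicit false

open scoped commutatorElement MonoidAlgebra

namespace Cfsg.Agent.H2.SchurSq

/-- trace of left multiplication by `ε` on the group algebra is `|X| ε(1)` -/
theorem trace_mulLeft_groupAlgebra {X : Type*} [Group X] [Fintype X] (a : MonoidAlgebra ℂ X) :
    LinearMap.trace ℂ (MonoidAlgebra ℂ X) (LinearMap.mulLeft ℂ a) =
      Fintype.card X * a.coeff 1 := by
  classical
  let b : Module.Basis X ℂ (MonoidAlgebra ℂ X) := MonoidAlgebra.basis X ℂ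
  rw [LinearMap.trace_eq_matrix_trace ℂ b, Matrix.trace]
  have : ∀ x : X, (LinearMap.toMatrix b b (LinearMap.mulLeft ℂ a)).diag x = a.coeff 1 := by
    intro x
    rw [Matrix.diag_apply, LinearMap.toMatrix_apply, LinearMap.mulLeft_apply,
      MonoidAlgebra.basis_apply]
    change (a * MonoidAlgebra.single x 1).coeff x = a.coeff 1
    rw [MonoidAlgebra.coeff_mul_single_eq_coeff_mul (m₂ := 1), mul_one]
    intro m _
    exact mul_eq_right
  rw [Finset.sum_congr rfl (fun x _ => this x), Finset.sum_const, Finset.card_univ, nsmul_eq_mul]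

/-- trace of left multiplication by a "central" element on a product of matrix algebras -/
theorem trace_mulLeft_pi {n : ℕ} (d : Fin n → ℕ) (c : Fin n → ℂ) :
    LinearMap.trace ℂ (Π i, Matrix (Fin (d i)) (Fin (d i)) ℂ)
      (LinearMap.mulLeft ℂ (fun i => c i • (1 : Matrix (Fin (d i)) (Fin (d i)) ℂ))) =
      ∑ i, c i * (d i : ℂ) ^ 2 := by
  classical
  let b := Pi.basis (fun i : Fin n => Matrix.stdBasis ℂ (Fin (d i)) (Fin (d i)))
  rw [LinearMap.trace_eq_matrix_trace ℂ b, Matrix.trace]
  have : ∀ x, (LinearMap.toMatrix b b (LinearMap.mulLeft ℂ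
      (fun i => c i • (1 : Matrix (Fin (d i)) (Fin (d i)) ℂ)))).diag x = c x.1 := by
    intro x
    rw [Matrix.diag_apply, LinearMap.toMatrix_apply, LinearMap.mulLeft_apply]
    have h1 : (fun i => c i • (1 : Matrix (Fin (d i)) (Fin (d i)) ℂ)) * b x = c x.1 • b x := by
      funext i
      rw [Pi.mul_apply, smul_mul_assoc, one_mul, Pi.smul_apply]
      by_cases hi : i = x.1
      · rw [hi]
      · have h2 : b x i = 0 := by
          simp only [b, Pi.basis_apply]
          exact Pi.single_eq_of_ne hi _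
        rw [h2, smul_zero, smul_zero]
    rw [h1, map_smul, Finsupp.smul_apply, Module.Basis.repr_self, Finsupp.single_eq_same,
      smul_eq_mul, mul_one]
  rw [Finset.sum_congr rfl (fun x _ => this x), Fintype.sum_sigma]
  refine Finset.sum_congr rfl fun i _ => ?_
  change ∑ y : Fin (d i) × Fin (d i), c i = _
  rw [Finset.sum_const, Finset.card_univ, Fintype.card_prod, Fintype.card_fin, nsmul_eq_mul]
  push_cast
  ring

theorem exists_hom_order {K : Type*} [CommGroup K] [Finite K] :
    ∃ l : K →* ℂˣ, ∀ m : ℕ, l ^ m = 1 → Monoid.exponent K ∣ m := by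
  obtain ⟨e⟩ := CommGroup.monoidHom_mulEquiv_of_hasEnoughRootsOfUnity K ℂ
  have hfin : Finite (K →* ℂˣ) := Finite.of_equiv _ e.symm.toEquiv
  have hexp : Monoid.exponent (K →* ℂˣ) = Monoid.exponent K := Monoid.exponent_eq_of_mulEquiv e
  obtain ⟨l, hl⟩ := Monoid.exists_orderOf_eq_exponent
    (Monoid.ExponentExists.of_finite (G := K →* ℂˣ))
  refine ⟨l, fun m hm => ?_⟩
  rw [← hexp, ← hl]
  exact orderOf_dvd_of_pow_eq_one hm

open scoped IsMulCommutative in
theorem sq_exponent_dvd_index {X : Type*} [Group X] [Finite X] (K : Subgroup X)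
    (hc : K ≤ Subgroup.center X) (hcomm : K ≤ commutator X) :
    Monoid.exponent K ^ 2 ∣ K.index := by
  classical
  have := Fintype.ofFinite X
  have hKc : IsMulCommutative K := Cfsg.Agent.Lib.SchurMult.isMulCommutative_of_le_center hc
  obtain ⟨l, hl⟩ := exists_hom_order (K := K)
  have : NeZero (Nat.card X : ℂ) := ⟨by exact_mod_cast Nat.card_pos.ne'⟩
  obtain ⟨n, d, hd, ⟨e⟩⟩ :=
    IsSemisimpleRing.exists_algEquiv_pi_matrix_of_isAlgClosed ℂ (MonoidAlgebra ℂ X)
  -- the representations
  let ρ (i : Fin n) : X →* Matrix (Fin (d i)) (Fin (d i)) ℂ :=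
    { toFun := fun x => e (MonoidAlgebra.of ℂ X x) i
      map_one' := by rw [map_one, map_one]; rfl
      map_mul' := fun a b => by rw [map_mul, map_mul]; rfl }
  have hρ : ∀ i x, ρ i x = e (MonoidAlgebra.of ℂ X x) i := fun i x => rfl
  have hcom : ∀ (k : K) (a : MonoidAlgebra ℂ X),
      a * MonoidAlgebra.of ℂ X k = MonoidAlgebra.of ℂ X k * a := by
    intro k a
    induction a using MonoidAlgebra.induction_on with
    | of g => rw [← map_mul, ← map_mul, Subgroup.mem_center_iff.mp (hc k.2) g]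
    | add x y hx hy => rw [add_mul, mul_add, hx, hy]
    | smul r x hx => rw [smul_mul_assoc, mul_smul_comm, hx]
  -- central elements act by scalars
  have hscal : ∀ (i : Fin n) (k : K), ρ i k = (ρ i k 0 0) • 1 := by
    intro i k
    have h1 : ∀ M : Matrix (Fin (d i)) (Fin (d i)) ℂ, Commute M (ρ i k) := by
      intro M
      obtain ⟨a, ha⟩ := e.surjective (Pi.single i M)
      have h2 : M = e a i := by rw [ha, Pi.single_eq_same]
      rw [h2]
      change e a i * e (MonoidAlgebra.of ℂ X k) i = e (MonoidAlgebra.of ℂ X k) i * e a i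
      rw [← Pi.mul_apply, ← Pi.mul_apply, ← map_mul, ← map_mul]
      rw [hcom k a]
    have h2 : ρ i k ∈ Set.range (Matrix.scalar (Fin (d i))) :=
      Matrix.mem_range_scalar_of_commute_single fun _ _ _ => h1 _
    obtain ⟨c, hc⟩ := h2
    have h3 : ρ i k = c • 1 := by rw [← hc, Matrix.smul_one_eq_diagonal]; rfl
    have h4 : ρ i k 0 0 = c := by rw [h3]; simp
    rw [h4, ← h3]
  let f (i : Fin n) : K →* ℂ :=
    { toFun := fun k => ((l k)⁻¹ : ℂˣ) * ρ i k 0 0
      map_one' := by simp
      map_mul' := by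
        intro a b
        have h1 : ρ i ((a * b : K) : X) 0 0 = ρ i a 0 0 * ρ i b 0 0 := by
          rw [Subgroup.coe_mul, map_mul, hscal i a, hscal i b]
          simp only [Matrix.smul_apply, Matrix.one_apply_eq, smul_eq_mul, mul_one,
            smul_mul_smul_comm]
        rw [h1, map_mul, mul_inv, Units.val_mul]
        ring }
  have hf : ∀ i k, f i k = ((l k)⁻¹ : ℂˣ) * ρ i k 0 0 := fun i k => rfl
  let ε : MonoidAlgebra ℂ X := (Fintype.card K : ℂ)⁻¹ • ∑ k : K, (((l k)⁻¹ : ℂˣ) : ℂ) •
    MonoidAlgebra.of ℂ X (k : X)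
  have hKne : (Fintype.card K : ℂ) ≠ 0 := by exact_mod_cast Fintype.card_ne_zero
  have hε1 : ε.coeff 1 = (Fintype.card K : ℂ)⁻¹ := by
    simp only [ε, MonoidAlgebra.coeff_smul, MonoidAlgebra.coeff_sum]
    rw [Finsupp.smul_apply, Finsupp.finsetSum_apply, Finset.sum_eq_single (1 : K)]
    · simp [MonoidAlgebra.of_apply]
    · intro k _ hk
      have : ((k : X)) ≠ 1 := fun h => hk (Subtype.ext h)
      simp [MonoidAlgebra.of_apply, MonoidAlgebra.coeff_single, Finsupp.single_apply, this]
    · intro h; exact absurd (Finset.mem_univ _) h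
  have hεe : e ε = fun i => (if f i = 1 then (1 : ℂ) else 0) •
      (1 : Matrix (Fin (d i)) (Fin (d i)) ℂ) := by
    funext i
    simp only [ε]
    rw [map_smul, map_sum, Pi.smul_apply, Finset.sum_apply]
    have h1 : ∀ k : K, (e ((((l k)⁻¹ : ℂˣ) : ℂ) • MonoidAlgebra.of ℂ X (k : X))) i =
        (f i k) • 1 := by
      intro k
      rw [map_smul, Pi.smul_apply, ← hρ, hscal i k, smul_smul, hf]
    rw [Finset.sum_congr rfl (fun k _ => h1 k), ← Finset.sum_smul, sum_hom_units, smul_smul]
    split_ifs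
    · rw [inv_mul_cancel₀ hKne]
    · simp
  have htr := trace_mulLeft_groupAlgebra ε
  have hconj : LinearMap.trace ℂ _ (LinearMap.mulLeft ℂ (e ε)) =
      LinearMap.trace ℂ _ (LinearMap.mulLeft ℂ ε) := by
    rw [← LinearMap.trace_conj' (LinearMap.mulLeft ℂ ε) e.toLinearEquiv]
    congr 1
    refine LinearMap.ext fun y => ?_
    rw [LinearEquiv.conj_apply_apply]
    change e ε * y = e (ε * e.symm y)
    rw [map_mul, AlgEquiv.apply_symm_apply]
  rw [← hconj, hεe, trace_mulLeft_pi, hε1] at htr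
  have hidx : (K.index : ℂ) = Fintype.card X * (Fintype.card K : ℂ)⁻¹ := by
    rw [eq_mul_inv_iff_mul_eq₀ hKne, ← Nat.card_eq_fintype_card, ← Nat.card_eq_fintype_card,
      mul_comm]
    exact_mod_cast K.card_mul_index
  rw [← hidx] at htr
  have hnat : K.index = ∑ i, (if f i = 1 then (d i) ^ 2 else 0) := by
    have : (K.index : ℂ) = ((∑ i, (if f i = 1 then (d i) ^ 2 else 0) : ℕ) : ℂ) := by
      rw [← htr]
      push_cast
      refine Finset.sum_congr rfl fun i _ => ?_
      split_ifs <;> simp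
    exact_mod_cast this
  rw [hnat]
  refine Finset.dvd_sum fun i _ => ?_
  split_ifs with hfi
  · apply pow_dvd_pow_of_dvd
    apply hl
    refine MonoidHom.ext fun k => ?_
    have h1 : (l k : ℂ) = ρ i k 0 0 := by
      have h2 := DFunLike.congr_fun hfi k
      rw [hf, MonoidHom.one_apply] at h2
      have h3 : (l k : ℂ) * (((l k)⁻¹ : ℂˣ) : ℂ) = 1 := Units.mul_inv _
      calc (l k : ℂ) = l k * (((l k)⁻¹ : ℂˣ) * ρ i k 0 0) := by rw [h2, mul_one]
        _ = _ := by rw [← mul_assoc, h3, one_mul]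
    let D : X →* ℂˣ := (Matrix.detMonoidHom.comp (ρ i)).toHomUnits
    have h4 : D k = 1 := by
      have : (k : X) ∈ D.ker := Abelianization.commutator_subset_ker D (hcomm k.2)
      exact this
    have h5 : (Matrix.det (ρ i k)) = 1 := congrArg Units.val h4
    rw [hscal i k, Matrix.det_smul, Matrix.det_one, mul_one, Fintype.card_fin, ← h1] at h5
    apply Units.ext
    rw [MonoidHom.pow_apply, MonoidHom.one_apply, Units.val_pow_eq_pow_val, h5]; rfl
  · exact dvd_zero _

/-- the square of the exponent of the multiplier divides the order -/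
theorem sq_dvd {Q : Type*} [Group Q] [Finite Q] {A : Type*} [CommGroup A]
    (hA : Cfsg.HasSchurMultiplier Q A) : Monoid.exponent A ^ 2 ∣ Nat.card Q := by
  obtain ⟨⟨Γ, i1, i2, σ, hσ, ⟨e⟩⟩, -⟩ := hA
  have h := sq_exponent_dvd_index σ.ker hσ.2.1 hσ.2.2
  rw [Monoid.exponent_eq_of_mulEquiv e, Subgroup.index_ker, MonoidHom.range_eq_top.mpr hσ.1,
    Subgroup.card_top] at h
  exact h

end Cfsg.Agent.H2.SchurSq
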