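import Mathlib
import Cfsg.Agent.Lib.SchurMult
set_option autoImplicit false

open scoped commutatorElement IsMulCommutative
open Cfsg.Agent.Lib.SchurMult

namespace Cfsg.Agent.H2.SchurUniq

universe u v w

variable {Q : Type u} [Group Q]

theorem surjective_of_lift {Γ : Type v} [Group Γ] (σ : Γ →* Q) (hσ : Cfsg.IsStemExtension σ)
    (φ : Cov (stdPres Q) →* Γ) (hφ : ∀ e, σ (φ e) = covHom (stdPres Q) e) :
    Function.Surjective φ := by
  have hQ := stdPres_surjective Q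
  have hmap := commutator_eq_map (covHom_surjective hQ) hσ.2.1 φ hφ
  intro d
  obtain ⟨e, he⟩ := covHom_surjective hQ (σ d)
  have h1 : (φ e)⁻¹ * d ∈ σ.ker := by
    rw [MonoidHom.mem_ker, map_mul, map_inv, hφ, he, inv_mul_cancel]
  have h2 := hσ.2.2 h1
  rw [hmap] at h2
  obtain ⟨c, _, hc⟩ := h2
  exact ⟨e * c, by rw [map_mul, hc, mul_inv_cancel_left]⟩

theorem cover_facts [Finite Q] {A : Type w} [CommGroup A] (hA : Cfsg.HasSchurMultiplier Q A)
    {Γ : Type v} [Group Γ] (σ : Γ →* Q) (hσ : Cfsg.IsStemExtension σ) (hk : Nonempty (σ.ker ≃* A)) :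
    ∃ φ : Cov (stdPres Q) →* Γ, Function.Surjective φ ∧
      (∀ e, σ (φ e) = covHom (stdPres Q) e) ∧ φ.ker ≤ (covHom (stdPres Q)).ker ∧
      φ.ker ⊓ commutator (Cov (stdPres Q)) = ⊥ ∧
      (covHom (stdPres Q)).ker ≤ φ.ker ⊔ commutator (Cov (stdPres Q)) := by
  have hfinA := finite_of_hasSchurMultiplier hA
  have hQ := stdPres_surjective Q
  obtain ⟨eA⟩ := (hasSchurMultiplier_iff hQ).mp hA
  obtain ⟨ek⟩ := hk
  have hfink : Finite σ.ker := Finite.of_equiv _ ek.symm.toEquiv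
  obtain ⟨φ, hφ⟩ := covHom_lift (stdPres Q) σ hσ.1 hσ.2.1 (MonoidHom.id Q)
  have hφ' : ∀ e, σ (φ e) = covHom (stdPres Q) e := hφ
  have hmap2 := map_ker_inf_commutator (covHom_surjective hQ) hσ.2.1 φ hφ'
  have hsurj := surjective_of_lift σ hσ φ hφ'
  have hker : φ.ker ≤ (covHom (stdPres Q)).ker := by
    intro x hx
    rw [MonoidHom.mem_ker] at hx ⊢
    rw [← hφ', hx, map_one]
  let g : Mult (stdPres Q) →* σ.ker := (φ.comp (Subgroup.subtype _)).codRestrict _ (by
    rintro ⟨x, hx⟩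
    change σ (φ x) = 1
    rw [hφ']
    exact (Subgroup.mem_inf.mp hx).1)
  have hgs : Function.Surjective g := by
    rintro ⟨x, hx⟩
    have h1 : x ∈ σ.ker ⊓ commutator Γ := Subgroup.mem_inf.mpr ⟨hx, hσ.2.2 hx⟩
    rw [← hmap2] at h1
    obtain ⟨e, he, rfl⟩ := h1
    exact ⟨⟨e, he⟩, rfl⟩
  have hg : Function.Bijective g := by
    rw [Nat.bijective_iff_surjective_and_card]
    exact ⟨hgs, Nat.card_congr (eA.symm.trans ek.symm).toEquiv⟩
  refine ⟨φ, hsurj, hφ', hker, ?_, ?_⟩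
  · rw [eq_bot_iff]
    intro x hx
    obtain ⟨h1, h2⟩ := Subgroup.mem_inf.mp hx
    have h3 : g ⟨x, Subgroup.mem_inf.mpr ⟨hker h1, h2⟩⟩ = 1 := Subtype.ext h1
    have h4 := (injective_iff_map_eq_one g).mp hg.1 _ h3
    exact Subgroup.mem_bot.mpr (congrArg Subtype.val h4)
  · intro k hk
    have h1 : φ k ∈ σ.ker := by rw [MonoidHom.mem_ker, hφ']; exact hk
    obtain ⟨m, hm⟩ := hgs ⟨φ k, h1⟩
    have h2 : φ (m : Cov (stdPres Q)) = φ k := congrArg Subtype.val hm
    have h3 : k * (m : Cov (stdPres Q))⁻¹ ∈ φ.ker := by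
      rw [MonoidHom.mem_ker, map_mul, map_inv, h2, mul_inv_cancel]
    have := Subgroup.mul_mem_sup h3 (Subgroup.mem_inf.mp m.2).2
    rwa [inv_mul_cancel_right] at this

section
variable (S : Subgroup (Cov (stdPres Q)))

/-- the map of a complement to the abelianization -/
abbrev iS : S →* Abelianization (Cov (stdPres Q)) := Abelianization.of.comp S.subtype

theorem iS_injective (h : S ⊓ commutator (Cov (stdPres Q)) = ⊥) : Function.Injective (iS S) := by
  rw [injective_iff_map_eq_one]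
  intro s hs
  have h1 : (s : Cov (stdPres Q)) ∈ commutator (Cov (stdPres Q)) := by
    rw [← Abelianization.ker_of]; exact hs
  have h2 := Subgroup.mem_inf.mpr ⟨s.2, h1⟩
  rw [h, Subgroup.mem_bot] at h2
  exact Subtype.ext h2

theorem mem_range_iS (hS3 : (covHom (stdPres Q)).ker ≤ S ⊔ commutator (Cov (stdPres Q)))
    (e : Cov (stdPres Q)) (he : covHom (stdPres Q) e ∈ commutator Q) :
    Abelianization.of e ∈ (iS S).range := by
  have hQ := stdPres_surjective Q
  have h0 : (commutator (Cov (stdPres Q))).map (covHom (stdPres Q)) = commutator Q := by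
    rw [commutator_def, Subgroup.map_commutator,
      Subgroup.map_top_of_surjective _ (covHom_surjective hQ)]
    rfl
  rw [← h0] at he
  obtain ⟨c, hc, hce⟩ := he
  have h1 : e * c⁻¹ ∈ (covHom (stdPres Q)).ker := by
    rw [MonoidHom.mem_ker, map_mul, map_inv, hce, mul_inv_cancel]
  obtain ⟨s, hs, c', hc', hsc⟩ := Subgroup.mem_sup_of_normal_right.mp (hS3 h1)
  refine ⟨⟨s, hs⟩, ?_⟩
  change Abelianization.of s = Abelianization.of e
  have h2 : e = s * c' * c := by rw [hsc, inv_mul_cancel_right]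
  have h3 : ∀ x ∈ commutator (Cov (stdPres Q)), Abelianization.of x = 1 := by
    intro x hx
    rw [← MonoidHom.mem_ker, Abelianization.ker_of]; exact hx
  rw [h2, map_mul, map_mul, h3 c hc, h3 c' hc', mul_one, mul_one]

end

theorem exists_iso_of_coprime [Finite Q] {A : Type w} [CommGroup A]
    (hA : Cfsg.HasSchurMultiplier Q A)
    (hcop : Nat.Coprime (Nat.card (Abelianization Q)) (Nat.card A))
    {Γ₁ Γ₂ : Type v} [Group Γ₁] [Finite Γ₁] [Group Γ₂] [Finite Γ₂] (σ₁ : Γ₁ →* Q) (σ₂ : Γ₂ →* Q)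
    (h₁ : Cfsg.IsStemExtension σ₁) (h₂ : Cfsg.IsStemExtension σ₂)
    (k₁ : Nonempty (σ₁.ker ≃* A)) (k₂ : Nonempty (σ₂.ker ≃* A)) :
    ∃ e : Γ₁ ≃* Γ₂, σ₂.comp e.toMonoidHom = σ₁ := by
  obtain ⟨φ₁, hs₁, hφ₁, hk₁, hb₁, hle₁⟩ := cover_facts hA σ₁ h₁ k₁
  obtain ⟨φ₂, hs₂, hφ₂, hk₂, hb₂, hle₂⟩ := cover_facts hA σ₂ h₂ k₂
  have hK₂ : IsMulCommutative σ₂.ker := isMulCommutative_of_le_center h₂.2.1
  let q := Nat.card (Abelianization Q)
  let S := φ₁.ker
  have hinj := iS_injective S hb₁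
  let powE : Abelianization (Cov (stdPres Q)) →* (iS S).range :=
    (powMonoidHom q).codRestrict _ (by
      intro y
      obtain ⟨e, rfl⟩ := QuotientGroup.mk_surjective y
      change (Abelianization.of e) ^ q ∈ _
      rw [← map_pow]
      apply mem_range_iS S hle₁
      rw [map_pow, ← Abelianization.ker_of, MonoidHom.mem_ker, map_pow]
      exact pow_card_eq_one')
  let eS : S ≃* (iS S).range := MonoidHom.ofInjective hinj
  let θ : S →* σ₂.ker := (φ₂.comp S.subtype).codRestrict _ (by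
    intro s
    change σ₂ (φ₂ s) = 1
    rw [hφ₂]
    exact hk₁ s.2)
  let μ₀ : Abelianization (Cov (stdPres Q)) →* σ₂.ker :=
    (zpowGroupHom (- Nat.gcdA q (Nat.card A))).comp (θ.comp (eS.symm.toMonoidHom.comp powE))
  have hμ₀ : ∀ s : S, μ₀ (Abelianization.of (s : Cov (stdPres Q))) = (θ s)⁻¹ := by
    intro s
    have h1 : powE (Abelianization.of (s : Cov (stdPres Q))) = eS (s ^ q) := by
      apply Subtype.ext
      change (Abelianization.of (s : Cov (stdPres Q))) ^ q = iS S (s ^ q)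
      rw [map_pow]; rfl
    change (θ (eS.symm (powE (Abelianization.of (s : Cov (stdPres Q)))))) ^
      (- Nat.gcdA q (Nat.card A)) = _
    rw [h1, MulEquiv.symm_apply_apply, map_pow, ← zpow_natCast, ← zpow_mul]
    have h2 := Nat.gcd_eq_gcd_ab q (Nat.card A)
    rw [hcop] at h2
    have h3 : (q : ℤ) * (- Nat.gcdA q (Nat.card A)) = -1 + Nat.card A * Nat.gcdB q (Nat.card A) := by
      push_cast at h2
      linarith
    have h4 : (θ s) ^ (Nat.card A : ℤ) = 1 := by
      obtain ⟨k₂⟩ := k₂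
      rw [zpow_natCast, ← Nat.card_congr k₂.toEquiv]
      exact pow_card_eq_one'
    rw [h3, zpow_add, zpow_mul, h4, one_zpow, mul_one, zpow_neg_one]
  let φ₂' : Cov (stdPres Q) →* Γ₂ :=
    MonoidHom.mk' (fun e => φ₂ e * (μ₀ (Abelianization.of e) : σ₂.ker)) (by
      intro a b
      have hc := Subgroup.mem_center_iff.mp (h₂.2.1 (μ₀ (Abelianization.of a)).2) (φ₂ b)
      simp only [map_mul, Subgroup.coe_mul]
      rw [mul_assoc, mul_assoc, ← mul_assoc (φ₂ b), hc, mul_assoc])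
  have hφ₂'v : ∀ e, φ₂' e = φ₂ e * (μ₀ (Abelianization.of e) : σ₂.ker) := fun e => rfl
  have hφ₂' : ∀ e, σ₂ (φ₂' e) = covHom (stdPres Q) e := by
    intro e
    rw [hφ₂'v, map_mul, MonoidHom.mem_ker.mp (μ₀ (Abelianization.of e)).2, mul_one, hφ₂]
  have hker' : φ₁.ker ≤ φ₂'.ker := by
    intro s hs
    rw [MonoidHom.mem_ker, hφ₂'v, hμ₀ ⟨s, hs⟩]
    exact mul_inv_cancel _
  let β : Γ₁ →* Γ₂ := φ₁.liftOfSurjective hs₁ ⟨φ₂', hker'⟩
  have hβ : ∀ e, β (φ₁ e) = φ₂' e := fun e => MonoidHom.liftOfRightInverse_comp_apply _ _ _ _ _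
  have hβσ : ∀ x, σ₂ (β x) = σ₁ x := by
    intro x
    obtain ⟨e, rfl⟩ := hs₁ x
    rw [hβ, hφ₂', hφ₁]
  have hβs : Function.Surjective β := by
    intro y
    obtain ⟨e, rfl⟩ := surjective_of_lift σ₂ h₂ φ₂' hφ₂' y
    exact ⟨φ₁ e, hβ e⟩
  have hcard : Nat.card Γ₁ = Nat.card Γ₂ := by
    have e1 := σ₁.ker.card_mul_index
    have e2 := σ₂.ker.card_mul_index
    rw [Subgroup.index_ker, MonoidHom.range_eq_top.mpr h₁.1, Subgroup.card_top] at e1
    rw [Subgroup.index_ker, MonoidHom.range_eq_top.mpr h₂.1, Subgroup.card_top] at e2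
    obtain ⟨k₁⟩ := k₁
    obtain ⟨k₂⟩ := k₂
    rw [← e1, ← e2, Nat.card_congr k₁.toEquiv, Nat.card_congr k₂.toEquiv]
  have hβb : Function.Bijective β :=
    (Nat.bijective_iff_surjective_and_card β).mpr ⟨hβs, hcard⟩
  exact ⟨MulEquiv.ofBijective β hβb, MonoidHom.ext hβσ⟩

section Converse

variable [Finite Q]

omit [Finite Q] in
/-- the natural map `Mult → ker (E/S → Q)` for a complement -/
theorem bijective_mult_ker (S : Subgroup (Cov (stdPres Q))) [S.Normal]
    (hS1 : S ≤ (covHom (stdPres Q)).ker) (hS2 : S ⊓ commutator (Cov (stdPres Q)) = ⊥)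
    (hS3 : (covHom (stdPres Q)).ker ≤ S ⊔ Mult (stdPres Q)) :
    ∃ f : Mult (stdPres Q) ≃* (QuotientGroup.lift S (covHom (stdPres Q)) hS1).ker,
      ∀ m, ((f m : (QuotientGroup.lift S (covHom (stdPres Q)) hS1).ker) :
        Cov (stdPres Q) ⧸ S) = QuotientGroup.mk (m : Cov (stdPres Q)) := by
  let f : Mult (stdPres Q) →* (QuotientGroup.lift S (covHom (stdPres Q)) hS1).ker :=
    ((QuotientGroup.mk' S).comp (Subgroup.subtype _)).codRestrict _ (by
      rintro ⟨x, hx⟩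
      exact (Subgroup.mem_inf.mp hx).1)
  have hf : Function.Bijective f := by
    constructor
    · rw [injective_iff_map_eq_one]
      rintro ⟨x, hx⟩ h
      have h1 : (QuotientGroup.mk x : Cov (stdPres Q) ⧸ S) = 1 := congrArg Subtype.val h
      rw [QuotientGroup.eq_one_iff] at h1
      have : x ∈ S ⊓ commutator (Cov (stdPres Q)) :=
        Subgroup.mem_inf.mpr ⟨h1, (Subgroup.mem_inf.mp hx).2⟩
      rw [hS2, Subgroup.mem_bot] at this
      exact Subtype.ext this
    · rintro ⟨x, hx⟩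
      obtain ⟨e, rfl⟩ := QuotientGroup.mk_surjective x
      have he : e ∈ (covHom (stdPres Q)).ker := hx
      obtain ⟨s, hs, c, hcc, rfl⟩ := Subgroup.mem_sup_of_normal_left.mp (hS3 he)
      refine ⟨⟨c, hcc⟩, Subtype.ext ?_⟩
      change (QuotientGroup.mk c : Cov (stdPres Q) ⧸ S) = QuotientGroup.mk (s * c)
      rw [QuotientGroup.mk_mul, (QuotientGroup.eq_one_iff s).mpr hs, one_mul]
  exact ⟨MulEquiv.ofBijective f hf, fun m => rfl⟩

theorem exists_extension_of_iso {A : Type w} [CommGroup A]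
    (hA : Cfsg.HasSchurMultiplier Q A)
    (h : ∀ (Γ₁ Γ₂ : Type u) [Group Γ₁] [Finite Γ₁] [Group Γ₂] [Finite Γ₂] (σ₁ : Γ₁ →* Q)
      (σ₂ : Γ₂ →* Q), Cfsg.IsStemExtension σ₁ → Cfsg.IsStemExtension σ₂ →
      Nonempty (σ₁.ker ≃* A) → Nonempty (σ₂.ker ≃* A) →
      ∃ e : Γ₁ ≃* Γ₂, σ₂.comp e.toMonoidHom = σ₁)
    (S : Subgroup (Cov (stdPres Q)))
    (hS1 : S ≤ (covHom (stdPres Q)).ker) (hS2 : S ⊓ commutator (Cov (stdPres Q)) = ⊥)
    (hS3 : (covHom (stdPres Q)).ker ≤ S ⊔ Mult (stdPres Q)) (θ : S →* Mult (stdPres Q)) :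
    ∃ μ : Cov (stdPres Q) →* Mult (stdPres Q), ∀ s : S, μ s = θ s := by
  have hQ := stdPres_surjective Q
  obtain ⟨eA⟩ := (hasSchurMultiplier_iff hQ).mp hA
  have hkc := ker_covHom_le (stdPres Q)
  have hSn : S.Normal := normal_of_le_center (hS1.trans hkc)
  have hMc : ∀ m : Mult (stdPres Q), ∀ x, x * (m : Cov (stdPres Q)) = m * x := fun m x =>
    Subgroup.mem_center_iff.mp (hkc (Subgroup.mem_inf.mp m.2).1) x
  -- the twisted complement
  let t : S →* Cov (stdPres Q) := MonoidHom.mk' (fun s => (s : Cov (stdPres Q)) * θ s) (by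
    intro a b
    simp only [map_mul, Subgroup.coe_mul]
    rw [mul_assoc, mul_assoc, ← mul_assoc (b : Cov (stdPres Q)), hMc (θ a) b, mul_assoc])
  have ht : ∀ s, t s = (s : Cov (stdPres Q)) * θ s := fun s => rfl
  let S' : Subgroup (Cov (stdPres Q)) := t.range
  have hS'1 : S' ≤ (covHom (stdPres Q)).ker := by
    rintro _ ⟨s, rfl⟩
    rw [ht]
    exact mul_mem (hS1 s.2) (Subgroup.mem_inf.mp (θ s).2).1
  have hS'2 : S' ⊓ commutator (Cov (stdPres Q)) = ⊥ := by
    rw [eq_bot_iff]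
    intro x hx
    obtain ⟨⟨s, rfl⟩, hc⟩ := Subgroup.mem_inf.mp hx
    have h1 : (s : Cov (stdPres Q)) ∈ commutator (Cov (stdPres Q)) := by
      have := mul_mem hc (inv_mem (Subgroup.mem_inf.mp (θ s).2).2)
      rwa [ht, mul_inv_cancel_right] at this
    have h2 : (s : Cov (stdPres Q)) ∈ S ⊓ commutator (Cov (stdPres Q)) :=
      Subgroup.mem_inf.mpr ⟨s.2, h1⟩
    rw [hS2, Subgroup.mem_bot] at h2
    have h3 : s = 1 := Subtype.ext h2
    rw [h3, map_one]
    exact one_mem _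
  have hS'3 : (covHom (stdPres Q)).ker ≤ S' ⊔ Mult (stdPres Q) := by
    intro k hk
    obtain ⟨s, hs, m, hm, rfl⟩ := Subgroup.mem_sup_of_normal_left.mp (hS3 hk)
    have h1 : s * m = t ⟨s, hs⟩ * ((θ ⟨s, hs⟩ : Mult (stdPres Q)) : Cov (stdPres Q))⁻¹ * m := by
      rw [ht, mul_inv_cancel_right]
    rw [h1, mul_assoc]
    exact Subgroup.mul_mem_sup ⟨_, rfl⟩
      (Subgroup.mul_mem _ (Subgroup.inv_mem _ (θ ⟨s, hs⟩).2) hm)
  have hS'n : S'.Normal := normal_of_le_center (hS'1.trans hkc)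
  obtain ⟨f, hf⟩ := bijective_mult_ker S hS1 hS2 hS3
  obtain ⟨f', hf'⟩ := bijective_mult_ker S' hS'1 hS'2 hS'3
  have st : Cfsg.IsStemExtension (QuotientGroup.lift S (covHom (stdPres Q)) hS1) :=
    isStemExtension_lift (covHom_surjective hQ) hkc S hS1
      (hS3.trans (sup_le_sup le_rfl inf_le_right))
  have st' : Cfsg.IsStemExtension (QuotientGroup.lift S' (covHom (stdPres Q)) hS'1) :=
    isStemExtension_lift (covHom_surjective hQ) hkc S' hS'1
      (hS'3.trans (sup_le_sup le_rfl inf_le_right))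
  have fin1 : Finite (Cov (stdPres Q) ⧸ S) := finite_of_stem _ st
  have fin2 : Finite (Cov (stdPres Q) ⧸ S') := finite_of_stem _ st'
  obtain ⟨e, he⟩ := h _ _ _ _ st st' ⟨f.symm.trans eA.symm⟩ ⟨f'.symm.trans eA.symm⟩
  have he' : ∀ x : Cov (stdPres Q), QuotientGroup.lift S' (covHom (stdPres Q)) hS'1
      (e (QuotientGroup.mk x)) = covHom (stdPres Q) x := fun x =>
    DFunLike.congr_fun he (QuotientGroup.mk x)
  let K' := (QuotientGroup.lift S' (covHom (stdPres Q)) hS'1).ker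
  have hK'c : ∀ z ∈ K', ∀ x, x * z = z * x := fun z hz x =>
    Subgroup.mem_center_iff.mp (st'.2.1 hz) x
  have hd : ∀ x : Cov (stdPres Q), (QuotientGroup.mk x : Cov (stdPres Q) ⧸ S')⁻¹ *
      e (QuotientGroup.mk x) ∈ K' := by
    intro x
    rw [MonoidHom.mem_ker, map_mul, map_inv, he']
    change (covHom (stdPres Q) x)⁻¹ * _ = 1
    exact inv_mul_cancel _
  let μ : Cov (stdPres Q) →* Mult (stdPres Q) := f'.symm.toMonoidHom.comp
    (MonoidHom.mk' (fun x => (⟨_, hd x⟩ : K')) (by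
      intro a b
      apply Subtype.ext
      change (QuotientGroup.mk (a * b) : Cov (stdPres Q) ⧸ S')⁻¹ * e (QuotientGroup.mk (a * b)) =
        ((QuotientGroup.mk a : Cov (stdPres Q) ⧸ S')⁻¹ * e (QuotientGroup.mk a)) *
        ((QuotientGroup.mk b : Cov (stdPres Q) ⧸ S')⁻¹ * e (QuotientGroup.mk b))
      rw [QuotientGroup.mk_mul, QuotientGroup.mk_mul, map_mul, mul_inv_rev]
      have h1 := hK'c _ (hd a) ((QuotientGroup.mk b : Cov (stdPres Q) ⧸ S')⁻¹)
      calc _ = (QuotientGroup.mk b : Cov (stdPres Q) ⧸ S')⁻¹ *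
            ((QuotientGroup.mk a : Cov (stdPres Q) ⧸ S')⁻¹ * e (QuotientGroup.mk a)) *
              e (QuotientGroup.mk b) := by simp only [mul_assoc]
        _ = _ := by rw [h1, mul_assoc]))
  refine ⟨μ, fun s => ?_⟩
  change f'.symm _ = θ s
  rw [MulEquiv.symm_apply_eq]
  apply Subtype.ext
  rw [hf']
  change (QuotientGroup.mk (s : Cov (stdPres Q)) : Cov (stdPres Q) ⧸ S')⁻¹ *
      e (QuotientGroup.mk (s : Cov (stdPres Q))) = _
  have h1 : (QuotientGroup.mk (s : Cov (stdPres Q)) : Cov (stdPres Q) ⧸ S) = 1 :=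
    (QuotientGroup.eq_one_iff _).mpr s.2
  rw [h1, map_one, mul_one, ← QuotientGroup.mk_inv, QuotientGroup.eq, inv_inv]
  exact ⟨s, rfl⟩

theorem exists_bad_extension (p : ℕ) (hp : p.Prime)
    (S : Subgroup (Cov (stdPres Q)))
    (hS1 : S ≤ (covHom (stdPres Q)).ker) (hS2 : S ⊓ commutator (Cov (stdPres Q)) = ⊥)
    (hS3 : (covHom (stdPres Q)).ker ≤ S ⊔ Mult (stdPres Q))
    (hpQ : p ∣ Nat.card (Abelianization Q)) (hpM : p ∣ Nat.card (Mult (stdPres Q))) :
    ∃ θ : S →* Mult (stdPres Q), ¬ ∃ μ : Cov (stdPres Q) →* Mult (stdPres Q),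
      ∀ s : S, μ s = θ s := by
  have : Fact p.Prime := ⟨hp⟩
  have hQ := stdPres_surjective Q
  have hkc := ker_covHom_le (stdPres Q)
  have hinj := iS_injective S hS2
  have hS3' := hS3.trans (sup_le_sup le_rfl (inf_le_right : Mult (stdPres Q) ≤ _))
  have hSc : IsMulCommutative S := isMulCommutative_of_le_center (hS1.trans hkc)
  -- an element of order `p`
  obtain ⟨x, hx⟩ := exists_prime_orderOf_dvd_card' p hpQ
  obtain ⟨g, rfl⟩ := QuotientGroup.mk_surjective x
  obtain ⟨e, rfl⟩ := covHom_surjective hQ g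
  have hx' : orderOf (Abelianization.of (covHom (stdPres Q) e)) = p := hx
  have hx1 : covHom (stdPres Q) (e ^ p) ∈ commutator Q := by
    rw [← Abelianization.ker_of, MonoidHom.mem_ker, map_pow, map_pow]
    have := pow_orderOf_eq_one (Abelianization.of (covHom (stdPres Q) e))
    rwa [hx'] at this
  obtain ⟨s₀, hs₀⟩ := mem_range_iS S hS3' (e ^ p) hx1
  have hnot : ∀ s : S, iS S s ≠ Abelianization.of e := by
    intro s hs
    have h1 : (s : Cov (stdPres Q))⁻¹ * e ∈ commutator (Cov (stdPres Q)) := by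
      rw [← Abelianization.ker_of, MonoidHom.mem_ker, map_mul, map_inv, ← hs]
      exact inv_mul_cancel _
    have h2 : covHom (stdPres Q) e ∈ commutator Q := by
      have h3 : covHom (stdPres Q) ((s : Cov (stdPres Q))⁻¹ * e) ∈
          (commutator (Cov (stdPres Q))).map (covHom (stdPres Q)) := ⟨_, h1, rfl⟩
      rw [map_mul, map_inv, MonoidHom.mem_ker.mp (hS1 s.2), inv_one, one_mul] at h3
      have h4 : (commutator (Cov (stdPres Q))).map (covHom (stdPres Q)) ≤ commutator Q := by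
        rw [commutator_def, Subgroup.map_commutator]
        exact Subgroup.commutator_mono le_top le_top
      exact h4 h3
    have h5 : Abelianization.of (covHom (stdPres Q) e) = 1 := by
      rw [← Abelianization.ker_of] at h2; exact h2
    rw [h5, orderOf_one] at hx'
    exact hp.one_lt.ne hx'
  -- a functional on `S` with `f s₀` prime to `p`
  have hSfg : Group.FG S := fg_of_le_ker (covHom (stdPres Q)) hkc S hS1
  have hStf : IsMulTorsionFree S := hinj.isMulTorsionFree _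
  have h1 : AddGroup.FG (Additive S) := GroupFG.iff_add_fg.mp inferInstance
  have h2 : Module.Finite ℤ (Additive S) := Module.Finite.iff_addGroup_fg.mpr h1
  have h3 : Module.Free ℤ (Additive S) := inferInstance
  let b := Module.Free.chooseBasis ℤ (Additive S)
  obtain ⟨j, hj⟩ : ∃ j, ¬ (p : ℤ) ∣ b.repr (Additive.ofMul s₀) j := by
    by_contra hall
    push Not at hall
    choose c hc using hall
    let s' : Additive S := ∑ j, c j • b j
    have hs' : (p : ℤ) • s' = Additive.ofMul s₀ := by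
      rw [← b.sum_repr (Additive.ofMul s₀), Finset.smul_sum]
      refine Finset.sum_congr rfl fun j _ => ?_
      rw [hc, mul_smul]
    have h4 : (s'.toMul) ^ p = s₀ := by
      have : p • s' = Additive.ofMul s₀ := by rw [← hs', natCast_zsmul]
      exact this
    have h5 : (iS S s'.toMul) ^ p = (Abelianization.of e) ^ p := by
      rw [← map_pow, h4, hs₀, map_pow]
    exact hnot _ (pow_left_injective hp.ne_zero h5)
  -- an element of `Mult` that is not a `p`-th power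
  obtain ⟨w, hw⟩ : ∃ w : Mult (stdPres Q), ∀ y : Mult (stdPres Q), y ^ p ≠ w := by
    by_contra hall
    push Not at hall
    have hsurj : Function.Surjective (fun y : Mult (stdPres Q) => y ^ p) := hall
    have hinj' := Finite.injective_iff_surjective.mpr hsurj
    obtain ⟨z, hz⟩ := exists_prime_orderOf_dvd_card' p hpM
    have h4 : z ^ p = 1 ^ p := by rw [one_pow, ← hz]; exact pow_orderOf_eq_one z
    have h5 : z = 1 := hinj' h4
    rw [h5, orderOf_one] at hz
    exact hp.one_lt.ne hz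
  let f : Additive S →+ ℤ := (b.coord j).toAddMonoidHom
  let θ : S →* Mult (stdPres Q) :=
    { toFun := fun s => w ^ (f (Additive.ofMul s))
      map_one' := by
        change w ^ (f 0) = 1
        rw [map_zero, zpow_zero]
      map_mul' := by
        intro a c
        change w ^ (f (Additive.ofMul a + Additive.ofMul c)) = _
        rw [map_add, zpow_add] }
  refine ⟨θ, ?_⟩
  rintro ⟨μ, hμ⟩
  have h6 : μ (s₀ : Cov (stdPres Q)) = μ e ^ p := by
    rw [← map_pow]
    have h7 : (e ^ p)⁻¹ * (s₀ : Cov (stdPres Q)) ∈ commutator (Cov (stdPres Q)) := by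
      rw [← Abelianization.ker_of, MonoidHom.mem_ker, map_mul, map_inv, ← hs₀]
      exact inv_mul_cancel _
    have h8 : (e ^ p)⁻¹ * (s₀ : Cov (stdPres Q)) ∈ μ.ker :=
      Abelianization.commutator_subset_ker μ h7
    rw [MonoidHom.mem_ker, map_mul, map_inv, inv_mul_eq_one] at h8
    exact h8.symm
  rw [hμ] at h6
  have h9 : w ^ (f (Additive.ofMul s₀)) = μ e ^ p := h6
  have h10 : IsCoprime (f (Additive.ofMul s₀)) (p : ℤ) := by
    rw [isCoprime_comm]
    exact (Nat.prime_iff_prime_int.mp hp).coprime_iff_not_dvd.mpr hj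
  obtain ⟨a, c, hac⟩ := h10
  apply hw (μ e ^ a * w ^ c)
  rw [mul_pow, ← zpow_natCast (μ e ^ a), ← zpow_mul, mul_comm a, zpow_mul, zpow_natCast (μ e),
    ← h9, ← zpow_mul, ← zpow_natCast (w ^ c), ← zpow_mul, ← zpow_add]
  have : f (Additive.ofMul s₀) * a + c * (p : ℤ) = 1 := by rw [← hac]; ring
  rw [this, zpow_one]

theorem iff_coprime {A : Type v} [CommGroup A] (hA : Cfsg.HasSchurMultiplier Q A) :
    (∀ (Γ₁ Γ₂ : Type u) [Group Γ₁] [Finite Γ₁] [Group Γ₂] [Finite Γ₂] (σ₁ : Γ₁ →* Q)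
      (σ₂ : Γ₂ →* Q), Cfsg.IsStemExtension σ₁ → Cfsg.IsStemExtension σ₂ →
      Nonempty (σ₁.ker ≃* A) → Nonempty (σ₂.ker ≃* A) →
      ∃ e : Γ₁ ≃* Γ₂, σ₂.comp e.toMonoidHom = σ₁) ↔
    Nat.Coprime (Nat.card (Abelianization Q)) (Nat.card A) := by
  constructor
  · intro h
    by_contra hne
    obtain ⟨p, hp, hp1, hp2⟩ := Nat.Prime.not_coprime_iff_dvd.mp hne
    obtain ⟨eA⟩ := (hasSchurMultiplier_iff (stdPres_surjective Q)).mp hA
    rw [Nat.card_congr eA.toEquiv] at hp2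
    obtain ⟨S, hS1, hS2, hS3⟩ := exists_compl_cov (stdPres Q) _ le_rfl
    obtain ⟨θ, hθ⟩ := exists_bad_extension p hp S hS1 hS2 hS3.ge hp1 hp2
    exact hθ (exists_extension_of_iso hA h S hS1 hS2 hS3.ge θ)
  · intro hcop Γ₁ Γ₂ _ _ _ _ σ₁ σ₂ h₁ h₂ k₁ k₂
    exact exists_iso_of_coprime hA hcop σ₁ σ₂ h₁ h₂ k₁ k₂

end Converse

end Cfsg.Agent.H2.SchurUniq
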