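import Mathlib
import Cfsg.Agent.H2.PUtil
import Cfsg.Agent.Lib.Coprime
import Cfsg.Agent.Lib.NilpB
/-! Small 2-groups: elements of order prime to 6 centralize 2-generator 2-groups. -/
open Subgroup
namespace Cfsg.Agent.H2.Small

/-- an element of order prime to `6` normalizing a subgroup of order `≤ 4` centralizes it -/
theorem centralizes_of_card_le_four {G : Type*} [Group G] [Finite G] {V : Subgroup G}
    (hV : Nat.card V ≤ 4) {g : G} (hg : g ∈ normalizer (V : Set G)) (ho : (orderOf g).Coprime 6) :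
    ∀ v ∈ V, g * v * g⁻¹ = v := by
  classical
  have := Fintype.ofFinite V
  let φ : MulAut V := V.normalizerMonoidHom ⟨g, hg⟩
  have hφ : ∀ v : V, ((φ v : V) : G) = g * v * g⁻¹ := fun v => rfl
  have hφm : φ ^ (orderOf g) = 1 := by
    have : (⟨g, hg⟩ : normalizer (V : Set G)) ^ orderOf g = 1 := Subtype.ext (pow_orderOf_eq_one g)
    show (V.normalizerMonoidHom ⟨g, hg⟩) ^ (orderOf g) = 1
    rw [← map_pow, this, map_one]
  let f : Equiv.Perm V := MulAut.toPerm V φ
  have hf : ∀ v : V, v ≠ 1 ↔ f v ≠ 1 := fun v => by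
    show v ≠ 1 ↔ φ v ≠ 1
    rw [Ne, Ne, not_iff_not]
    exact ⟨fun h => by rw [h, map_one], fun h => (map_eq_one_iff φ φ.injective).1 h⟩
  let σ : Equiv.Perm {v : V // v ≠ 1} := f.subtypePerm (fun v => (hf v).symm)
  have hσm : σ ^ (orderOf g) = 1 := by
    have hfm : f ^ (orderOf g) = 1 := by
      show (MulAut.toPerm V φ) ^ (orderOf g) = 1
      rw [← map_pow, hφm, map_one]
    show (f.subtypePerm _) ^ (orderOf g) = 1
    rw [Equiv.Perm.subtypePerm_pow]
    ext v
    rw [Equiv.Perm.subtypePerm_apply]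
    show (((f ^ orderOf g) (v : V) : V) : G) = ((v : V) : G)
    rw [hfm]; rfl
  have hs : Fintype.card {v : V // v ≠ 1} ≤ 3 := by
    have h1 := Fintype.card_subtype_compl (fun v : V => v = 1)
    rw [Fintype.card_subtype_eq, ← Nat.card_eq_fintype_card (α := V)] at h1
    have h2 : Fintype.card {v : V // v ≠ 1} = Fintype.card {v : V // ¬ (v = 1)} := by congr
    rw [h2, h1]; omega
  have h6 : σ ^ 6 = 1 := by
    have h1 : Fintype.card (Equiv.Perm {v : V // v ≠ 1}) ∣ 6 := by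
      rw [Fintype.card_perm]
      exact (Nat.factorial_dvd_factorial hs)
    exact orderOf_dvd_iff_pow_eq_one.1 ((orderOf_dvd_card).trans h1)
  have hσ1 : σ = 1 := by
    rw [← orderOf_eq_one_iff, ← Nat.dvd_one, ← Nat.Coprime.gcd_eq_one ho]
    exact Nat.dvd_gcd (orderOf_dvd_of_pow_eq_one hσm) (orderOf_dvd_of_pow_eq_one h6)
  intro v hv
  by_cases hv1 : v = 1
  · rw [hv1]; group
  · have h1 : σ ⟨⟨v, hv⟩, fun h => hv1 (congrArg Subtype.val h)⟩ = ⟨⟨v, hv⟩, fun h => hv1 (congrArg Subtype.val h)⟩ := by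
      rw [hσ1]; rfl
    exact congrArg (fun z : {v : V // v ≠ 1} => ((z : V) : G)) h1

/-- an element of order prime to `6` normalizing a `2`-group `Q` with `|Q : Φ(Q)| ≤ 4`
centralizes it -/
theorem centralizes_of_frattini {G : Type*} [Group G] [Finite G] {Q : Subgroup G}
    (hQ : IsPGroup 2 Q) (hidx : (frattini Q).index ≤ 4) {g : G} (hg : g ∈ normalizer (Q : Set G))
    (ho : (orderOf g).Coprime 6) : g ∈ centralizer (Q : Set G) := by
  have h2 : Fact (Nat.Prime 2) := ⟨Nat.prime_two⟩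
  have hcop2 : (orderOf g).Coprime 2 := Nat.Coprime.coprime_dvd_right (by norm_num) ho
  have hA : zpowers g ≤ normalizer (Q : Set G) := zpowers_le.2 hg
  set N := normalizer (Q : Set G) with hN
  set Φ : Subgroup G := (frattini Q).map Q.subtype with hΦ
  have hΦQ : Φ ≤ Q := map_subtype_le _
  have hQN : Q ≤ N := le_normalizer
  -- Φ normal in N
  have hΦN : N ≤ normalizer (Φ : Set G) := by
    intro n hn
    apply PUtil.mem_normalizer_of_conj_mem
    rintro _ ⟨y, hy, rfl⟩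
    have hc : (frattini Q).Characteristic := inferInstance
    have h3 := (characteristic_iff_map_le.1 hc (Q.normalizerMonoidHom ⟨n, hn⟩)) ⟨y, hy, rfl⟩
    exact ⟨_, h3, rfl⟩
  have hΦn : (Φ.subgroupOf N).Normal := normal_subgroupOf_of_le_normalizer hΦN
  let π : N →* N ⧸ Φ.subgroupOf N := QuotientGroup.mk' _
  set V : Subgroup (N ⧸ Φ.subgroupOf N) := (Q.subgroupOf N).map π with hV
  have hVc : Nat.card V ≤ 4 := by
    -- V is the image of Q, with kernel Φ
    let q : Q →* V := ((π.comp (inclusion hQN)).codRestrict V (fun x => ⟨inclusion hQN x, x.2, rfl⟩))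
    have hq : Function.Surjective q := by
      rintro ⟨_, x, hx, rfl⟩
      exact ⟨⟨x, hx⟩, rfl⟩
    have hk : q.ker = frattini Q := by
      ext x
      rw [MonoidHom.mem_ker]
      constructor
      · intro h
        have h3 : π (inclusion hQN x) = 1 := congrArg Subtype.val h
        have h4 : inclusion hQN x ∈ Φ.subgroupOf N := (QuotientGroup.eq_one_iff _).1 h3
        rw [mem_subgroupOf] at h4
        obtain ⟨y, hy, hyx⟩ := h4
        have : y = x := Subtype.ext hyx
        rw [← this]; exact hy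
      · intro h
        apply Subtype.ext
        show π (inclusion hQN x) = 1
        apply (QuotientGroup.eq_one_iff _).2
        rw [mem_subgroupOf]
        exact ⟨x, h, rfl⟩
    have h3 := Subgroup.index_ker q
    rw [hk, MonoidHom.range_eq_top.2 hq, Subgroup.card_top] at h3
    rw [← h3]; exact hidx
  have hgV : π ⟨g, hg⟩ ∈ normalizer (V : Set (N ⧸ Φ.subgroupOf N)) := by
    apply PUtil.mem_normalizer_of_conj_mem
    rintro _ ⟨y, hy, rfl⟩
    refine ⟨⟨g, hg⟩ * y * ⟨g, hg⟩⁻¹, ?_, ?_⟩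
    · show (⟨g, hg⟩ * y * ⟨g, hg⟩⁻¹ : N) ∈ Q.subgroupOf N
      rw [mem_subgroupOf]
      exact (mem_normalizer_iff.1 hg _).1 hy
    · rw [map_mul, map_mul, map_inv]
  have hgo : (orderOf (π ⟨g, hg⟩)).Coprime 6 := by
    refine Nat.Coprime.coprime_dvd_left ?_ ho
    rw [← Subgroup.orderOf_mk g hg]
    exact orderOf_map_dvd π _
  have h3 := centralizes_of_card_le_four hVc hgV hgo
  have h4 : zpowers g ≤ centralizer (Q : Set G) := by
    apply Lib.Coprime.le_centralizer_of_frattini hA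
    · rw [Nat.card_zpowers]
      obtain ⟨k, hk⟩ := IsPGroup.iff_card.1 (hQ.to_subgroup (frattini Q))
      rw [hk]; exact Nat.Coprime.pow_right k hcop2
    · -- elements of zpowers g
      intro a ha k hk
      have h5 : π ⟨g, hg⟩ * π ⟨k, hQN hk⟩ * (π ⟨g, hg⟩)⁻¹ = π ⟨k, hQN hk⟩ := h3 _ ⟨⟨k, hQN hk⟩, hk, rfl⟩
      obtain ⟨m, rfl⟩ := ha
      have h6 : Commute (π ⟨g, hg⟩) (π ⟨k, hQN hk⟩) := by
        show π ⟨g, hg⟩ * π ⟨k, hQN hk⟩ = π ⟨k, hQN hk⟩ * π ⟨g, hg⟩
        calc π ⟨g, hg⟩ * π ⟨k, hQN hk⟩ = (π ⟨g, hg⟩ * π ⟨k, hQN hk⟩ * (π ⟨g, hg⟩)⁻¹) * π ⟨g, hg⟩ := by group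
          _ = _ := by rw [h5]
      have h7 := h6.zpow_left m
      have h8 : π ((⟨g, hg⟩ : N) ^ m * ⟨k, hQN hk⟩ * ((⟨g, hg⟩ : N) ^ m)⁻¹ * (⟨k, hQN hk⟩ : N)⁻¹) = 1 := by
        rw [map_mul, map_mul, map_mul, map_inv, map_inv, map_zpow, h7.eq]
        group
      have h9 := (QuotientGroup.eq_one_iff _).1 h8
      rw [mem_subgroupOf] at h9
      exact h9
  exact h4 (mem_zpowers g)

end Cfsg.Agent.H2.Small
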