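import Mathlib
import Cfsg.Agent.Lib.SchurZas
import Cfsg.Agent.Lib.Basic

set_option autoImplicit false

/-! Coprime subgroups of supplements of normal subgroups. -/

namespace Cfsg.Agent.H2.SolvSupp

open Subgroup Cfsg.Agent.Lib Cfsg.Agent.Lib.SchurZas
open scoped Pointwise

variable {G : Type*} [Group G]

theorem factor [Finite G] {K U H : Subgroup G} [K.Normal] (hKs : Group.IsSolvable K) (hKU : K ⊔ U = ⊤) (hH : H ≤ U)
    (hcop : (Nat.card H).Coprime (Nat.card K)) {g : G} (hg : ∀ h ∈ H, g * h * g⁻¹ ∈ U) :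
    ∃ u ∈ U, ∃ c ∈ K ⊓ centralizer (H : Set G), g = u * c := by
  obtain ⟨u₁, hu₁, k₁, hk₁, rfl⟩ : ∃ u ∈ U, ∃ k ∈ K, g = u * k := by
    have h1 : g ∈ U ⊔ K := by rw [sup_comm, hKU]; exact mem_top g
    obtain ⟨u, hu, k, hk, h⟩ := mem_sup_of_normal_right.mp h1
    exact ⟨u, hu, k, hk, h.symm⟩
  have h1 : ∀ h ∈ H, k₁ * h * k₁⁻¹ ∈ U := by
    intro h hh
    have h2 := hg h hh
    have h3 : k₁ * h * k₁⁻¹ = u₁⁻¹ * (u₁ * k₁ * h * (u₁ * k₁)⁻¹) * u₁ := by group
    rw [h3]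
    exact mul_mem (mul_mem (inv_mem hu₁) h2) hu₁
  have h2 : ∀ h ∈ H, k₁ * (h * k₁⁻¹ * h⁻¹) ∈ K ⊓ U := by
    intro h hh
    have h3 : k₁ * (h * k₁⁻¹ * h⁻¹) ∈ K := mul_mem hk₁ ((inferInstance : K.Normal).conj_mem _ (inv_mem hk₁) h)
    refine mem_inf.mpr ⟨h3, ?_⟩
    have h4 : k₁ * (h * k₁⁻¹ * h⁻¹) = (k₁ * h * k₁⁻¹) * h⁻¹ := by group
    rw [h4]
    exact mul_mem (h1 h hh) (inv_mem (hH hh))
  have hU : U ≤ normalizer ((K ⊓ U : Subgroup G) : Set G) := le_normalizer_inf le_normalizer_of_normal le_normalizer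
  have hcop' : (Nat.card H).Coprime (Nat.card (K ⊓ U : Subgroup G)) :=
    Nat.Coprime.coprime_dvd_right (card_dvd_of_le inf_le_left) hcop
  have hsup : (K ⊓ U) ⊔ (MulAut.conj k₁ • H) = (K ⊓ U) ⊔ H := by
    apply le_antisymm
    · refine sup_le le_sup_left ?_
      intro x hx
      rw [mem_conj_smul_iff] at hx
      have h3 : x = (k₁ * ((k₁⁻¹ * x * k₁) * k₁⁻¹ * (k₁⁻¹ * x * k₁)⁻¹)) * (k₁⁻¹ * x * k₁) := by group
      rw [h3]
      exact mul_mem ((le_sup_left : K ⊓ U ≤ _) (h2 _ hx)) ((le_sup_right : H ≤ _) hx)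
    · refine sup_le le_sup_left ?_
      intro h hh
      have h3 : h = (k₁ * (h * k₁⁻¹ * h⁻¹))⁻¹ * (k₁ * h * k₁⁻¹) := by group
      rw [h3]
      refine mul_mem ((le_sup_left : K ⊓ U ≤ _) (inv_mem (h2 _ hh))) ((le_sup_right : MulAut.conj k₁ • H ≤ _) ?_)
      rw [mem_conj_smul_iff]
      have : k₁⁻¹ * (k₁ * h * k₁⁻¹) * k₁ = h := by group
      rw [this]; exact hh
  have h3 : MulAut.conj k₁ • H ≤ U := by
    intro x hx
    rw [mem_conj_smul_iff] at hx
    have := h1 _ hx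
    have e : k₁ * (k₁⁻¹ * x * k₁) * k₁⁻¹ = x := by group
    rwa [e] at this
  obtain ⟨n, hn, hnH⟩ := conj_of_coprime' (N := K ⊓ U) (A := MulAut.conj k₁ • H) (B := H) (h3.trans hU)
    (by rw [card_conj_smul]; exact hcop') hcop' hsup (Or.inr (isSolvable_of_le inf_le_left hKs))
  obtain ⟨hnK, hnU⟩ := mem_inf.mp hn
  rw [← mul_smul, ← map_mul] at hnH
  refine ⟨u₁ * n⁻¹, mul_mem hu₁ (inv_mem hnU), n * k₁, mem_inf.mpr ⟨mul_mem hnK hk₁, ?_⟩, by group⟩
  rw [mem_centralizer_iff]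
  intro h hh
  -- the commutator lies in `K ∩ H`
  have h4 : (n * k₁) * h * (n * k₁)⁻¹ ∈ H := by
    have h5 : (n * k₁) * h * (n * k₁)⁻¹ ∈ MulAut.conj (n * k₁) • H := by
      rw [mem_conj_smul_iff]
      have : (n * k₁)⁻¹ * (n * k₁ * h * (n * k₁)⁻¹) * (n * k₁) = h := by group
      rw [this]; exact hh
    rwa [hnH] at h5
  have h5 : (n * k₁) * h * (n * k₁)⁻¹ * h⁻¹ ∈ K ⊓ H := by
    refine mem_inf.mpr ⟨?_, mul_mem h4 (inv_mem hh)⟩
    have e : (n * k₁) * h * (n * k₁)⁻¹ * h⁻¹ = (n * k₁) * (h * (n * k₁)⁻¹ * h⁻¹) := by group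
    rw [e]
    exact mul_mem (mul_mem hnK hk₁) ((inferInstance : K.Normal).conj_mem _ (inv_mem (mul_mem hnK hk₁)) h)
  have h6 : K ⊓ H = ⊥ := by
    rw [← disjoint_iff]
    exact disjoint_of_coprime_natCard hcop.symm
  rw [h6, mem_bot] at h5
  exact (mul_inv_eq_iff_eq_mul.mp (mul_inv_eq_one.mp h5)).symm

theorem normalizer_eq [Finite G] {K U H : Subgroup G} [K.Normal] (hKs : Group.IsSolvable K) (hKU : K ⊔ U = ⊤) (hH : H ≤ U)
    (hcop : (Nat.card H).Coprime (Nat.card K)) :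
    normalizer (H : Set G) = (K ⊓ centralizer (H : Set G)) ⊔ (U ⊓ normalizer (H : Set G)) := by
  apply le_antisymm
  · intro g hg
    obtain ⟨u, hu, c, hc, rfl⟩ := factor hKs hKU hH hcop (g := g) (fun h hh => hH ((mem_normalizer_iff.mp hg h).mp hh))
    have hcN : c ∈ normalizer (H : Set G) := centralizer_le_normalizer _ (mem_inf.mp hc).2
    have huN : u ∈ normalizer (H : Set G) := by
      have : u = (u * c) * c⁻¹ := by group
      rw [this]; exact mul_mem hg (inv_mem hcN)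
    exact mul_mem ((le_sup_right : U ⊓ normalizer (H : Set G) ≤ _) (mem_inf.mpr ⟨hu, huN⟩))
      ((le_sup_left : K ⊓ centralizer (H : Set G) ≤ _) hc)
  · exact sup_le (inf_le_right.trans (centralizer_le_normalizer _)) inf_le_right

theorem inf_commutator [Finite G] {K U H : Subgroup G} [K.Normal] (hKU : K ⊔ U = ⊤) (hH : H ≤ U)
    (hcop : (Nat.card H).Coprime (Nat.card K)) : H ⊓ commutator G = H ⊓ ⁅U, U⁆ := by
  apply le_antisymm
  · intro h hh
    obtain ⟨hhH, hhG⟩ := mem_inf.mp hh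
    refine mem_inf.mpr ⟨hhH, ?_⟩
    -- `G' ≤ K U'`
    have h1 : commutator G ≤ K ⊔ ⁅U, U⁆ := by
      have h2 : (⊤ : Subgroup G).map (QuotientGroup.mk' K) = U.map (QuotientGroup.mk' K) := by
        rw [← hKU, Subgroup.map_sup]
        have : K.map (QuotientGroup.mk' K) = ⊥ := by
          rw [Subgroup.map_eq_bot_iff, QuotientGroup.ker_mk']
        rw [this, bot_sup_eq]
      have h3 : (commutator G).map (QuotientGroup.mk' K) = ⁅U, U⁆.map (QuotientGroup.mk' K) := by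
        rw [_root_.commutator_def, map_commutator, map_commutator, h2]
      have h4 := sup_eq_of_map_mk_eq h3
      rw [← h4]; exact le_sup_right
    obtain ⟨k, hk, v, hv, hkv⟩ := mem_sup_of_normal_left.mp (h1 hhG)
    have hvU : v ∈ U := (commutator_le_self U) hv
    have hkU : k ∈ U := by
      have : k = h * v⁻¹ := by rw [← hkv]; group
      rw [this]; exact mul_mem (hH hhH) (inv_mem hvU)
    -- pass to the abelianization of `U`
    let f : U →* Abelianization U := Abelianization.of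
    have hfv : f ⟨v, hvU⟩ = 1 := by
      have : (⟨v, hvU⟩ : U) ∈ commutator U := by
        rw [← map_subtype_commutator] at hv
        obtain ⟨y, hy, hyv⟩ := hv
        have : y = ⟨v, hvU⟩ := Subtype.ext hyv
        rw [← this]; exact hy
      have h5 : (⟨v, hvU⟩ : U) ∈ (Abelianization.of : U →* Abelianization U).ker := by rw [Abelianization.ker_of]; exact this
      exact h5
    have hfk : f ⟨k, hkU⟩ = f ⟨h, hH hhH⟩ := by
      have : (⟨h, hH hhH⟩ : U) = ⟨k, hkU⟩ * ⟨v, hvU⟩ := Subtype.ext hkv.symm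
      rw [this, map_mul, hfv, mul_one]
    have h6 : orderOf (f ⟨h, hH hhH⟩) ∣ Nat.card H := by
      refine (orderOf_map_dvd f _).trans ?_
      rw [← orderOf_coe]
      exact Subgroup.orderOf_dvd_natCard H hhH
    have h7 : orderOf (f ⟨h, hH hhH⟩) ∣ Nat.card K := by
      rw [← hfk]
      refine (orderOf_map_dvd f _).trans ?_
      rw [← orderOf_coe]
      exact Subgroup.orderOf_dvd_natCard K hk
    have h8 : f ⟨h, hH hhH⟩ = 1 := orderOf_eq_one_iff.mp (Nat.eq_one_of_dvd_coprimes hcop h6 h7)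
    have h9 : (⟨h, hH hhH⟩ : U) ∈ (Abelianization.of : U →* Abelianization U).ker := h8
    rw [Abelianization.ker_of] at h9
    rw [← map_subtype_commutator]
    exact ⟨_, h9, rfl⟩
  · refine le_inf inf_le_left (inf_le_right.trans ?_)
    rw [_root_.commutator_def]
    exact commutator_mono le_top le_top

end Cfsg.Agent.H2.SolvSupp
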