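import Mathlib
import Cfsg.Prelude
import Cfsg.Agent.Lib.MinAct
import Cfsg.Agent.Lib.FrobGrp
import Cfsg.Agent.H2.PUtil
import Cfsg.Agent.H2.SixElt

set_option autoImplicit false

/-! Counting square roots of the identity in special 2-groups. -/

namespace Cfsg.Agent.H2.SpecCount

open Subgroup Cfsg.Agent.Lib

universe u

section even
variable {R : Type u} [Group R] {Z : Subgroup R}

theorem comm_mem (hZc : Z ≤ center R) (hsq : ∀ x : R, x ^ 2 ∈ Z) (x y : R) : x * y * x⁻¹ * y⁻¹ ∈ Z := by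
  have h1 : ∀ z ∈ Z, ∀ w : R, w * z = z * w := fun z hz w => mem_center_iff.mp (hZc hz) w
  have h2 := h1 _ (hsq x⁻¹) y⁻¹
  have h3 : x * y * x⁻¹ * y⁻¹ = (x * y) ^ 2 * ((y⁻¹ * x⁻¹ ^ 2) * y⁻¹) := by
    rw [pow_two, pow_two]; group
  rw [h3, h2, mul_assoc (x⁻¹ ^ 2), ← pow_two]
  exact mul_mem (hsq _) (mul_mem (hsq _) (hsq _))

/-- the commutator homomorphism -/
theorem exists_com (hZc : Z ≤ center R) (hsq : ∀ x : R, x ^ 2 ∈ Z) (x : R) : ∃ φ : R →* Z, ∀ y, ((φ y : Z) : R) = y * x * y⁻¹ * x⁻¹ := by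
  refine ⟨MonoidHom.mk' (fun y => ⟨y * x * y⁻¹ * x⁻¹, comm_mem hZc hsq y x⟩) ?_, fun y => rfl⟩
  intro a b
  apply Subtype.ext
  change a * b * x * (a * b)⁻¹ * x⁻¹ = (a * x * a⁻¹ * x⁻¹) * (b * x * b⁻¹ * x⁻¹)
  obtain ⟨c, hc⟩ : ∃ c, c = b * x * b⁻¹ * x⁻¹ := ⟨_, rfl⟩
  have hcZ : c ∈ center R := hc ▸ hZc (comm_mem hZc hsq b x)
  have h1 : b * x * b⁻¹ = c * x := by rw [hc]; group
  have h2 : a * c = c * a := mem_center_iff.mp hcZ a
  have h3 : (a * x * a⁻¹ * x⁻¹) * c = c * (a * x * a⁻¹ * x⁻¹) := mem_center_iff.mp hcZ _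
  rw [← hc, h3]
  calc a * b * x * (a * b)⁻¹ * x⁻¹ = a * (b * x * b⁻¹) * a⁻¹ * x⁻¹ := by group
    _ = a * (c * x) * a⁻¹ * x⁻¹ := by rw [h1]
    _ = (a * c) * x * a⁻¹ * x⁻¹ := by group
    _ = (c * a) * x * a⁻¹ * x⁻¹ := by rw [h2]
    _ = _ := by group

theorem card_half [Finite R] (hZc : Z ≤ center R) (hZ : Nat.card Z = 2) (hsq : ∀ x : R, x ^ 2 ∈ Z) (D : Subgroup R) (x : R) :
    Nat.card D ≤ 2 * Nat.card (D ⊓ centralizer ({x} : Set R) : Subgroup R) := by
  obtain ⟨φ, hφ⟩ := exists_com hZc hsq x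
  have h1 := (φ.comp D.subtype).ker.card_mul_index
  have h2 : (φ.comp D.subtype).ker.index ≤ 2 := by
    rw [index_ker, ← hZ]
    exact Nat.le_of_dvd Nat.card_pos (card_subgroup_dvd_card _)
  have h3 : Nat.card (φ.comp D.subtype).ker = Nat.card (D ⊓ centralizer ({x} : Set R) : Subgroup R) := by
    have e : (φ.comp D.subtype).ker.map D.subtype = D ⊓ centralizer ({x} : Set R) := by
      ext y
      constructor
      · rintro ⟨y, hy, rfl⟩
        refine mem_inf.mpr ⟨y.2, ?_⟩
        rw [mem_centralizer_singleton_iff]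
        have h4 : φ (y : R) = 1 := hy
        have h5 := hφ (y : R)
        rw [h4] at h5
        have h6 : (y : R) * x * (y : R)⁻¹ * x⁻¹ = 1 := h5.symm
        exact mul_inv_eq_iff_eq_mul.mp (mul_inv_eq_one.mp h6)
      · intro hy
        obtain ⟨hyD, hyx⟩ := mem_inf.mp hy
        refine ⟨⟨y, hyD⟩, ?_, rfl⟩
        rw [SetLike.mem_coe, MonoidHom.mem_ker]
        apply Subtype.ext
        rw [mem_centralizer_singleton_iff] at hyx
        change ((φ y : Z) : R) = 1
        rw [hφ, hyx]; group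
    rw [← e]
    exact Nat.card_congr ((φ.comp D.subtype).ker.equivMapOfInjective _ D.subtype_injective).toEquiv
  rw [← h1, ← h3, mul_comm]
  exact Nat.mul_le_mul_right _ h2

theorem exists_abelian [Finite R] (hZc : Z ≤ center R) (hZ : Nat.card Z = 2) (hsq : ∀ x : R, x ^ 2 ∈ Z) (hR : 128 ≤ Nat.card R) (j : ℕ) (hj : j ≤ 3) :
    ∃ A : Subgroup R, Z ≤ A ∧ (∀ a ∈ A, ∀ b ∈ A, a * b = b * a) ∧ Nat.card A = 2 ^ (j + 1) ∧ Nat.card R ≤ 2 ^ j * Nat.card (centralizer (A : Set R)) := by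
  induction j with
  | zero =>
    refine ⟨Z, le_rfl, fun a ha b hb => (mem_center_iff.mp (hZc hb) a), by rw [hZ]; norm_num, ?_⟩
    have h1 : centralizer (Z : Set R) = ⊤ := by
      rw [eq_top_iff]
      intro x _
      rw [mem_centralizer_iff]
      intro z hz
      exact (mem_center_iff.mp (hZc hz) x).symm
    rw [h1, card_top, pow_zero, one_mul]
  | succ j ih =>
    obtain ⟨A, hZA, hA, hAc, hC⟩ := ih (by omega)
    have hbig : Nat.card A < Nat.card (centralizer (A : Set R)) := by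
      rw [hAc]
      rcases (show j = 0 ∨ j = 1 ∨ j = 2 by omega) with rfl | rfl | rfl <;> norm_num at hC ⊢ <;> omega
    obtain ⟨x, hxC, hxA⟩ : ∃ x ∈ centralizer (A : Set R), x ∉ A := by
      by_contra hcon
      push Not at hcon
      exact absurd (Nat.card_le_card_of_injective (Subgroup.inclusion hcon) (Subgroup.inclusion_injective hcon)) (not_le.mpr hbig)
    have hxa : ∀ a ∈ A, a * x = x * a := fun a ha => mem_centralizer_iff.mp hxC a ha
    have hx2 : x ^ 2 ∈ A := hZA (hsq x)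
    obtain ⟨A', hA'⟩ : ∃ A' : Subgroup R, ∀ y, y ∈ A' ↔ y ∈ A ∨ y * x ∈ A := by
      refine ⟨{ carrier := {y | y ∈ A ∨ y * x ∈ A}
                one_mem' := Or.inl (one_mem _)
                mul_mem' := ?_
                inv_mem' := ?_ }, fun y => Iff.rfl⟩
      · rintro a b (ha | ha) (hb | hb)
        · exact Or.inl (mul_mem ha hb)
        · right
          rw [mul_assoc]; exact mul_mem ha hb
        · right
          rw [mul_assoc, hxa b hb, ← mul_assoc]; exact mul_mem ha hb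
        · left
          have h1 : a * b = (a * x) * (b * x) * (x ^ 2)⁻¹ := by
            have h2 : b = (b * x) * x⁻¹ := by group
            have h3 : x⁻¹ * (b * x) = (b * x) * x⁻¹ := by
              have := hxa _ hb
              rw [inv_mul_eq_iff_eq_mul, ← mul_assoc, ← this, mul_inv_cancel_right]
            calc a * b = (a * x) * (x⁻¹ * (b * x)) * x⁻¹ := by group
              _ = (a * x) * ((b * x) * x⁻¹) * x⁻¹ := by rw [h3]
              _ = _ := by rw [pow_two]; group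
          rw [h1]; exact mul_mem (mul_mem ha hb) (inv_mem hx2)
      · rintro a (ha | ha)
        · exact Or.inl (inv_mem ha)
        · right
          have h1 : a⁻¹ * x = (a * x)⁻¹ * x ^ 2 := by
            have h2 := hxa _ ha
            have h3 : x * (a * x)⁻¹ = (a * x)⁻¹ * x := by
              rw [eq_inv_mul_iff_mul_eq, ← mul_assoc, h2, mul_inv_cancel_right]
            have h4 : a⁻¹ = x * (a * x)⁻¹ := by group
            rw [h4, h3, pow_two, mul_assoc]
          change a⁻¹ * x ∈ A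
          rw [h1]; exact mul_mem (inv_mem ha) hx2
    have hAA' : A ≤ A' := fun y hy => (hA' y).mpr (Or.inl hy)
    refine ⟨A', hZA.trans hAA', ?_, ?_, ?_⟩
    · have hform : ∀ y ∈ A', ∃ a ∈ A, y = a ∨ y = a * x := by
        intro y hy
        rcases (hA' y).mp hy with h | h
        · exact ⟨y, h, Or.inl rfl⟩
        · refine ⟨(y * x) * (x ^ 2)⁻¹, mul_mem h (inv_mem hx2), Or.inr ?_⟩
          rw [pow_two]; group
      intro y hy w hw
      obtain ⟨a, ha, rfl | rfl⟩ := hform y hy <;> obtain ⟨b, hb, rfl | rfl⟩ := hform w hw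
      · exact hA _ ha _ hb
      · rw [← mul_assoc, hA _ ha _ hb, mul_assoc, hxa _ ha, mul_assoc]
      · rw [mul_assoc, ← hxa _ hb, ← mul_assoc, hA _ ha _ hb, mul_assoc]
      · have e1 : a * x * (b * x) = a * b * x ^ 2 := by rw [mul_assoc, ← mul_assoc x, ← hxa _ hb, pow_two]; group
        have e2 : b * x * (a * x) = b * a * x ^ 2 := by rw [mul_assoc, ← mul_assoc x, ← hxa _ ha, pow_two]; group
        rw [e1, e2, hA _ ha _ hb]
    · have hidx : (A.subgroupOf A').index = 2 := by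
        rw [index_eq_two_iff]
        have hxA' : x ∈ A' := (hA' x).mpr (Or.inr (by rw [← pow_two]; exact hx2))
        refine ⟨⟨x, hxA'⟩, ?_⟩
        intro b
        rw [mem_subgroupOf, mem_subgroupOf]
        change Xor (((b : R) * x) ∈ A) ((b : R) ∈ A)
        by_cases hb : (b : R) ∈ A
        · right
          refine ⟨hb, fun h => hxA ?_⟩
          have : x = (b : R)⁻¹ * ((b : R) * x) := by group
          rw [this]; exact mul_mem (inv_mem hb) h
        · left
          rcases (hA' _).mp b.2 with h | h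
          · exact absurd h hb
          · exact ⟨h, hb⟩
      have h1 := (A.subgroupOf A').card_mul_index
      rw [hidx, Nat.card_congr (subgroupOfEquivOfLe hAA').toEquiv, hAc] at h1
      rw [← h1]; rfl
    · have h1 := card_half hZc hZ hsq (centralizer (A : Set R)) x
      have h2 : centralizer (A : Set R) ⊓ centralizer ({x} : Set R) ≤ centralizer (A' : Set R) := by
        intro y hy
        obtain ⟨hy1, hy2⟩ := mem_inf.mp hy
        rw [mem_centralizer_iff]
        intro w hw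
        rw [mem_centralizer_singleton_iff] at hy2
        rcases (hA' w).mp hw with h | h
        · exact mem_centralizer_iff.mp hy1 w h
        · have h3 := mem_centralizer_iff.mp hy1 _ h
          -- `w x y = y w x`, `x y = y x`
          have h4 : w * y * x = y * w * x := by
            rw [mul_assoc, hy2, ← mul_assoc, h3, ← mul_assoc]
          exact mul_right_cancel h4
      have h3 := Nat.card_le_card_of_injective (Subgroup.inclusion h2) (Subgroup.inclusion_injective h2)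
      calc Nat.card R ≤ 2 ^ j * Nat.card (centralizer (A : Set R)) := hC
        _ ≤ 2 ^ j * (2 * Nat.card (centralizer (A' : Set R))) := Nat.mul_le_mul_left _ (h1.trans (Nat.mul_le_mul_left _ h3))
        _ = _ := by rw [pow_succ]; ring

theorem even_count [Finite R] (hZc : Z ≤ center R) (hZ : Nat.card Z = 2) (hsq : ∀ x : R, x ^ 2 ∈ Z) (hR : 128 ≤ Nat.card R) :
    8 ∣ Nat.card {x : R // x ^ 2 = 1} := by
  classical
  obtain ⟨A, hZA, hA, hAc, -⟩ := exists_abelian hZc hZ hsq hR 3 le_rfl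
  have hAc' : Nat.card A = 16 := by rw [hAc]; norm_num
  have e : {x : R // x ^ 2 = 1} ≃ Σ q : R ⧸ A, {x : R // x ^ 2 = 1 ∧ (x : R ⧸ A) = q} :=
    { toFun := fun x => ⟨(x : R), ⟨x, x.2, rfl⟩⟩
      invFun := fun z => ⟨z.2, z.2.2.1⟩
      left_inv := fun x => rfl
      right_inv := by
        rintro ⟨q, ⟨x, hx, rfl⟩⟩
        rfl }
  letI : Fintype (R ⧸ A) := Fintype.ofFinite _
  rw [Nat.card_congr e, Nat.card_sigma]
  apply Finset.dvd_sum
  intro q _
  by_cases hq : ∃ x : R, x ^ 2 = 1 ∧ (x : R ⧸ A) = q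
  · obtain ⟨x, hx, rfl⟩ := hq
    have hmem : ∀ a : R, x⁻¹ * a * x * a ∈ Z := by
      intro a
      have h1 := comm_mem hZc hsq x⁻¹ a
      rw [inv_inv] at h1
      have h2 : x⁻¹ * a * x * a = x⁻¹ * a * x * a⁻¹ * a ^ 2 := by rw [pow_two]; group
      rw [h2]; exact mul_mem h1 (hsq a)
    obtain ⟨ψ, hψ⟩ : ∃ ψ : A →* Z, ∀ a, ((ψ a : Z) : R) = x⁻¹ * a * x * a := by
      refine ⟨MonoidHom.mk' (fun a => ⟨x⁻¹ * a * x * a, hmem a⟩) ?_, fun a => rfl⟩
      intro a b
      apply Subtype.ext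
      change x⁻¹ * (a * b : R) * x * (a * b) = (x⁻¹ * a * x * a) * (x⁻¹ * b * x * b)
      obtain ⟨c, hc⟩ : ∃ c, c = x⁻¹ * (b : R) * x * b := ⟨_, rfl⟩
      have hcZ : c ∈ center R := hc ▸ hZc (hmem b)
      have h1 : x⁻¹ * (b : R) * x = c * (b : R)⁻¹ := by rw [hc]; group
      have h2 : (a : R) * b = b * a := hA _ a.2 _ b.2
      rw [← hc]
      calc x⁻¹ * ((a : R) * b) * x * (a * b) = (x⁻¹ * a * x) * (x⁻¹ * b * x) * (a * b) := by group
        _ = (x⁻¹ * a * x) * (c * (b : R)⁻¹) * (b * a) := by rw [h1, h2]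
        _ = ((x⁻¹ * a * x) * c) * a := by group
        _ = (c * (x⁻¹ * a * x)) * a := by rw [mem_center_iff.mp hcZ]
        _ = c * (x⁻¹ * a * x * a) := by group
        _ = _ := (mem_center_iff.mp hcZ _).symm
    have e2 : {y : R // y ^ 2 = 1 ∧ (y : R ⧸ A) = (x : R ⧸ A)} ≃ ψ.ker :=
      { toFun := fun y => ⟨⟨x⁻¹ * y, QuotientGroup.eq.mp y.2.2.symm⟩, by
          rw [MonoidHom.mem_ker]
          apply Subtype.ext
          rw [hψ]
          change x⁻¹ * (x⁻¹ * (y : R)) * x * (x⁻¹ * y) = 1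
          have h1 : (y : R) * y = 1 := by rw [← pow_two]; exact y.2.1
          have h2 : x * x = 1 := by rw [← pow_two]; exact hx
          have h3 : x⁻¹ * x⁻¹ = 1 := by rw [← mul_inv_rev, h2, inv_one]
          calc x⁻¹ * (x⁻¹ * (y : R)) * x * (x⁻¹ * y) = (x⁻¹ * x⁻¹) * (y * y) := by group
            _ = 1 := by rw [h3, h1, one_mul]⟩
        invFun := fun a => ⟨x * ((a : A) : R), by
          have h1 := hψ (a : A)
          have h2 : ψ (a : A) = 1 := a.2
          rw [h2] at h1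
          have h3 : x⁻¹ * ((a : A) : R) * x * ((a : A) : R) = 1 := h1.symm
          refine ⟨?_, ?_⟩
          · have h4 : x * x = 1 := by rw [← pow_two]; exact hx
            have h5 : x * ((a : A) : R) * x * ((a : A) : R) = 1 := by
              have : x * ((a : A) : R) * x * ((a : A) : R) = (x * x) * (x⁻¹ * ((a : A) : R) * x * ((a : A) : R)) := by group
              rw [this, h4, h3, one_mul]
            rw [pow_two, ← mul_assoc]; exact h5
          · rw [eq_comm, QuotientGroup.eq, inv_mul_cancel_left]; exact (a : A).2⟩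
        left_inv := fun y => Subtype.ext (by simp)
        right_inv := fun a => Subtype.ext (Subtype.ext (by simp)) }
    rw [Nat.card_congr e2]
    have h1 := ψ.ker.card_mul_index
    rw [hAc', index_ker] at h1
    have h2 : Nat.card ψ.range ∣ 2 := hZ ▸ card_subgroup_dvd_card _
    rcases (Nat.dvd_prime Nat.prime_two).mp h2 with h | h
    · rw [h] at h1; exact ⟨2, by omega⟩
    · rw [h] at h1; exact ⟨1, by omega⟩
  · have h1 : Nat.card {x : R // x ^ 2 = 1 ∧ (x : R ⧸ A) = q} = 0 := by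
      rw [Nat.card_eq_zero]
      left
      exact ⟨fun x => hq ⟨x, x.2⟩⟩
    rw [h1]; exact dvd_zero _

end even

/-- no special group as in the theorem -/
theorem no_special {Q : Type u} [Group Q] [Finite Q] (Z : Subgroup Q) (hZc : Z ≤ center Q) (hZ : Nat.card Z = 4) (hsq : ∀ x : Q, x ^ 2 ∈ Z)
    (hinv : ∀ x : Q, x ^ 2 = 1 ↔ x ∈ Z) (φ : MulAut Q) (hφZ : ∀ z ∈ Z, φ z ∈ Z) (hφ : ∀ z ∈ Z, φ z = z → z = 1) (hQ : 256 ≤ Nat.card Q)
    (hQ2 : 16 ∣ Nat.card Q) : False := by
  classical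
  have hZ1 : Z ≠ ⊥ := by
    intro h
    rw [h, card_bot] at hZ
    omega
  obtain ⟨z, hz1⟩ := ne_bot_iff_exists_ne_one.mp hZ1
  obtain ⟨z₁, hz₁⟩ : ∃ z₁ : Q, z₁ = z := ⟨_, rfl⟩
  have hz₁Z : z₁ ∈ Z := hz₁ ▸ z.2
  have hz₁1 : z₁ ≠ 1 := fun h => hz1 (Subtype.ext (hz₁ ▸ h))
  obtain ⟨z₂, hz₂⟩ : ∃ z₂, z₂ = φ z₁ := ⟨_, rfl⟩
  obtain ⟨z₃, hz₃⟩ : ∃ z₃, z₃ = φ z₂ := ⟨_, rfl⟩
  have hz₂Z : z₂ ∈ Z := hz₂ ▸ hφZ _ hz₁Z
  have hz₃Z : z₃ ∈ Z := hz₃ ▸ hφZ _ hz₂Z
  have hz₂1 : z₂ ≠ 1 := by rw [hz₂]; intro h; exact hz₁1 (φ.injective (h.trans (map_one φ).symm))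
  have hz₃1 : z₃ ≠ 1 := by rw [hz₃]; intro h; exact hz₂1 (φ.injective (h.trans (map_one φ).symm))
  have h12 : z₁ ≠ z₂ := fun h => hz₁1 (hφ _ hz₁Z (hz₂ ▸ h.symm))
  have h23 : z₂ ≠ z₃ := fun h => hz₂1 (hφ _ hz₂Z (hz₃ ▸ h.symm))
  have hsq1 : ∀ w ∈ Z, w * w = 1 := fun w hw => by rw [← pow_two]; exact (hinv w).mpr hw
  have h13 : z₁ ≠ z₃ := by
    intro h
    have h1 : z₁ * z₂ ∈ Z := mul_mem hz₁Z hz₂Z
    have h2 : φ (z₁ * z₂) = z₁ * z₂ := by
      rw [map_mul, ← hz₂, ← hz₃, ← h]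
      exact mem_center_iff.mp (hZc hz₁Z) z₂
    have h3 := hφ _ h1 h2
    apply h12
    have h4 := hsq1 _ hz₁Z
    exact mul_left_cancel (h4.trans h3.symm)
  have hZeq : ∀ w ∈ Z, w = 1 ∨ w = z₁ ∨ w = z₂ ∨ w = z₃ := by
    intro w hw
    by_contra hcon
    push Not at hcon
    obtain ⟨c1, c2, c3, c4⟩ := hcon
    have h1 : ({1, z₁, z₂, z₃, w} : Finset Q).card = 5 := by
      rw [Finset.card_insert_of_notMem, Finset.card_insert_of_notMem, Finset.card_insert_of_notMem, Finset.card_insert_of_notMem, Finset.card_singleton]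
      · simpa using c4.symm
      · simp [h23, c3.symm]
      · simp [h12, h13, c2.symm]
      · simp [hz₁1.symm, hz₂1.symm, hz₃1.symm, c1.symm]
    have h2 : (({1, z₁, z₂, z₃, w} : Finset Q) : Set Q) ⊆ (Z : Set Q) := by
      intro x hx
      simp only [Finset.coe_insert, Finset.coe_singleton, Set.mem_insert_iff, Set.mem_singleton_iff] at hx
      rcases hx with rfl | rfl | rfl | rfl | rfl
      · exact one_mem _
      all_goals assumption
    have h3 := Set.ncard_le_ncard h2 (Set.toFinite _)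
    rw [Set.ncard_coe_finset, h1] at h3
    have h4 : (Z : Set Q).ncard = 4 := hZ
    omega
  -- counts
  obtain ⟨N, hN⟩ : ∃ N : Q → ℕ, N = fun w => Nat.card {x : Q // x ^ 2 = w} := ⟨_, rfl⟩
  have hNφ : ∀ w : Q, N (φ w) = N w := by
    intro w
    rw [hN]
    apply Nat.card_congr
    exact
      { toFun := fun x => ⟨φ.symm x, by rw [← map_pow, x.2, MulEquiv.symm_apply_apply]⟩
        invFun := fun x => ⟨φ x, by rw [← map_pow, x.2]⟩
        left_inv := fun x => Subtype.ext (by simp)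
        right_inv := fun x => Subtype.ext (by simp) }
  have hN1 : N 1 = 4 := by
    rw [hN, ← hZ]
    apply Nat.card_congr
    exact Equiv.subtypeEquivRight hinv
  have hN2 : N z₂ = N z₁ := by rw [hz₂, hNφ]
  have hN3 : N z₃ = N z₁ := by rw [hz₃, hNφ, hN2]
  have htot : Nat.card Q = N 1 + N z₁ + N z₂ + N z₃ := by
    letI : Fintype Q := Fintype.ofFinite _
    have h1 : (Finset.univ : Finset Q) = (Finset.univ.filter (fun x : Q => x ^ 2 = 1)) ∪ (Finset.univ.filter (fun x : Q => x ^ 2 = z₁)) ∪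
        (Finset.univ.filter (fun x : Q => x ^ 2 = z₂)) ∪ (Finset.univ.filter (fun x : Q => x ^ 2 = z₃)) := by
      ext x
      simp only [Finset.mem_univ, Finset.mem_union, Finset.mem_filter, true_and, true_iff]
      rcases hZeq _ (hsq x) with h | h | h | h <;> tauto
    have hcard : ∀ w : Q, N w = (Finset.univ.filter (fun x : Q => x ^ 2 = w)).card := by
      intro w
      rw [hN]
      simp only
      rw [Nat.card_eq_fintype_card, Fintype.card_subtype]
    rw [Nat.card_eq_fintype_card, ← Finset.card_univ, h1, Finset.card_union_of_disjoint, Finset.card_union_of_disjoint, Finset.card_union_of_disjoint, ← hcard, ← hcard, ← hcard, ← hcard]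
    · rw [Finset.disjoint_left]
      intro x hx hx'
      simp only [Finset.mem_filter, Finset.mem_univ, true_and] at hx hx'
      exact hz₁1 (hx'.symm.trans hx)
    · rw [Finset.disjoint_left]
      intro x hx hx'
      simp only [Finset.mem_filter, Finset.mem_univ, true_and, Finset.mem_union] at hx hx'
      rcases hx with hx | hx
      · exact hz₂1 (hx'.symm.trans hx)
      · exact h12 (hx.symm.trans hx')
    · rw [Finset.disjoint_left]
      intro x hx hx'
      simp only [Finset.mem_filter, Finset.mem_univ, true_and, Finset.mem_union] at hx hx'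
      rcases hx with (hx | hx) | hx
      · exact hz₃1 (hx'.symm.trans hx)
      · exact h13 (hx.symm.trans hx')
      · exact h23 (hx.symm.trans hx')
  -- the quotient
  obtain ⟨Y, hY⟩ : ∃ Y, Y = zpowers z₁ := ⟨_, rfl⟩
  haveI hYn : Y.Normal := by
    refine ⟨fun n hn g => ?_⟩
    have h1 : n ∈ center Q := hZc (by rw [hY] at hn; exact (zpowers_le.mpr hz₁Z) hn)
    rw [mem_center_iff.mp h1 g, mul_inv_cancel_right]; exact hn
  have hYmem : ∀ w, w ∈ Y ↔ w = 1 ∨ w = z₁ := by
    intro w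
    rw [hY]
    constructor
    · rintro ⟨i, rfl⟩
      rcases Int.even_or_odd i with ⟨k, hk⟩ | ⟨k, hk⟩
      · left
        change z₁ ^ i = 1
        rw [hk, zpow_add, ← (Commute.refl z₁).mul_zpow, hsq1 _ hz₁Z, one_zpow]
      · right
        change z₁ ^ i = z₁
        rw [hk, zpow_add, zpow_one, two_mul, zpow_add, ← (Commute.refl z₁).mul_zpow, hsq1 _ hz₁Z, one_zpow, one_mul]
    · rintro (rfl | rfl)
      · exact one_mem _
      · exact mem_zpowers _
  have hYcard : Nat.card Y = 2 := by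
    rw [hY, Nat.card_zpowers]
    exact orderOf_eq_prime (by rw [pow_two]; exact hsq1 _ hz₁Z) hz₁1
  have hYZ : Y ≤ Z := hY ▸ zpowers_le.mpr hz₁Z
  have hQY := Subgroup.card_eq_card_quotient_mul_card_subgroup Y
  rw [hYcard] at hQY
  obtain ⟨Zb, hZb⟩ : ∃ Zb, Zb = Z.map (QuotientGroup.mk' Y) := ⟨_, rfl⟩
  have hZbc : Zb ≤ center (Q ⧸ Y) := by
    rw [hZb]
    rintro _ ⟨w, hw, rfl⟩
    rw [mem_center_iff]
    intro x
    obtain ⟨x, rfl⟩ := QuotientGroup.mk'_surjective Y x
    rw [← map_mul, ← map_mul, mem_center_iff.mp (hZc hw) x]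
  have hZbcard : Nat.card Zb = 2 := by
    have h5 := Nat.card_congr (QuotientGroup.quotientKerEquivRange ((QuotientGroup.mk' Y).comp Z.subtype)).toEquiv
    have h6 : ((QuotientGroup.mk' Y).comp Z.subtype).range = Zb := by
      rw [MonoidHom.range_comp, range_subtype, hZb]
    have h7 : Nat.card ((QuotientGroup.mk' Y).comp Z.subtype).ker = 2 := by
      have h8 : ((QuotientGroup.mk' Y).comp Z.subtype).ker = Y.subgroupOf Z := by
        ext x
        rw [MonoidHom.mem_ker, mem_subgroupOf]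
        exact QuotientGroup.eq_one_iff _
      rw [h8, Nat.card_congr (subgroupOfEquivOfLe hYZ).toEquiv, hYcard]
    have h9 := Subgroup.card_eq_card_quotient_mul_card_subgroup ((QuotientGroup.mk' Y).comp Z.subtype).ker
    rw [h7, hZ, h5, h6] at h9
    omega
  have h8 := even_count (R := Q ⧸ Y) (Z := Zb) hZbc hZbcard (by
    intro x
    obtain ⟨x, rfl⟩ := QuotientGroup.mk'_surjective Y x
    rw [hZb, ← map_pow]
    exact ⟨_, hsq x, rfl⟩) (by omega)
  -- lifting
  have hlift : Nat.card {x : Q // x ^ 2 ∈ Y} = 2 * Nat.card {x : Q ⧸ Y // x ^ 2 = 1} := by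
    obtain ⟨f, hf⟩ : ∃ f : {x : Q // x ^ 2 ∈ Y} → {x : Q ⧸ Y // x ^ 2 = 1}, ∀ x, ((f x : {x : Q ⧸ Y // x ^ 2 = 1}) : Q ⧸ Y) = QuotientGroup.mk' Y (x : Q) :=
      ⟨fun x => ⟨QuotientGroup.mk' Y (x : Q), by rw [← map_pow]; exact (QuotientGroup.eq_one_iff _).mpr x.2⟩, fun x => rfl⟩
    have e := Equiv.sigmaFiberEquiv f
    letI : Fintype {x : Q ⧸ Y // x ^ 2 = 1} := Fintype.ofFinite _
    rw [← Nat.card_congr e, Nat.card_sigma]
    rw [Finset.sum_congr rfl (g := fun _ => 2)]
    · rw [Finset.sum_const, smul_eq_mul, Finset.card_univ, ← Nat.card_eq_fintype_card, mul_comm]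
    · rintro ⟨y, hy⟩ _
      obtain ⟨x, rfl⟩ := QuotientGroup.mk'_surjective Y y
      have hxY : x ^ 2 ∈ Y := by
        rw [← map_pow] at hy
        exact (QuotientGroup.eq_one_iff _).mp hy
      have e2 : {a : {x : Q // x ^ 2 ∈ Y} // f a = ⟨QuotientGroup.mk' Y x, hy⟩} ≃ Y :=
        { toFun := fun a => ⟨x⁻¹ * (a : {x : Q // x ^ 2 ∈ Y}), by
            have h1 : QuotientGroup.mk' Y ((a : {x : Q // x ^ 2 ∈ Y}) : Q) = QuotientGroup.mk' Y x := by
              rw [← hf, a.2]
            exact QuotientGroup.eq.mp h1.symm⟩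
          invFun := fun a => ⟨⟨x * a, by
              have h1 : (a : Q) ∈ center Q := hZc (hYZ a.2)
              have h2 : (x * a) ^ 2 = x ^ 2 * (a : Q) ^ 2 := (show Commute x (a : Q) from mem_center_iff.mp h1 x).mul_pow 2
              rw [h2]; exact mul_mem hxY (pow_mem a.2 2)⟩, by
              apply Subtype.ext
              rw [hf]
              change QuotientGroup.mk' Y (x * a) = QuotientGroup.mk' Y x
              rw [map_mul, show QuotientGroup.mk' Y (a : Q) = 1 from (QuotientGroup.eq_one_iff _).mpr a.2, mul_one]⟩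
          left_inv := fun a => Subtype.ext (Subtype.ext (by simp))
          right_inv := fun a => Subtype.ext (by simp) }
      rw [Nat.card_congr e2, hYcard]
  have hlift2 : Nat.card {x : Q // x ^ 2 ∈ Y} = N 1 + N z₁ := by
    letI : Fintype Q := Fintype.ofFinite _
    rw [hN]
    simp only
    rw [Nat.card_eq_fintype_card, Nat.card_eq_fintype_card, Nat.card_eq_fintype_card, Fintype.card_subtype, Fintype.card_subtype, Fintype.card_subtype]
    rw [← Finset.card_union_of_disjoint]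
    · congr 1
      ext x
      simp only [Finset.mem_filter, Finset.mem_univ, true_and, Finset.mem_union]
      exact hYmem _
    · rw [Finset.disjoint_left]
      intro x hx hx'
      simp only [Finset.mem_filter, Finset.mem_univ, true_and] at hx hx'
      exact hz₁1 (hx'.symm.trans hx)
  obtain ⟨k, hk⟩ := h8
  obtain ⟨l, hl⟩ := hQ2
  rw [hk] at hlift
  rw [hN1] at htot hlift2
  rw [hN2, hN3] at htot
  omega

end Cfsg.Agent.H2.SpecCount
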