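import Mathlib
import Cfsg.Agent.Lib.FrobC
import Cfsg.Agent.Lib.Hall
import Cfsg.Agent.H2.PUtil

set_option autoImplicit false

/-! Three pairwise non-adjacent primes do not exist in a solvable group. -/

open Subgroup Cfsg.Agent.Lib.Hall
open scoped Pointwise commutatorElement

universe u

namespace Cfsg.Agent.H2.ThreePr

theorem orderOf_pq {G : Type*} [Group G] {x y : G} {p q : ℕ} (hp : p.Prime) (hq : q.Prime) (hpq : p ≠ q)
    (hx : orderOf x = p) (hy : orderOf y = q) (h : x * y = y * x) : orderOf (x * y) = p * q := by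
  have h1 : (orderOf x).Coprime (orderOf y) := by rw [hx, hy]; exact (Nat.coprime_primes hp hq).mpr hpq
  rw [(show Commute x y from h).orderOf_mul_eq_mul_orderOf_of_coprime h1, hx, hy]

theorem exists_orderOf {G : Type*} [Group G] [Finite G] {p : ℕ} (hp : p.Prime) {H : Subgroup G}
    (h : p ∣ Nat.card H) : ∃ x ∈ H, orderOf x = p := by
  have : Fact p.Prime := ⟨hp⟩
  obtain ⟨x, hx⟩ := exists_prime_orderOf_dvd_card' (G := H) p h
  exact ⟨x, x.2, by rw [Subgroup.orderOf_coe]; exact hx⟩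

/-- non-adjacency gives fixed-point-free action -/
theorem fpf {G : Type*} [Group G] [Finite G] {p : ℕ} (hp : p.Prime) {N K : Subgroup G} (hN : IsPGroup p N)
    (hK : ∀ q : ℕ, q.Prime → q ∣ Nat.card K → q ≠ p ∧ ∀ g : G, orderOf g ≠ p * q) {h : G} (hh : h ∈ K) (h1 : h ≠ 1) :
    N ⊓ centralizer {h} = ⊥ := by
  by_contra hne
  obtain ⟨x, hx, hxo⟩ := PUtil.exists_orderOf_prime hp hne (hN.to_le inf_le_left)
  obtain ⟨q, hq, hqd⟩ := Nat.exists_prime_and_dvd (fun h' => h1 (orderOf_eq_one_iff.mp h') : orderOf h ≠ 1)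
  have hqK : q ∣ Nat.card K := hqd.trans (by
    have := orderOf_dvd_natCard (⟨h, hh⟩ : K)
    rwa [Subgroup.orderOf_mk] at this)
  obtain ⟨hqp, hna⟩ := hK q hq hqK
  have hyo : orderOf (h ^ (orderOf h / q)) = q := by
    rw [orderOf_pow_orderOf_div (orderOf_pos h).ne' hqd]
  have hc : x * h = h * x := (mem_centralizer_singleton_iff.mp hx.2)
  exact hna _ (orderOf_pq hp hq hqp.symm hxo hyo ((show Commute x h from hc).pow_right _))

theorem two {G : Type u} [Group G] [Finite G] {N K M : Subgroup G} (hKN : K ≤ normalizer (N : Set G))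
    (hcop : (Nat.card K).Coprime (Nat.card N)) (hN : N ≠ ⊥)
    (hfpf : ∀ h ∈ K, h ≠ 1 → N ⊓ centralizer {h} = ⊥) {q r : ℕ} (hq : q.Prime) (hr : r.Prime) (hqr : q ≠ r)
    (hMK : M ≤ K) (hM : M ≠ ⊥) (hKM : K ≤ normalizer (M : Set G)) (hMq : IsPGroup q M) (hrK : r ∣ Nat.card K)
    (hna : ∀ g : G, orderOf g ≠ q * r) : False := by
  have : Fact q.Prime := ⟨hq⟩
  obtain ⟨x, hxK, hxo⟩ := exists_orderOf hr hrK
  have hx1 : x ≠ 1 := by
    rintro rfl
    rw [orderOf_one] at hxo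
    exact hr.one_lt.ne hxo
  have hrM : ¬ r ∣ Nat.card M := by
    obtain ⟨k, hk⟩ := IsPGroup.iff_card.mp hMq
    rw [hk]
    intro h
    exact hqr ((Nat.prime_dvd_prime_iff_eq hr hq).mp (hr.dvd_of_dvd_pow h)).symm
  refine Cfsg.Agent.Lib.FrobB.no_fpf_in_fpf hKN hcop hN hfpf hMK hM hxK hr hxo (hKM hxK) hrM ?_
  refine fpf hq hMq (K := zpowers x) ?_ (mem_zpowers x) hx1
  intro s hs hsd
  rw [Nat.card_zpowers, hxo] at hsd
  rw [(Nat.prime_dvd_prime_iff_eq hs hr).mp hsd]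
  exact ⟨hqr.symm, hna⟩

theorem core {G : Type u} [Group G] [Finite G] (hs : Group.IsSolvable G) {p q r : ℕ} (hp : p.Prime)
    (hq : q.Prime) (hr : r.Prime) (hpq : p ≠ q) (hpr : p ≠ r) (hqr : q ≠ r)
    (hqG : q ∣ Nat.card G) (hrG : r ∣ Nat.card G) (hnpq : ∀ g : G, orderOf g ≠ p * q) (hnpr : ∀ g : G, orderOf g ≠ p * r)
    (hnqr : ∀ g : G, orderOf g ≠ q * r) {M : Subgroup G} [hMn : M.Normal] (hM : M ≠ ⊥) (hMp : IsPGroup p M) : False := by
  obtain ⟨K, hK⟩ := exists_isHall (sep_of_solvable ({q, r} : Set ℕ) hs)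
  have hqK : q ∣ Nat.card K := by
    have := K.card_mul_index
    rw [← this] at hqG
    exact (hq.dvd_mul.mp hqG).resolve_right (hK.2 q hq (by simp))
  have hrK : r ∣ Nat.card K := by
    have := K.card_mul_index
    rw [← this] at hrG
    exact (hr.dvd_mul.mp hrG).resolve_right (hK.2 r hr (by simp))
  have : Fact p.Prime := ⟨hp⟩
  have hcop : (Nat.card K).Coprime (Nat.card M) := by
    obtain ⟨k, hk⟩ := IsPGroup.iff_card.mp hMp
    rw [hk]
    apply Nat.Coprime.pow_right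
    rw [Nat.coprime_comm, hp.coprime_iff_not_dvd]
    intro h
    rcases hK.1 p hp h with h1 | h1
    · exact hpq h1
    · exact hpr h1
  have hKM : K ≤ normalizer (M : Set G) := by
    rw [normalizer_eq_top]; exact le_top
  have hfpf : ∀ h ∈ K, h ≠ 1 → M ⊓ centralizer {h} = ⊥ := by
    intro h hh h1
    refine fpf hp hMp (K := K) ?_ hh h1
    intro s hs hsd
    rcases hK.1 s hs hsd with rfl | h2
    · exact ⟨hpq.symm, hnpq⟩
    · rw [Set.mem_singleton_iff] at h2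
      subst h2
      exact ⟨hpr.symm, hnpr⟩
  have hnt : Nontrivial K := by
    rw [← Finite.one_lt_card_iff_nontrivial]
    have := Nat.le_of_dvd Nat.card_pos hqK
    exact lt_of_lt_of_le hq.one_lt this
  obtain ⟨ℓ, hℓ, Q, hQn, hQℓ, hQ⟩ := Cfsg.Agent.Lib.SchurZas.exists_normal_pgroup_of_solvable (G := K) inferInstance
  have hℓ' : ℓ = q ∨ ℓ = r := by
    obtain ⟨x, hx, hxo⟩ := PUtil.exists_orderOf_prime hℓ hQ hQℓ
    have : ℓ ∣ Nat.card K := hxo ▸ orderOf_dvd_natCard x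
    rcases hK.1 ℓ hℓ this with h1 | h1
    · exact Or.inl h1
    · exact Or.inr h1
  have hQ0 : Q.map K.subtype ≠ ⊥ := by
    intro h
    exact hQ ((Subgroup.map_eq_bot_iff_of_injective Q K.subtype_injective).mp h)
  have hQle : Q.map K.subtype ≤ K := map_subtype_le _
  have hQp : IsPGroup ℓ (Q.map K.subtype) := hQℓ.map _
  have hKQ : K ≤ normalizer ((Q.map K.subtype : Subgroup G) : Set G) := by
    have h1 := le_normalizer_map (H := Q) K.subtype
    rw [normalizer_eq_top] at h1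
    refine le_trans ?_ h1
    intro k hk
    exact ⟨⟨k, hk⟩, mem_top _, rfl⟩
  rcases hℓ' with rfl | rfl
  · exact two hKM hcop hM hfpf hq hr hqr hQle hQ0 hKQ hQp hrK hnqr
  · exact two hKM hcop hM hfpf hr hq hqr.symm hQle hQ0 hKQ hQp hqK (fun g => by rw [mul_comm]; exact hnqr g)

/-- A finite solvable group has no three pairwise non-adjacent primes. -/
theorem main {G : Type u} [Group G] [Finite G] (hs : Group.IsSolvable G) {p q r : ℕ} (hp : p.Prime)
    (hq : q.Prime) (hr : r.Prime) (hpq : p ≠ q) (hpr : p ≠ r) (hqr : q ≠ r)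
    (hpG : p ∣ Nat.card G) (hqG : q ∣ Nat.card G) (hrG : r ∣ Nat.card G) (hnpq : ∀ g : G, orderOf g ≠ p * q) (hnpr : ∀ g : G, orderOf g ≠ p * r)
    (hnqr : ∀ g : G, orderOf g ≠ q * r) : False := by
  obtain ⟨H, hH⟩ := exists_isHall (sep_of_solvable ({p, q, r} : Set ℕ) hs)
  have key : ∀ s : ℕ, s.Prime → s ∈ ({p, q, r} : Set ℕ) → s ∣ Nat.card G → s ∣ Nat.card H := by
    intro s hs h1 h2
    rw [← H.card_mul_index] at h2
    exact (hs.dvd_mul.mp h2).resolve_right (hH.2 s hs h1)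
  have hpH := key p hp (by simp) hpG
  have hqH := key q hq (by simp) hqG
  have hrH := key r hr (by simp) hrG
  have hsub : ∀ m : ℕ, (∀ g : G, orderOf g ≠ m) → ∀ g : H, orderOf g ≠ m := by
    intro m h g
    rw [← Subgroup.orderOf_coe]
    exact h g
  have hsub' : ∀ m : ℕ, ∀ n : ℕ, (∀ g : G, orderOf g ≠ m * n) → ∀ g : H, orderOf g ≠ n * m := by
    intro m n h g
    rw [mul_comm]
    exact hsub _ h g
  have hnt : Nontrivial H := by
    rw [← Finite.one_lt_card_iff_nontrivial]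
    have := Nat.le_of_dvd Nat.card_pos hqH
    exact lt_of_lt_of_le hq.one_lt this
  obtain ⟨ℓ, hℓ, Q, hQn, hQℓ, hQ⟩ := Cfsg.Agent.Lib.SchurZas.exists_normal_pgroup_of_solvable (G := H) inferInstance
  have hℓH : ℓ ∣ Nat.card H := by
    obtain ⟨x, hx, hxo⟩ := PUtil.exists_orderOf_prime hℓ hQ hQℓ
    exact hxo ▸ orderOf_dvd_natCard x
  have hsH : Group.IsSolvable H := inferInstance
  rcases hH.1 ℓ hℓ hℓH with rfl | rfl | h1
  · exact core hsH hp hq hr hpq hpr hqr hqH hrH (hsub _ hnpq) (hsub _ hnpr) (hsub _ hnqr) hQ hQℓ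
  · exact core hsH hq hp hr hpq.symm hqr hpr hpH hrH (hsub' _ _ hnpq) (hsub _ hnqr) (hsub _ hnpr) hQ hQℓ
  · rw [Set.mem_singleton_iff] at h1
    subst h1
    exact core hsH hr hp hq hpr.symm hqr.symm hpq hpH hqH (hsub' _ _ hnpr) (hsub' _ _ hnqr) (hsub _ hnpq) hQ hQℓ

end Cfsg.Agent.H2.ThreePr
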