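import Mathlib
import Cfsg.Prelude.Def_OddOrderLocal
import Cfsg.Agent.Lib.Cores
import Cfsg.Agent.Lib.Coprime
import Cfsg.Agent.Lib.CoprimeB
import Cfsg.Agent.H2.PUtil

/-! Transitivity arguments for maximal `A`-invariant `q`-subgroups. -/

namespace Cfsg.Agent.H2.Trans

open Subgroup Cfsg.Agent.Lib Cfsg.Agent.Lib.Coprime Cfsg.Agent.Lib.CoprimeB
open scoped Pointwise

universe u

variable {G : Type u} [Group G] [Finite G]

theorem inv_iff {A Q : Subgroup G} {q : ℕ} [hq : Fact q.Prime] :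
    Q ∈ Cfsg.invSubgroups ⊤ A {q} ↔ IsPGroup q Q ∧ A ≤ normalizer (Q : Set G) := by
  constructor
  · rintro ⟨-, h2, h3⟩
    refine ⟨?_, h3⟩
    have h4 : Nat.card Q = q ^ (Nat.card Q).primeFactorsList.length :=
      Nat.eq_prime_pow_of_unique_prime_dvd Nat.card_pos.ne' (fun {r} hr hd => h2 r hr hd)
    exact IsPGroup.of_card h4
  · rintro ⟨h1, h2⟩
    refine ⟨le_top, fun r hr hd => ?_, h2⟩
    obtain ⟨k, hk⟩ := h1.exists_card_eq
    rw [hk] at hd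
    exact (Nat.prime_dvd_prime_iff_eq hr hq.out).1 (hr.dvd_of_dvd_pow hd)

theorem exists_max {A Q : Subgroup G} {q : ℕ} [hq : Fact q.Prime] (h1 : IsPGroup q Q)
    (h2 : A ≤ normalizer (Q : Set G)) : ∃ R ∈ Cfsg.maxInvSubgroups ⊤ A {q}, Q ≤ R := by
  obtain ⟨M, hM⟩ := (Set.toFinite {V : Subgroup G | V ∈ Cfsg.invSubgroups ⊤ A {q} ∧ Q ≤ V}).exists_maximal
    ⟨Q, inv_iff.2 ⟨h1, h2⟩, le_rfl⟩
  obtain ⟨hM1, hM2⟩ := hM.prop
  refine ⟨M, ⟨hM1, fun R hR hMR => ?_⟩, hM2⟩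
  exact le_antisymm (hM.le_of_ge ⟨hR, hM2.trans hMR⟩ hMR) hMR

theorem conj_mem_max {A Q : Subgroup G} {q : ℕ} [hq : Fact q.Prime] {c : G} (hc : c ∈ centralizer (A : Set G))
    (hQ : Q ∈ Cfsg.maxInvSubgroups ⊤ A {q}) : MulAut.conj c • Q ∈ Cfsg.maxInvSubgroups ⊤ A {q} := by
  have hcN : ∀ d ∈ centralizer (A : Set G), ∀ V : Subgroup G, A ≤ normalizer (V : Set G) →
      A ≤ normalizer ((MulAut.conj d • V : Subgroup G) : Set G) := by
    intro d hd V hV a ha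
    rw [mem_normalizer_iff_conj_smul_eq, smul_smul, ← map_mul]
    have h1 : a * d = d * a := mem_centralizer_iff.1 hd a ha
    rw [h1, map_mul, ← smul_smul, conj_smul_eq_of_mem_normalizer (hV ha)]
  have hinv : ∀ d ∈ centralizer (A : Set G), ∀ V ∈ Cfsg.invSubgroups ⊤ A {q},
      MulAut.conj d • V ∈ Cfsg.invSubgroups ⊤ A {q} := by
    intro d hd V hV
    obtain ⟨h1, h2⟩ := inv_iff.1 hV
    refine inv_iff.2 ⟨?_, hcN d hd V h2⟩
    exact h1.map _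
  refine ⟨hinv c hc Q hQ.1, fun R hR hle => ?_⟩
  have h1 := hinv c⁻¹ (inv_mem hc) R hR
  have h2 : Q ≤ MulAut.conj c⁻¹ • R := by
    have := (Subgroup.pointwise_smul_le_pointwise_smul_iff (a := MulAut.conj c⁻¹)).2 hle
    rwa [smul_smul, ← map_mul, inv_mul_cancel, map_one, one_smul] at this
  have h3 := hQ.2 _ h1 h2
  rw [← h3, smul_smul, ← map_mul, mul_inv_cancel, map_one, one_smul]

theorem step {A R D X₁ X₂ : Subgroup G} {q : ℕ} [hq : Fact q.Prime]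
    (hAR : A ≤ normalizer (R : Set G)) (hcop : (Nat.card A).Coprime (Nat.card R))
    (hsolv : Group.IsSolvable A ∨ Group.IsSolvable R)
    (hRD : R ≤ normalizer (D : Set G)) (hDq : IsPGroup q D) (hAD : A ≤ normalizer (D : Set G))
    (h1 : X₁ ≤ R) (h1q : IsPGroup q X₁) (h1A : A ≤ normalizer (X₁ : Set G))
    (h2 : X₂ ≤ R) (h2q : IsPGroup q X₂) (h2A : A ≤ normalizer (X₂ : Set G)) :
    ∃ c ∈ R ⊓ centralizer (A : Set G), ∃ Q₃ ∈ Cfsg.maxInvSubgroups ⊤ A {q}, D ≤ Q₃ ∧ X₁ ≤ Q₃ ∧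
      MulAut.conj c • X₂ ≤ Q₃ := by
  obtain ⟨P, hP1, hP2⟩ := invariant_le_invariant_sylow hAR hcop hsolv q X₁ h1 h1q h1A
  obtain ⟨P', hP1', hP2'⟩ := invariant_le_invariant_sylow hAR hcop hsolv q X₂ h2 h2q h2A
  obtain ⟨c, hc1, hc2⟩ := invariant_sylow_conj hAR hcop hsolv q P' P hP2' hP2
  set S : Subgroup G := (P : Subgroup R).map R.subtype with hS
  have hSR : S ≤ R := map_subtype_le _
  have hSq : IsPGroup q S := P.isPGroup'.map _
  have hDS : IsPGroup q (D ⊔ S : Subgroup G) := hDq.to_sup_of_normal_left' hSq (hSR.trans hRD)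
  have hADS : A ≤ normalizer ((D ⊔ S : Subgroup G) : Set G) := by
    intro a ha
    rw [mem_normalizer_iff_conj_smul_eq, smul_sup, conj_smul_eq_of_mem_normalizer (hAD ha),
      conj_smul_eq_of_mem_normalizer (hP2 ha)]
  obtain ⟨Q₃, hQ₃, hle⟩ := exists_max hDS hADS
  refine ⟨c, ⟨c.2, hc1⟩, Q₃, hQ₃, le_sup_left.trans hle, (hP1.trans le_sup_right).trans hle, ?_⟩
  refine le_trans ?_ (le_sup_right.trans hle)
  have h3 : MulAut.conj (c : G) • (P' : Subgroup R).map R.subtype = S := by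
    have h4 : (MulAut.conj c • (P' : Subgroup R)) = (P : Subgroup R) := by
      rw [← hc2]; rfl
    rw [hS, ← h4]
    ext x
    constructor
    · rintro ⟨_, ⟨y, hy, rfl⟩, rfl⟩
      exact ⟨c * y * c⁻¹, ⟨y, hy, rfl⟩, rfl⟩
    · rintro ⟨_, ⟨y, hy, rfl⟩, rfl⟩
      exact ⟨y, ⟨y, hy, rfl⟩, rfl⟩
  rw [← h3]
  exact (Subgroup.pointwise_smul_le_pointwise_smul_iff (a := MulAut.conj (c : G))).2 hP1'

theorem not_le_of_lt {D Q : Subgroup G} {q : ℕ} [Fact q.Prime] (hQ : IsPGroup q Q) (h : D < Q) :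
    ¬ (Q ⊓ normalizer (D : Set G) ≤ D) := by
  intro hle
  obtain ⟨x, hx1, hx3, hx2⟩ := H8.Sylow.exists_normalizer_of_lt hQ h
  exact hx3 (hle ⟨hx1, hx2⟩)

theorem induct {A K : Subgroup G} {q : ℕ} [Fact q.Prime] (hK : K ≤ centralizer (A : Set G))
    (φ : Subgroup G → Prop) (hφ : ∀ D D' : Subgroup G, D ≤ D' → φ D → φ D')
    (hstep : ∀ Q₁ ∈ Cfsg.maxInvSubgroups ⊤ A {q}, ∀ Q₂ ∈ Cfsg.maxInvSubgroups ⊤ A {q}, φ (Q₁ ⊓ Q₂) →
      Q₁ ⊓ Q₂ < Q₁ → Q₁ ⊓ Q₂ < Q₂ → ∃ c ∈ K, ∃ Q₃ ∈ Cfsg.maxInvSubgroups ⊤ A {q},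
        Q₁ ⊓ Q₂ < Q₁ ⊓ Q₃ ∧ Q₁ ⊓ Q₂ < (MulAut.conj c • Q₂) ⊓ Q₃) (n : ℕ) :
    ∀ Q₁ ∈ Cfsg.maxInvSubgroups ⊤ A {q}, ∀ Q₂ ∈ Cfsg.maxInvSubgroups ⊤ A {q}, φ (Q₁ ⊓ Q₂) →
      Nat.card G < Nat.card (Q₁ ⊓ Q₂ : Subgroup G) + n → ∃ k ∈ K, Q₂ = MulAut.conj k • Q₁ := by
  induction n with
  | zero =>
    intro Q₁ _ Q₂ _ _ h
    have := Nat.le_of_dvd Nat.card_pos (card_subgroup_dvd_card (Q₁ ⊓ Q₂))
    omega
  | succ n ih =>
    intro Q₁ h₁ Q₂ h₂ hφ12 hn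
    have hrefl : Q₂ = Q₁ → ∃ k ∈ K, Q₂ = MulAut.conj k • Q₁ := by
      intro h
      exact ⟨1, K.one_mem, by rw [map_one, one_smul, h]⟩
    by_cases hD1 : Q₁ ⊓ Q₂ = Q₁
    · exact hrefl (h₁.2 _ h₂.1 (inf_eq_left.1 hD1))
    by_cases hD2 : Q₁ ⊓ Q₂ = Q₂
    · exact hrefl (h₂.2 _ h₁.1 (inf_eq_right.1 hD2)).symm
    obtain ⟨c, hc, Q₃, h₃, hlt1, hlt2⟩ := hstep Q₁ h₁ Q₂ h₂ hφ12 (lt_of_le_of_ne inf_le_left hD1)
      (lt_of_le_of_ne inf_le_right hD2)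
    obtain ⟨k₁, hk₁, e₁⟩ := ih Q₁ h₁ Q₃ h₃ (hφ _ _ hlt1.le hφ12) (by
      have := Set.ncard_lt_ncard (SetLike.coe_ssubset_coe.2 hlt1) (Set.toFinite _)
      rw [← Nat.card_coe_set_eq, ← Nat.card_coe_set_eq] at this
      have h5 : Nat.card (Q₁ ⊓ Q₂ : Subgroup G) < Nat.card (Q₁ ⊓ Q₃ : Subgroup G) := this
      omega)
    have h₂' := conj_mem_max (hK hc) h₂
    obtain ⟨k₂, hk₂, e₂⟩ := ih _ h₂' Q₃ h₃ (hφ _ _ hlt2.le hφ12) (by
      have := Set.ncard_lt_ncard (SetLike.coe_ssubset_coe.2 hlt2) (Set.toFinite _)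
      rw [← Nat.card_coe_set_eq, ← Nat.card_coe_set_eq] at this
      have h5 : Nat.card (Q₁ ⊓ Q₂ : Subgroup G) < Nat.card ((MulAut.conj c • Q₂) ⊓ Q₃ : Subgroup G) := this
      omega)
    refine ⟨(k₂ * c)⁻¹ * k₁, K.mul_mem (K.inv_mem (K.mul_mem hk₂ hc)) hk₁, ?_⟩
    rw [map_mul, ← smul_smul, ← e₁, e₂, smul_smul, smul_smul, ← map_mul, ← map_mul]
    have : (k₂ * c)⁻¹ * k₂ * c = 1 := by group
    rw [this, map_one, one_smul]

/-- rank three elementary abelian groups acting coprimely: hyperplanes -/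
theorem hyper {A₀ X D : Subgroup G} {p : ℕ} [hp : Fact p.Prime] (hc : IsMulCommutative A₀)
    (he : ∀ x ∈ A₀, x ^ p = 1) (hcard : Nat.card A₀ = p ^ 3) (hAX : A₀ ≤ normalizer (X : Set G))
    (hX : (Nat.card X).Coprime p) (hXD : ¬ X ≤ D) :
    ∃ B : Subgroup G, B ≤ A₀ ∧ Nat.card B = p ^ 2 ∧ ¬ (X ⊓ centralizer (B : Set G) ≤ D) := by
  have hcomm : ∀ x ∈ A₀, ∀ y ∈ A₀, x * y = y * x := PUtil.isMulCommutative_iff.1 hc
  have hp2 : 2 ≤ p := hp.out.two_le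
  have hnc : ¬ IsCyclic A₀ := by
    intro h
    obtain ⟨g, hg⟩ := h.exists_generator
    have h1 : orderOf g = Nat.card A₀ := orderOf_eq_card_of_forall_mem_zpowers hg
    have h2 : orderOf g ∣ p := orderOf_dvd_of_pow_eq_one (Subtype.ext (he g g.2))
    have h3 := Nat.le_of_dvd hp.out.pos h2
    rw [h1, hcard] at h3
    nlinarith [pow_pos hp.out.pos 2]
  have hcopA : (Nat.card A₀).Coprime (Nat.card X) := by rw [hcard]; exact (hX.symm).pow_left _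
  have h1 := gen_of_not_isCyclic hc hnc hAX hcopA
  have h2 : ∃ x ∈ X, ∃ a ∈ A₀, a ≠ 1 ∧ a * x = x * a ∧ x ∉ D := by
    by_contra hcon
    push Not at hcon
    apply hXD
    rw [← h1, genCent, closure_le]
    rintro x ⟨hx, a, ha, ha1, hax⟩
    exact hcon x hx a ha ha1 hax
  obtain ⟨x, hx, a, ha, ha1, hax, hxD⟩ := h2
  -- a subgroup of order p² avoiding a
  obtain ⟨A₁, hA₁⟩ := (Set.toFinite {V : Subgroup G | V ≤ A₀ ∧ a ∉ V}).exists_maximal
    ⟨⊥, bot_le, by rw [mem_bot]; exact ha1⟩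
  obtain ⟨hA₁le, haA₁⟩ := hA₁.prop
  have horda : orderOf a = p := orderOf_eq_prime (he a ha) ha1
  have hza : zpowers a ≤ A₀ := by rwa [zpowers_le]
  have hnormA : ∀ U V : Subgroup G, U ≤ A₀ → V ≤ A₀ → U ≤ normalizer (V : Set G) := by
    intro U V hU hV u hu
    apply PUtil.mem_normalizer_of_conj_mem
    intro v hv
    rw [hcomm u (hU hu) v (hV hv), mul_inv_cancel_right]; exact hv
  have hsup : A₁ ⊔ zpowers a = A₀ := by
    apply le_antisymm (sup_le hA₁le hza)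
    intro c hc0
    by_contra hcn
    have h3 : a ∈ A₁ ⊔ zpowers c := by
      by_contra ha2
      have h4 : A₁ ⊔ zpowers c ≤ A₁ :=
        hA₁.le_of_ge (y := A₁ ⊔ zpowers c) ⟨sup_le hA₁le (by rwa [zpowers_le]), ha2⟩ le_sup_left
      exact hcn ((le_sup_right.trans h4 |>.trans le_sup_left) (mem_zpowers c))
    rw [Basic.mem_sup_iff_left (hnormA _ _ (by rwa [zpowers_le]) hA₁le)] at h3
    obtain ⟨a₁, ha₁, c', hc', hac⟩ := h3
    obtain ⟨i, rfl⟩ := hc'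
    have hordc : orderOf c = p := by
      apply orderOf_eq_prime (he c hc0)
      rintro rfl
      exact hcn (one_mem _)
    have hi : ¬ (p : ℤ) ∣ i := by
      intro hd
      apply haA₁
      have : c ^ i = 1 := by rw [← orderOf_dvd_iff_zpow_eq_one, hordc]; exact hd
      have hac' : a = a₁ * c ^ i := hac.symm
      rw [hac', this, mul_one]; exact ha₁
    have hcop : IsCoprime (i : ℤ) (p : ℤ) :=
      ((Nat.prime_iff_prime_int.1 hp.out).coprime_iff_not_dvd.2 hi).symm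
    obtain ⟨u, v, huv⟩ := hcop
    apply hcn
    have hac' : a = a₁ * c ^ i := hac.symm
    have h5 : c = (c ^ i) ^ u := by
      rw [← zpow_mul]
      have h6 : i * u = 1 - v * p := by linear_combination huv
      rw [h6, zpow_sub, zpow_one]
      have : c ^ (v * (p : ℤ)) = 1 := by
        rw [← orderOf_dvd_iff_zpow_eq_one, hordc]; exact Dvd.intro_left v rfl
      rw [this, inv_one, mul_one]
    have h6 : c ^ i = a₁⁻¹ * a := by rw [hac']; group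
    rw [h5, h6]
    exact zpow_mem (mul_mem (inv_mem (mem_sup_left ha₁)) (mem_sup_right (mem_zpowers a))) _
  have hinf : A₁ ⊓ zpowers a = ⊥ := by
    have h3 : Nat.card (A₁ ⊓ zpowers a : Subgroup G) ∣ p := by
      have := card_dvd_of_le (inf_le_right : A₁ ⊓ zpowers a ≤ zpowers a)
      rwa [Nat.card_zpowers, horda] at this
    rcases (Nat.dvd_prime hp.out).1 h3 with h4 | h4
    · exact card_eq_one.1 h4
    · exfalso
      apply haA₁
      have h5 : A₁ ⊓ zpowers a = zpowers a := eq_of_le_of_card_ge inf_le_right (by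
        rw [h4, Nat.card_zpowers, horda])
      exact (inf_eq_right.1 h5) (mem_zpowers a)
  have hcA₁ : Nat.card A₁ = p ^ 2 := by
    have h3 := Basic.card_sup_of_inf_eq_bot (N := A₁) (H := zpowers a) (hnormA _ _ hza hA₁le) hinf
    rw [hsup, hcard, Nat.card_zpowers, horda] at h3
    have : p ^ 2 * p = Nat.card A₁ * p := by rw [← h3]; ring
    exact (Nat.eq_of_mul_eq_mul_right hp.out.pos this).symm
  set Y : Subgroup G := X ⊓ centralizer ({a} : Set G) with hY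
  have hA₁Y : A₁ ≤ normalizer (Y : Set G) := by
    intro b hb
    apply PUtil.mem_normalizer_of_conj_mem
    rintro y ⟨hy1, hy2⟩
    refine ⟨(mem_normalizer_iff.1 (hAX (hA₁le hb)) y).1 hy1, mem_centralizer_singleton_iff.2 ?_⟩
    replace hy2 : y * a = a * y := mem_centralizer_singleton_iff.1 hy2
    have h3 := hcomm b (hA₁le hb) a ha
    have h4 : b⁻¹ * a = a * b⁻¹ := by
      have := hcomm b⁻¹ (A₀.inv_mem (hA₁le hb)) a ha
      exact this
    calc b * y * b⁻¹ * a = b * y * (b⁻¹ * a) := by group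
      _ = b * (y * a) * b⁻¹ := by rw [h4]; group
      _ = b * (a * y) * b⁻¹ := by rw [hy2]
      _ = (b * a) * y * b⁻¹ := by group
      _ = a * (b * y * b⁻¹) := by rw [h3]; group
  have hYc : (Nat.card Y).Coprime p := Nat.Coprime.coprime_dvd_left (card_dvd_of_le inf_le_left) hX
  have h3 := gen_of_elementary hp.out hcA₁ (fun x hx => he x (hA₁le hx)) hA₁Y hYc
  have h4 : ∃ y ∈ Y, ∃ b ∈ A₁, b ≠ 1 ∧ b * y = y * b ∧ y ∉ D := by
    by_contra hcon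
    push Not at hcon
    apply hxD
    have hxY : x ∈ Y := ⟨hx, mem_centralizer_singleton_iff.2 hax.symm⟩
    rw [← h3] at hxY
    have : genCent A₁ Y ≤ D := by
      rw [genCent, closure_le]
      rintro z ⟨hz, b, hb, hb1, hbz⟩
      exact hcon z hz b hb hb1 hbz
    exact this hxY
  obtain ⟨y, hy, b, hb, hb1, hby, hyD⟩ := h4
  have hordb : orderOf b = p := orderOf_eq_prime (he b (hA₁le hb)) hb1
  refine ⟨zpowers b ⊔ zpowers a, sup_le (by rw [zpowers_le]; exact hA₁le hb) hza, ?_, ?_⟩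
  · have hzb : zpowers b ≤ A₁ := by rwa [zpowers_le]
    have h5 : zpowers b ⊓ zpowers a = ⊥ := by
      rw [eq_bot_iff, ← hinf]; exact inf_le_inf_right _ hzb
    rw [Basic.card_sup_of_inf_eq_bot (N := zpowers b) (H := zpowers a)
      (hnormA _ _ hza (hzb.trans hA₁le)) h5, Nat.card_zpowers, Nat.card_zpowers, horda, hordb, pow_two]
  · intro hle
    apply hyD
    apply hle
    refine ⟨hy.1, ?_⟩
    have h5 : zpowers b ⊔ zpowers a ≤ centralizer ({y} : Set G) := by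
      refine sup_le ?_ ?_
      · rw [zpowers_le, mem_centralizer_singleton_iff]; exact hby
      · rw [zpowers_le, mem_centralizer_singleton_iff]
        exact (mem_centralizer_singleton_iff.1 hy.2).symm
    show y ∈ centralizer _
    rw [mem_centralizer_iff]
    intro z hz
    exact mem_centralizer_singleton_iff.1 (h5 hz)

/-- common element for two groups -/
theorem common {A₀ X₁ X₂ D : Subgroup G} {p : ℕ} [hp : Fact p.Prime] (hc : IsMulCommutative A₀)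
    (he : ∀ x ∈ A₀, x ^ p = 1) (hcard : Nat.card A₀ = p ^ 3)
    (hAX₁ : A₀ ≤ normalizer (X₁ : Set G)) (hX₁ : (Nat.card X₁).Coprime p) (hXD₁ : ¬ X₁ ≤ D)
    (hAX₂ : A₀ ≤ normalizer (X₂ : Set G)) (hX₂ : (Nat.card X₂).Coprime p) (hXD₂ : ¬ X₂ ≤ D) :
    ∃ a ∈ A₀, a ≠ 1 ∧ ¬ (X₁ ⊓ centralizer ({a} : Set G) ≤ D) ∧ ¬ (X₂ ⊓ centralizer ({a} : Set G) ≤ D) := by
  obtain ⟨B₁, hB₁, hc₁, hn₁⟩ := hyper hc he hcard hAX₁ hX₁ hXD₁
  obtain ⟨B₂, hB₂, hc₂, hn₂⟩ := hyper hc he hcard hAX₂ hX₂ hXD₂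
  have hcomm : ∀ x ∈ A₀, ∀ y ∈ A₀, x * y = y * x := PUtil.isMulCommutative_iff.1 hc
  have h1 : B₁ ⊓ B₂ ≠ ⊥ := by
    intro hbot
    have h2 := Basic.card_sup_of_inf_eq_bot (N := B₁) (H := B₂) (by
      intro u hu
      apply PUtil.mem_normalizer_of_conj_mem
      intro v hv
      rw [hcomm u (hB₂ hu) v (hB₁ hv), mul_inv_cancel_right]; exact hv) hbot
    have h3 : Nat.card (B₁ ⊔ B₂ : Subgroup G) ≤ Nat.card A₀ := by
      exact Nat.le_of_dvd Nat.card_pos (card_dvd_of_le (sup_le hB₁ hB₂))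
    rw [h2, hc₁, hc₂, hcard] at h3
    have h4 : 2 ≤ p := hp.out.two_le
    have h5 : p ^ 3 < p ^ 2 * p ^ 2 := by
      rw [← pow_add]; exact Nat.pow_lt_pow_right (by omega) (by norm_num)
    omega
  obtain ⟨a, ha⟩ := (Subgroup.ne_bot_iff_exists_ne_one).1 h1
  have hz : ∀ B : Subgroup G, a.1 ∈ B → centralizer (B : Set G) ≤ centralizer ({a.1} : Set G) := by
    intro B hB
    exact centralizer_le (Set.singleton_subset_iff.2 hB)
  refine ⟨a.1, hB₁ a.2.1, fun h => ha (Subtype.ext h), fun h => hn₁ ?_, fun h => hn₂ ?_⟩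
  · exact (inf_le_inf_left _ (hz B₁ a.2.1)).trans h
  · exact (inf_le_inf_left _ (hz B₂ a.2.2)).trans h

end Cfsg.Agent.H2.Trans
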