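import Mathlib
import Cfsg.Prelude.Def_OddOrder
import Cfsg.Prelude.Def_OddOrderLocal
import Cfsg.Agent.H2.Trans
import Cfsg.Agent.Lib.PiCore

/-! Transitivity theorems in a minimal simple group of odd order (Bender-Glauberman, section 7). -/

namespace Cfsg.Agent.H2.TransOdd

open Subgroup Cfsg.Agent.Lib Cfsg.Agent.Lib.Coprime Cfsg.Agent.Lib.CoprimeB
open scoped Pointwise commutatorElement

universe u

variable {G : Type u} [Group G] [Finite G]

theorem pi_iff {m n : ℕ} : (∀ q : ℕ, q.Prime → q ∣ m → q ∈ Cfsg.primesNotDvd n) ↔ m.Coprime n := by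
  constructor
  · intro h
    rw [Nat.coprime_iff_gcd_eq_one]
    by_contra hne
    obtain ⟨r, hr, hd⟩ := Nat.exists_prime_and_dvd hne
    exact (h r hr (hd.trans (Nat.gcd_dvd_left _ _))).2 (hd.trans (Nat.gcd_dvd_right _ _))
  · intro h q hq hd
    refine ⟨hq, fun hd' => ?_⟩
    have := Nat.dvd_gcd hd hd'
    rw [Nat.coprime_iff_gcd_eq_one.1 h] at this
    exact hq.ne_one (Nat.dvd_one.1 this)

theorem core_coprime (n : ℕ) (X : Subgroup G) : (Nat.card (Cfsg.piCoreOf (Cfsg.primesNotDvd n) X)).Coprime n := by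
  rw [Cfsg.piCoreOf, card_map_of_injective X.subtype_injective]
  exact pi_iff.1 (PiCore.piCore_pi _)

theorem core_le (π : Set ℕ) (X : Subgroup G) : Cfsg.piCoreOf π X ≤ X := map_subtype_le _

theorem le_normalizer_core (π : Set ℕ) (X : Subgroup G) :
    X ≤ normalizer ((Cfsg.piCoreOf π X : Subgroup G) : Set G) := by
  intro x hx
  apply PUtil.mem_normalizer_of_conj_mem
  rintro _ ⟨y, hy, rfl⟩
  exact ⟨⟨x, hx⟩ * y * (⟨x, hx⟩ : X)⁻¹, (inferInstance : (Cfsg.piCore π X).Normal).conj_mem y hy _, rfl⟩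

theorem le_core {π : Set ℕ} {X Y : Subgroup G} (hYX : Y ≤ X) (hXY : X ≤ normalizer (Y : Set G))
    (hY : ∀ q : ℕ, q.Prime → q ∣ Nat.card Y → q ∈ π) : Y ≤ Cfsg.piCoreOf π X := by
  have h1 : (Y.subgroupOf X).Normal := by
    constructor
    intro y hy x
    exact (mem_normalizer_iff.1 (hXY x.2) _).1 hy
  have h2 : Y.subgroupOf X ≤ Cfsg.piCore π X := PiCore.le_piCore h1 (by
    rw [Nat.card_congr (subgroupOfEquivOfLe hYX).toEquiv]; exact hY)
  intro y hy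
  exact ⟨⟨y, hYX hy⟩, h2 hy, rfl⟩

theorem normalizer_ne_top (hG : Cfsg.IsMinSimpleOddOrder G) {D : Subgroup G} (h1 : D ≠ ⊥) (h2 : D ≠ ⊤) :
    normalizer (D : Set G) ≠ ⊤ := by
  intro h
  have : IsSimpleGroup G := hG.2.1
  have hn : D.Normal := normalizer_eq_top_iff.1 h
  rcases this.eq_bot_or_eq_top_of_normal D hn with h | h
  · exact h1 h
  · exact h2 h

theorem inv_le_core {A : Subgroup G} (hA : Cfsg.TransitivityHypothesis A) {X Y : Subgroup G} (hX : X ≠ ⊤)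
    (hAX : A ≤ X) (hYX : Y ≤ X) (hAY : A ≤ normalizer (Y : Set G)) (hY : (Nat.card Y).Coprime (Nat.card A)) :
    Y ≤ Cfsg.piCoreOf (Cfsg.primesNotDvd (Nat.card A)) X := by
  rw [← hA.2.2 X hX hAX]
  exact le_sSup ⟨hYX, pi_iff.2 hY, hAY⟩

theorem mem_K (hG : Cfsg.IsMinSimpleOddOrder G) {A : Subgroup G} (hA : Cfsg.TransitivityHypothesis A)
    {R : Subgroup G} (hR : (Nat.card R).Coprime (Nat.card A)) {c : G} (hc : c ∈ R ⊓ centralizer (A : Set G)) :
    c ∈ Cfsg.piCoreOf (Cfsg.primesNotDvd (Nat.card A)) (centralizer (A : Set G)) := by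
  set N := normalizer (A : Set G) with hN
  have hNt : N ≠ ⊤ := normalizer_ne_top hG hA.1 hA.2.1
  set π := Cfsg.primesNotDvd (Nat.card A) with hπ
  have hCN : centralizer (A : Set G) ≤ N := centralizer_le_normalizer _
  have h1 : R ⊓ centralizer (A : Set G) ≤ Cfsg.piCoreOf π N := by
    apply inv_le_core hA hNt le_normalizer (inf_le_right.trans hCN) ?_
      (Nat.Coprime.coprime_dvd_left (card_dvd_of_le inf_le_left) hR)
    intro a ha
    apply PUtil.mem_normalizer_of_conj_mem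
    intro y hy
    have h2 : a * y = y * a := mem_centralizer_iff.1 hy.2 a ha
    rw [h2, mul_inv_cancel_right]; exact hy
  have h2 : Cfsg.piCoreOf π N ⊓ centralizer (A : Set G) ≤ Cfsg.piCoreOf π (centralizer (A : Set G)) := by
    apply le_core inf_le_right
    · apply SchurZas.le_normalizer_inf
      · exact hCN.trans (le_normalizer_core π N)
      · exact le_normalizer
    · have := core_coprime (Nat.card A) N
      exact pi_iff.2 (Nat.Coprime.coprime_dvd_left (card_dvd_of_le inf_le_left) this)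
  exact h2 ⟨h1 hc, hc.2⟩

theorem main_ne_bot (hG : Cfsg.IsMinSimpleOddOrder G) {A : Subgroup G} (hA : Cfsg.TransitivityHypothesis A)
    {q : ℕ} (hq : q.Prime) (hqA : ¬ q ∣ Nat.card A) :
    ∀ Q₁ ∈ Cfsg.maxInvSubgroups ⊤ A {q}, ∀ Q₂ ∈ Cfsg.maxInvSubgroups ⊤ A {q}, Q₁ ⊓ Q₂ ≠ ⊥ →
      ∃ k ∈ Cfsg.piCoreOf (Cfsg.primesNotDvd (Nat.card A)) (centralizer (A : Set G)),
        Q₂ = MulAut.conj k • Q₁ := by
  haveI : Fact q.Prime := ⟨hq⟩
  set K := Cfsg.piCoreOf (Cfsg.primesNotDvd (Nat.card A)) (centralizer (A : Set G)) with hK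
  have hcopq : ∀ X : Subgroup G, IsPGroup q X → (Nat.card X).Coprime (Nat.card A) := by
    intro X hX
    obtain ⟨k, hk⟩ := hX.exists_card_eq
    rw [hk]; exact ((Nat.Prime.coprime_iff_not_dvd hq).2 hqA).pow_left k
  have key := Trans.induct (A := A) (K := K) (q := q) (core_le _ _) (fun D => D ≠ ⊥)
    (fun D D' h h1 h2 => h1 (le_bot_iff.1 (h2 ▸ h))) (by
    intro Q₁ h₁ Q₂ h₂ hDb hlt1 hlt2
    set D := Q₁ ⊓ Q₂ with hD
    obtain ⟨hQ₁q, hEQ₁⟩ := Trans.inv_iff.1 h₁.1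
    obtain ⟨hQ₂q, hEQ₂⟩ := Trans.inv_iff.1 h₂.1
    have hED : A ≤ normalizer (D : Set G) := SchurZas.le_normalizer_inf hEQ₁ hEQ₂
    have hDq : IsPGroup q D := hQ₁q.to_le inf_le_left
    set N := normalizer (D : Set G) with hN
    have hDt : D ≠ ⊤ := by
      intro h
      have := hlt1.trans_le le_top
      rw [h] at this
      exact lt_irrefl _ this
    have hNt : N ≠ ⊤ := normalizer_ne_top hG hDb hDt
    have hEND : A ≤ normalizer ((N : Subgroup G) : Set G) := hED.trans le_normalizer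
    have hX₁ : A ≤ normalizer ((Q₁ ⊓ N : Subgroup G) : Set G) := SchurZas.le_normalizer_inf hEQ₁ hEND
    have hX₂ : A ≤ normalizer ((Q₂ ⊓ N : Subgroup G) : Set G) := SchurZas.le_normalizer_inf hEQ₂ hEND
    have hX₁q : IsPGroup q (Q₁ ⊓ N : Subgroup G) := hQ₁q.to_le inf_le_left
    have hX₂q : IsPGroup q (Q₂ ⊓ N : Subgroup G) := hQ₂q.to_le inf_le_left
    have hn₁ := Trans.not_le_of_lt hQ₁q hlt1
    have hn₂ := Trans.not_le_of_lt hQ₂q hlt2
    set R := Cfsg.piCoreOf (Cfsg.primesNotDvd (Nat.card A)) N with hR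
    have hRc : (Nat.card R).Coprime (Nat.card A) := core_coprime _ _
    have hRs : Group.IsSolvable R := by
      have h1 : Group.IsSolvable N := hG.2.2.2 N hNt
      exact SchurZas.isSolvable_of_le (core_le _ N) h1
    obtain ⟨c, hc, Q₃, h₃, hDQ₃, hY₁Q₃, hY₂Q₃⟩ := Trans.step (A := A) (R := R) (D := D)
      (X₁ := Q₁ ⊓ N) (X₂ := Q₂ ⊓ N) (q := q)
      (hED.trans (le_normalizer_core _ N)) hRc.symm (Or.inr hRs) (core_le _ N) hDq hED
      (inv_le_core hA hNt hED inf_le_right hX₁ (hcopq _ hX₁q)) hX₁q hX₁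
      (inv_le_core hA hNt hED inf_le_right hX₂ (hcopq _ hX₂q)) hX₂q hX₂
    have hcN : MulAut.conj c • D = D := conj_smul_eq_of_mem_normalizer (core_le _ N hc.1)
    refine ⟨c, mem_K hG hA hRc hc, Q₃, h₃, ?_, ?_⟩
    · refine lt_of_le_of_ne (le_inf inf_le_left hDQ₃) ?_
      intro he
      apply hn₁
      have h7 : Q₁ ⊓ N ≤ Q₁ ⊓ Q₃ := le_inf inf_le_left hY₁Q₃
      rw [← he] at h7
      exact h7
    · refine lt_of_le_of_ne (le_inf ?_ hDQ₃) ?_
      · rw [← hcN]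
        exact (Subgroup.pointwise_smul_le_pointwise_smul_iff (a := MulAut.conj c)).2 inf_le_right
      · intro he
        apply hn₂
        have h7 : MulAut.conj c • (Q₂ ⊓ N) ≤ (MulAut.conj c • Q₂) ⊓ Q₃ :=
          le_inf ((Subgroup.pointwise_smul_le_pointwise_smul_iff (a := MulAut.conj c)).2
            inf_le_left) hY₂Q₃
        rw [← he, ← hcN, Subgroup.pointwise_smul_le_pointwise_smul_iff] at h7
        exact h7) (Nat.card G + 1)
  intro Q₁ h₁ Q₂ h₂ hb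
  exact key Q₁ h₁ Q₂ h₂ hb (by
    have : 0 < Nat.card (Q₁ ⊓ Q₂ : Subgroup G) := Nat.card_pos
    omega)

/-- `S1392` -/
theorem meet (hG : Cfsg.IsMinSimpleOddOrder G) {A : Subgroup G} (hA : Cfsg.TransitivityHypothesis A)
    {q : ℕ} (hq : q.Prime) (hqA : ¬ q ∣ Nat.card A) {Q₁ Q₂ : Subgroup G}
    (h₁ : Q₁ ∈ Cfsg.maxInvSubgroups ⊤ A {q}) (h₂ : Q₂ ∈ Cfsg.maxInvSubgroups ⊤ A {q})
    {H : Subgroup G} (hH : H ≠ ⊤) (hAH : A ≤ H) (hH₁ : H ⊓ Q₁ ≠ ⊥) (hH₂ : H ⊓ Q₂ ≠ ⊥) :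
    ∃ k ∈ Cfsg.piCoreOf (Cfsg.primesNotDvd (Nat.card A)) (centralizer (A : Set G)),
      Q₂ = MulAut.conj k • Q₁ := by
  haveI : Fact q.Prime := ⟨hq⟩
  have hcopq : ∀ X : Subgroup G, IsPGroup q X → (Nat.card X).Coprime (Nat.card A) := by
    intro X hX
    obtain ⟨k, hk⟩ := hX.exists_card_eq
    rw [hk]; exact ((Nat.Prime.coprime_iff_not_dvd hq).2 hqA).pow_left k
  set K := Cfsg.piCoreOf (Cfsg.primesNotDvd (Nat.card A)) (centralizer (A : Set G)) with hK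
  obtain ⟨hQ₁q, hEQ₁⟩ := Trans.inv_iff.1 h₁.1
  obtain ⟨hQ₂q, hEQ₂⟩ := Trans.inv_iff.1 h₂.1
  have hAH' : A ≤ normalizer (H : Set G) := hAH.trans le_normalizer
  have hX₁ : A ≤ normalizer ((H ⊓ Q₁ : Subgroup G) : Set G) := SchurZas.le_normalizer_inf hAH' hEQ₁
  have hX₂ : A ≤ normalizer ((H ⊓ Q₂ : Subgroup G) : Set G) := SchurZas.le_normalizer_inf hAH' hEQ₂
  have hX₁q : IsPGroup q (H ⊓ Q₁ : Subgroup G) := hQ₁q.to_le inf_le_right
  have hX₂q : IsPGroup q (H ⊓ Q₂ : Subgroup G) := hQ₂q.to_le inf_le_right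
  set R := Cfsg.piCoreOf (Cfsg.primesNotDvd (Nat.card A)) H with hR
  have hRc : (Nat.card R).Coprime (Nat.card A) := core_coprime _ _
  have hRs : Group.IsSolvable R := SchurZas.isSolvable_of_le (core_le _ H) (hG.2.2.2 H hH)
  obtain ⟨c, hc, Q₃, h₃, -, hY₁Q₃, hY₂Q₃⟩ := Trans.step (A := A) (R := R) (D := ⊥)
      (X₁ := H ⊓ Q₁) (X₂ := H ⊓ Q₂) (q := q)
      (hAH.trans (le_normalizer_core _ H)) hRc.symm (Or.inr hRs)
      (by rw [normalizer_eq_top_iff.mpr (inferInstance : (⊥ : Subgroup G).Normal)]; exact le_top)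
      IsPGroup.of_bot
      (by rw [normalizer_eq_top_iff.mpr (inferInstance : (⊥ : Subgroup G).Normal)]; exact le_top)
      (inv_le_core hA hH hAH inf_le_left hX₁ (hcopq _ hX₁q)) hX₁q hX₁
      (inv_le_core hA hH hAH inf_le_left hX₂ (hcopq _ hX₂q)) hX₂q hX₂
  have hcK : c ∈ K := mem_K hG hA hRc hc
  obtain ⟨k₁, hk₁, e₁⟩ := main_ne_bot hG hA hq hqA Q₁ h₁ Q₃ h₃ (by
    intro h
    apply hH₁
    rw [eq_bot_iff, ← h]
    exact le_inf inf_le_right hY₁Q₃)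
  obtain ⟨k₂, hk₂, e₂⟩ := main_ne_bot hG hA hq hqA _ (Trans.conj_mem_max hc.2 h₂) Q₃ h₃ (by
    intro h
    apply hH₂
    have h3 : MulAut.conj c • (H ⊓ Q₂) ≤ ⊥ := by
      rw [← h]
      exact le_inf ((Subgroup.pointwise_smul_le_pointwise_smul_iff (a := MulAut.conj c)).2 inf_le_right) hY₂Q₃
    rw [← Subgroup.smul_bot (MulAut.conj c), Subgroup.pointwise_smul_le_pointwise_smul_iff] at h3
    exact le_bot_iff.1 h3)
  refine ⟨(k₂ * c)⁻¹ * k₁, K.mul_mem (K.inv_mem (K.mul_mem hk₂ hcK)) hk₁, ?_⟩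
  rw [map_mul, ← smul_smul, ← e₁, e₂, smul_smul, smul_smul, ← map_mul, ← map_mul]
  have : (k₂ * c)⁻¹ * k₂ * c = 1 := by group
  rw [this, map_one, one_smul]

theorem centralizer_ne_top (hG : Cfsg.IsMinSimpleOddOrder G) {a : G} (ha : a ≠ 1) :
    centralizer ({a} : Set G) ≠ ⊤ := by
  intro h
  have hs : IsSimpleGroup G := hG.2.1
  have h1 : a ∈ center G := by
    rw [mem_center_iff]
    intro g
    have : g ∈ centralizer ({a} : Set G) := by rw [h]; trivial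
    exact mem_centralizer_singleton_iff.1 this
  rcases hs.eq_bot_or_eq_top_of_normal (center G) inferInstance with h2 | h2
  · rw [h2, mem_bot] at h1
    exact ha h1
  · apply hG.2.2.1
    refine ⟨⟨fun x y => ?_⟩⟩
    have : y ∈ center G := by rw [h2]; trivial
    exact (mem_center_iff.1 this x)

/-- an elementary abelian subgroup of order `p ^ k` -/
theorem exists_elem {Z : Subgroup G} {p k : ℕ} (hp : p.Prime) (h : ¬ Cfsg.PRankLE p k Z) (hZ : IsMulCommutative Z) :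
    ∃ A₀ : Subgroup G, A₀ ≤ Z ∧ IsMulCommutative A₀ ∧ (∀ x ∈ A₀, x ^ p = 1) ∧ Nat.card A₀ = p ^ (k + 1) := by
  haveI : Fact p.Prime := ⟨hp⟩
  have hcomm := PUtil.isMulCommutative_iff.1 hZ
  unfold Cfsg.PRankLE at h
  push Not at h
  obtain ⟨A, hAc, hAe, hAcard⟩ := h
  have hAp : IsPGroup p A := fun x => ⟨1, by rw [pow_one]; exact Subtype.ext (hAe x.1 x.2)⟩
  obtain ⟨m, hm⟩ := hAp.exists_card_eq
  have hm3 : k + 1 ≤ m := by
    rw [hm] at hAcard
    have := (Nat.pow_lt_pow_iff_right hp.one_lt).1 hAcard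
    omega
  obtain ⟨B, hB⟩ := Sylow.exists_subgroup_card_pow_prime (G := A) p (n := k + 1) (by
    rw [hm]; exact pow_dvd_pow p hm3)
  refine ⟨(B.map A.subtype).map Z.subtype, map_subtype_le _, ?_, ?_, ?_⟩
  · rw [PUtil.isMulCommutative_iff]
    intro a ha b hb
    exact hcomm a (map_subtype_le _ ha) b (map_subtype_le _ hb)
  · rintro _ ⟨_, ⟨y, hy, rfl⟩, rfl⟩
    exact congrArg Subtype.val (hAe y.1 y.2)
  · rw [card_map_of_injective Z.subtype_injective, card_map_of_injective A.subtype_injective, hB]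

theorem center_comm (A : Subgroup G) : IsMulCommutative ↥(A ⊓ centralizer (A : Set G)) := by
  rw [PUtil.isMulCommutative_iff]
  intro a ha b hb
  exact mem_centralizer_iff.1 hb.2 a ha.1

theorem eq_of_bot {A Q₁ Q₂ : Subgroup G} {q : ℕ} (h₁ : Q₁ ∈ Cfsg.maxInvSubgroups ⊤ A {q})
    (h₂ : Q₂ ∈ Cfsg.maxInvSubgroups ⊤ A {q}) (h : Q₁ = ⊥) : Q₂ = Q₁ :=
  h₁.2 Q₂ h₂.1 (by rw [h]; exact bot_le)

theorem rank_three (hG : Cfsg.IsMinSimpleOddOrder G) {A : Subgroup G} (hA : Cfsg.TransitivityHypothesis A)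
    (hZ : ¬ Cfsg.RankLE 2 ↥(A ⊓ Subgroup.centralizer (A : Set G)))
    {q : ℕ} (hq : q.Prime) (hqA : ¬ q ∣ Nat.card A) {Q₁ Q₂ : Subgroup G}
    (h₁ : Q₁ ∈ Cfsg.maxInvSubgroups ⊤ A {q}) (h₂ : Q₂ ∈ Cfsg.maxInvSubgroups ⊤ A {q}) :
    ∃ k ∈ Cfsg.piCoreOf (Cfsg.primesNotDvd (Nat.card A)) (centralizer (A : Set G)),
      Q₂ = MulAut.conj k • Q₁ := by
  haveI : Fact q.Prime := ⟨hq⟩
  unfold Cfsg.RankLE at hZ
  push Not at hZ
  obtain ⟨p, hp, hrank⟩ := hZ
  haveI : Fact p.Prime := ⟨hp⟩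
  obtain ⟨A₀, hA₀, hc, he, hcard⟩ := exists_elem hp hrank (center_comm A)
  have hpA : p ∣ Nat.card A := by
    have h3 : Nat.card A₀ ∣ Nat.card A := card_dvd_of_le (hA₀.trans inf_le_left)
    rw [hcard] at h3
    exact (dvd_pow_self p (by norm_num)).trans h3
  have hqp : q ≠ p := by rintro rfl; exact hqA hpA
  have hcopq : ∀ X : Subgroup G, IsPGroup q X → (Nat.card X).Coprime p := by
    intro X hX
    obtain ⟨k, hk⟩ := hX.exists_card_eq
    rw [hk]; exact ((Nat.coprime_primes hq hp).2 hqp).pow_left k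
  obtain ⟨hQ₁q, hEQ₁⟩ := Trans.inv_iff.1 h₁.1
  obtain ⟨hQ₂q, hEQ₂⟩ := Trans.inv_iff.1 h₂.1
  by_cases hb₁ : Q₁ = ⊥
  · exact ⟨1, one_mem _, by rw [map_one, one_smul, eq_of_bot h₁ h₂ hb₁]⟩
  by_cases hb₂ : Q₂ = ⊥
  · exact ⟨1, one_mem _, by rw [map_one, one_smul, eq_of_bot h₂ h₁ hb₂]⟩
  have hA₀A : A₀ ≤ A := hA₀.trans inf_le_left
  obtain ⟨a, ha, ha1, hn₁, hn₂⟩ := Trans.common (D := ⊥) hc he hcard (hA₀A.trans hEQ₁) (hcopq _ hQ₁q)
    (fun h => hb₁ (le_bot_iff.1 h)) (hA₀A.trans hEQ₂) (hcopq _ hQ₂q) (fun h => hb₂ (le_bot_iff.1 h))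
  apply meet hG hA hq hqA h₁ h₂ (H := centralizer ({a} : Set G)) (centralizer_ne_top hG ha1)
  · intro x hx
    rw [mem_centralizer_singleton_iff]
    exact mem_centralizer_iff.1 (hA₀ ha).2 x hx
  · intro h; apply hn₁; rw [inf_comm, h]
  · intro h; apply hn₂; rw [inf_comm, h]

theorem rank_two (hG : Cfsg.IsMinSimpleOddOrder G) {A : Subgroup G} (hA : Cfsg.TransitivityHypothesis A)
    (hZ : ¬ Cfsg.RankLE 1 ↥(A ⊓ Subgroup.centralizer (A : Set G)))
    {q : ℕ} (hq : q.Prime) (hqA : ¬ q ∣ Nat.card A) (hqC : q ∣ Nat.card (Subgroup.centralizer (A : Set G)))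
    {Q₁ Q₂ : Subgroup G}
    (h₁ : Q₁ ∈ Cfsg.maxInvSubgroups ⊤ A {q}) (h₂ : Q₂ ∈ Cfsg.maxInvSubgroups ⊤ A {q}) :
    ∃ k ∈ Cfsg.piCoreOf (Cfsg.primesNotDvd (Nat.card A)) (centralizer (A : Set G)),
      Q₂ = MulAut.conj k • Q₁ := by
  haveI : Fact q.Prime := ⟨hq⟩
  set K := Cfsg.piCoreOf (Cfsg.primesNotDvd (Nat.card A)) (centralizer (A : Set G)) with hK
  unfold Cfsg.RankLE at hZ
  push Not at hZ
  obtain ⟨p, hp, hrank⟩ := hZ
  haveI : Fact p.Prime := ⟨hp⟩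
  obtain ⟨A₀, hA₀, hc, he, hcard⟩ := exists_elem hp hrank (center_comm A)
  have hpA : p ∣ Nat.card A := by
    have h3 : Nat.card A₀ ∣ Nat.card A := card_dvd_of_le (hA₀.trans inf_le_left)
    rw [hcard] at h3
    exact (dvd_pow_self p (by norm_num)).trans h3
  have hqp : q ≠ p := by rintro rfl; exact hqA hpA
  have hcopq : ∀ X : Subgroup G, IsPGroup q X → (Nat.card X).Coprime p := by
    intro X hX
    obtain ⟨k, hk⟩ := hX.exists_card_eq
    rw [hk]; exact ((Nat.coprime_primes hq hp).2 hqp).pow_left k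
  have hA₀A : A₀ ≤ A := hA₀.trans inf_le_left
  -- an element of order q centralizing A
  obtain ⟨x, hx⟩ := exists_prime_orderOf_dvd_card' q hqC
  have hx' : orderOf (x : G) = q := by rw [Subgroup.orderOf_coe]; exact hx
  have hzq : IsPGroup q (zpowers (x : G)) := IsPGroup.of_card (n := 1) (by rw [Nat.card_zpowers, hx', pow_one])
  have hAz : A ≤ centralizer ((zpowers (x : G) : Subgroup G) : Set G) := by
    intro a ha
    rw [mem_centralizer_iff]
    rintro _ ⟨i, rfl⟩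
    have h3 : Commute (x : G) a := (mem_centralizer_iff.1 x.2 a ha).symm
    exact (h3.zpow_left i).eq
  obtain ⟨Q₀, h₀, hle⟩ := Trans.exists_max (A := A) hzq (hAz.trans (centralizer_le_normalizer _))
  have hxQ₀ : (x : G) ∈ Q₀ := hle (mem_zpowers _)
  have hx1 : (x : G) ≠ 1 := by
    intro h
    rw [h, orderOf_one] at hx'
    exact hq.one_lt.ne hx'
  have key : ∀ Q ∈ Cfsg.maxInvSubgroups ⊤ A {q}, ∃ k ∈ K, Q₀ = MulAut.conj k • Q := by
    intro Q hQ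
    obtain ⟨hQq, hEQ⟩ := Trans.inv_iff.1 hQ.1
    have hQb : Q ≠ ⊥ := by
      intro h
      have h3 := eq_of_bot hQ h₀ h
      rw [h3, h, mem_bot] at hxQ₀
      exact hx1 hxQ₀
    have h3 := gen_of_elementary hp hcard he (hA₀A.trans hEQ) (hcopq _ hQq)
    have h4 : ∃ y ∈ Q, ∃ a ∈ A₀, a ≠ 1 ∧ a * y = y * a ∧ y ≠ 1 := by
      by_contra hcon
      push Not at hcon
      apply hQb
      rw [eq_bot_iff, ← h3, genCent, closure_le]
      rintro y ⟨hy, a, ha, ha1, hay⟩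
      exact mem_bot.2 (hcon y hy a ha ha1 hay)
    obtain ⟨y, hy, a, ha, ha1, hay, hy1⟩ := h4
    have haz : ∀ z ∈ A, z * a = a * z := fun z hz => mem_centralizer_iff.1 (hA₀ ha).2 z hz
    apply meet hG hA hq hqA hQ h₀ (H := centralizer ({a} : Set G)) (centralizer_ne_top hG ha1)
    · intro z hz
      rw [mem_centralizer_singleton_iff]
      exact haz z hz
    · intro h
      have : y ∈ centralizer ({a} : Set G) ⊓ Q := ⟨mem_centralizer_singleton_iff.2 hay.symm, hy⟩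
      rw [h, mem_bot] at this
      exact hy1 this
    · intro h
      have : (x : G) ∈ centralizer ({a} : Set G) ⊓ Q₀ :=
        ⟨mem_centralizer_singleton_iff.2 (mem_centralizer_iff.1 x.2 a (hA₀A ha)).symm, hxQ₀⟩
      rw [h, mem_bot] at this
      exact hx1 this
  obtain ⟨k₁, hk₁, e₁⟩ := key Q₁ h₁
  obtain ⟨k₂, hk₂, e₂⟩ := key Q₂ h₂
  refine ⟨k₂⁻¹ * k₁, K.mul_mem (K.inv_mem hk₂) hk₁, ?_⟩
  rw [map_mul, ← smul_smul, ← e₁, e₂, smul_smul, ← map_mul, inv_mul_cancel, map_one, one_smul]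

end Cfsg.Agent.H2.TransOdd
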