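import Cfsg.Agent.H2.MaschkeAb
import Cfsg.Agent.H2.PUtil
import Cfsg.Agent.Lib.PGrpB
import Cfsg.Prelude
import Mathlib

/-! Solvable groups of odd order acting on an elementary abelian group of order `≤ p²`. -/

set_option autoImplicit false

namespace Cfsg.Agent.H2.TwoDim

open Subgroup
open scoped commutatorElement

section Mat

variable {F : Type*} [Field F]

/-- `2 × 2` matrices -/
abbrev M2 (F : Type*) [Field F] := Matrix (Fin 2) (Fin 2) F

/-- scalar matrices -/
def Sc (a : M2 F) : Prop := a 0 1 = 0 ∧ a 1 0 = 0 ∧ a 0 0 = a 1 1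

theorem ext4 {a b : M2 F} (h1 : a 0 0 = b 0 0) (h2 : a 0 1 = b 0 1) (h3 : a 1 0 = b 1 0) (h4 : a 1 1 = b 1 1) : a = b := by
  ext i j
  fin_cases i <;> fin_cases j
  · exact h1
  · exact h2
  · exact h3
  · exact h4

theorem mul00 (a b : M2 F) : (a * b) 0 0 = a 0 0 * b 0 0 + a 0 1 * b 1 0 := by
  rw [Matrix.mul_apply, Fin.sum_univ_two]
theorem mul01 (a b : M2 F) : (a * b) 0 1 = a 0 0 * b 0 1 + a 0 1 * b 1 1 := by
  rw [Matrix.mul_apply, Fin.sum_univ_two]
theorem mul10 (a b : M2 F) : (a * b) 1 0 = a 1 0 * b 0 0 + a 1 1 * b 1 0 := by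
  rw [Matrix.mul_apply, Fin.sum_univ_two]
theorem mul11 (a b : M2 F) : (a * b) 1 1 = a 1 0 * b 0 1 + a 1 1 * b 1 1 := by
  rw [Matrix.mul_apply, Fin.sum_univ_two]

theorem comm_iff {g x : M2 F} : g * x = x * g ↔ g 0 1 * x 1 0 = g 1 0 * x 0 1 ∧ (g 0 0 - g 1 1) * x 0 1 = g 0 1 * (x 0 0 - x 1 1) ∧
    (g 0 0 - g 1 1) * x 1 0 = g 1 0 * (x 0 0 - x 1 1) := by
  constructor
  · intro h
    have h1 := congrFun (congrFun h 0) 0
    have h2 := congrFun (congrFun h 0) 1
    have h3 := congrFun (congrFun h 1) 0
    simp only [mul00, mul01, mul10] at h1 h2 h3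
    refine ⟨by linear_combination h1, by linear_combination h2, by linear_combination -h3⟩
  · rintro ⟨h1, h2, h3⟩
    refine ext4 ?_ ?_ ?_ ?_ <;> simp only [mul00, mul01, mul10, mul11]
    · linear_combination h1
    · linear_combination h2
    · linear_combination -h3
    · linear_combination -h1

theorem exists_ab {g x : M2 F} (hg : ¬ Sc g) (h : g * x = x * g) : ∃ α β : F, x 0 0 = α * g 0 0 + β ∧ x 0 1 = α * g 0 1 ∧
    x 1 0 = α * g 1 0 ∧ x 1 1 = α * g 1 1 + β := by
  obtain ⟨h1, h2, h3⟩ := comm_iff.1 h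
  by_cases hb : g 0 1 = 0
  · by_cases hc : g 1 0 = 0
    · have ha : g 0 0 - g 1 1 ≠ 0 := fun ha => hg ⟨hb, hc, sub_eq_zero.1 ha⟩
      refine ⟨(x 0 0 - x 1 1) / (g 0 0 - g 1 1), x 0 0 - (x 0 0 - x 1 1) / (g 0 0 - g 1 1) * g 0 0, by ring, ?_, ?_, ?_⟩
      · rw [hb] at h2 ⊢
        rw [zero_mul] at h2
        rw [mul_zero]
        exact (mul_eq_zero.1 h2).resolve_left ha
      · rw [hc] at h3 ⊢
        rw [zero_mul] at h3
        rw [mul_zero]
        exact (mul_eq_zero.1 h3).resolve_left ha
      · field_simp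
        ring
    · refine ⟨x 1 0 / g 1 0, x 0 0 - x 1 0 / g 1 0 * g 0 0, by ring, ?_, ?_, ?_⟩
      · rw [hb] at h1 ⊢
        rw [zero_mul] at h1
        rw [mul_zero]
        exact (mul_eq_zero.1 h1.symm).resolve_left hc
      · field_simp
      · field_simp
        linear_combination h3
  · refine ⟨x 0 1 / g 0 1, x 0 0 - x 0 1 / g 0 1 * g 0 0, by ring, ?_, ?_, ?_⟩
    · field_simp
    · field_simp
      linear_combination h1
    · field_simp
      linear_combination h2

theorem comm_trans {g x y : M2 F} (hg : ¬ Sc g) (hx : g * x = x * g) (hy : g * y = y * g) : x * y = y * x := by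
  obtain ⟨α, β, h1, h2, h3, h4⟩ := exists_ab hg hx
  obtain ⟨α', β', h1', h2', h3', h4'⟩ := exists_ab hg hy
  rw [comm_iff, h1, h2, h3, h4, h1', h2', h3', h4']
  refine ⟨by ring, by ring, by ring⟩

theorem sc_comm {g : M2 F} (hg : Sc g) (x : M2 F) : g * x = x * g := by
  obtain ⟨h1, h2, h3⟩ := hg
  rw [comm_iff, h1, h2, h3]
  simp

/-- matrix with same trace and determinant commuting with `g` -/
theorem same_tr {g x : M2 F} (h2 : (2 : F) ≠ 0) (hg : ¬ Sc g) (h : g * x = x * g) (ht : x.trace = g.trace) (hd : x.det = g.det) :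
    x = g ∨ x = g.trace • (1 : M2 F) - g ∨ g.trace ^ 2 = 4 * g.det := by
  obtain ⟨α, β, h3, h4, h5, h6⟩ := exists_ab hg h
  rw [Matrix.det_fin_two, Matrix.det_fin_two, h3, h4, h5, h6] at hd
  rw [Matrix.trace_fin_two, Matrix.trace_fin_two, h3, h6] at ht
  rw [Matrix.trace_fin_two, Matrix.det_fin_two]
  have h7 : (α - 1) * ((α + 1) * ((g 0 0 + g 1 1) ^ 2 - 4 * (g 0 0 * g 1 1 - g 0 1 * g 1 0))) = 0 := by
    linear_combination (-4) * hd + (2 * β + (g 0 0 + g 1 1) * (α + 1)) * ht
  rcases mul_eq_zero.1 h7 with h8 | h8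
  · left
    have hα : α = 1 := sub_eq_zero.1 h8
    have hβ : β = 0 := by
      refine (mul_eq_zero.1 (?_ : (2 : F) * β = 0)).resolve_left h2
      rw [hα] at ht; linear_combination ht
    refine ext4 ?_ ?_ ?_ ?_
    · rw [h3, hα, hβ]; ring
    · rw [h4, hα]; ring
    · rw [h5, hα]; ring
    · rw [h6, hα, hβ]; ring
  · rcases mul_eq_zero.1 h8 with h9 | h9
    · right; left
      have hα : α = -1 := by linear_combination h9
      have hβ : β = g 0 0 + g 1 1 := by
        have : (2 : F) * (β - (g 0 0 + g 1 1)) = 0 := by rw [hα] at ht; linear_combination ht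
        exact sub_eq_zero.1 ((mul_eq_zero.1 this).resolve_left h2)
      refine ext4 ?_ ?_ ?_ ?_
      · simp only [Matrix.sub_apply, Matrix.smul_apply, Matrix.one_apply, smul_eq_mul]
        simp only [h3, hα, hβ]; simp
      · simp only [Matrix.sub_apply, Matrix.smul_apply, Matrix.one_apply, smul_eq_mul]
        simp only [h4, hα]; simp
      · simp only [Matrix.sub_apply, Matrix.smul_apply, Matrix.one_apply, smul_eq_mul]
        simp only [h5, hα]; simp
      · simp only [Matrix.sub_apply, Matrix.smul_apply, Matrix.one_apply, smul_eq_mul]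
        simp only [h6, hα, hβ]; simp
    · right; right
      linear_combination h9

/-- `a ^ p` is scalar for a matrix with a double eigenvalue -/
theorem sc_pow {p : ℕ} [Fact p.Prime] [CharP F p] (hp : p ≠ 2) {g : M2 F} (h : g.trace ^ 2 = 4 * g.det) : Sc (g ^ p) := by
  have h2 : (2 : F) ≠ 0 := by
    intro h0
    have h1 : ((2 : ℕ) : F) = 0 := by exact_mod_cast h0
    rw [CharP.cast_eq_zero_iff F p] at h1
    exact hp (((Nat.prime_dvd_prime_iff_eq Fact.out Nat.prime_two).1 h1))
  set c : F := g.trace / 2 with hc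
  have hct : g 0 0 + g 1 1 = 2 * c := by
    rw [hc, Matrix.trace_fin_two]; field_simp
  have hdet : g 0 0 * g 1 1 - g 0 1 * g 1 0 = c ^ 2 := by
    rw [Matrix.trace_fin_two, Matrix.det_fin_two, hct] at h
    have : (2 : F) * (2 * (g 0 0 * g 1 1 - g 0 1 * g 1 0 - c ^ 2)) = 0 := by linear_combination -h
    have h3 := (mul_eq_zero.1 this).resolve_left h2
    exact sub_eq_zero.1 ((mul_eq_zero.1 h3).resolve_left h2)
  have hsq : (g - c • (1 : M2 F)) ^ 2 = 0 := by
    rw [sq]
    have e00 : (g - c • (1 : M2 F)) 0 0 = g 0 0 - c := by simp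
    have e01 : (g - c • (1 : M2 F)) 0 1 = g 0 1 := by simp
    have e10 : (g - c • (1 : M2 F)) 1 0 = g 1 0 := by simp
    have e11 : (g - c • (1 : M2 F)) 1 1 = g 1 1 - c := by simp
    refine ext4 ?_ ?_ ?_ ?_
    · rw [mul00, e00, e01, e10]; show _ = (0 : F)
      linear_combination g 0 0 * hct - hdet
    · rw [mul01, e00, e01, e11]; show _ = (0 : F)
      linear_combination g 0 1 * hct
    · rw [mul10, e00, e10, e11]; show _ = (0 : F)
      linear_combination g 1 0 * hct
    · rw [mul11, e01, e10, e11]; show _ = (0 : F)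
      linear_combination g 1 1 * hct - hdet
  have hcomm : Commute g (c • (1 : M2 F)) := by
    show g * (c • (1 : M2 F)) = (c • (1 : M2 F)) * g
    rw [Matrix.mul_smul, Matrix.smul_mul, mul_one, one_mul]
  haveI : CharP (M2 F) p := by
    haveI := Matrix.charP (n := Fin 2) (R := F) p
    infer_instance
  have hpow : (g - c • (1 : M2 F)) ^ p = 0 := by
    have hp2 : 2 ≤ p := (Fact.out : p.Prime).two_le
    obtain ⟨k, hk⟩ := Nat.exists_eq_add_of_le hp2
    rw [hk, pow_add, hsq, zero_mul]
  rw [sub_pow_char_of_commute p hcomm, sub_eq_zero] at hpow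
  rw [hpow, smul_pow, one_pow]
  refine ⟨by simp, by simp, by simp⟩

end Mat

section Grp

variable {F : Type*} [Field F] {B : Type*} [Group B]

theorem odd_sq {x : B} [Finite B] (hodd : Odd (Nat.card B)) : ∃ k : ℕ, (x ^ 2) ^ k = x := by
  obtain ⟨k, hk⟩ := hodd
  refine ⟨k + 1, ?_⟩
  rw [← pow_mul, show 2 * (k + 1) = (2 * k + 1) + 1 by ring, pow_succ, ← hk, pow_card_eq_one', one_mul]

/-- A solvable group of odd order with a faithful two-dimensional representation in odd
characteristic `p` is abelian or has a non-trivial normal `p`-subgroup. -/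
theorem main [Finite B] (hs : Group.IsSolvable B) (hodd : Odd (Nat.card B)) {p : ℕ} [Fact p.Prime] [CharP F p] (hp : p ≠ 2)
    (θ : B →* M2 F) (hθ : Function.Injective θ) :
    (∀ a b : B, a * b = b * a) ∨ ∃ N : Subgroup B, N.Normal ∧ N ≠ ⊥ ∧ ∀ x ∈ N, x ^ p = 1 := by
  classical
  have hpp : p.Prime := Fact.out
  have h2 : (2 : F) ≠ 0 := by
    intro h0
    have h1 : ((2 : ℕ) : F) = 0 := by exact_mod_cast h0
    rw [CharP.cast_eq_zero_iff F p] at h1
    exact hp (((Nat.prime_dvd_prime_iff_eq Fact.out Nat.prime_two).1 h1))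
  have htrans : ∀ {g x y : B}, ¬ Sc (θ g) → g * x = x * g → g * y = y * g → x * y = y * x := by
    intro g x y hg hx hy
    apply hθ
    rw [map_mul, map_mul]
    exact comm_trans hg (by rw [← map_mul, hx, map_mul]) (by rw [← map_mul, hy, map_mul])
  have hsc : ∀ {g : B}, Sc (θ g) → ∀ x, g * x = x * g := by
    intro g hg x
    apply hθ
    rw [map_mul, map_mul]
    exact sc_comm hg _
  by_cases hall : ∀ g : B, Sc (θ g)
  · left
    intro a b
    exact hsc (hall a) b
  -- last derived term not scalar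
  obtain ⟨m, hm⟩ := (Group.isSolvable_def B).1 hs
  have hex : ∃ n, ∀ x ∈ derivedSeries B n, Sc (θ x) := by
    refine ⟨m, fun x hx => ?_⟩
    rw [hm, mem_bot] at hx
    rw [hx, map_one]
    refine ⟨by simp, by simp, by simp⟩
  obtain ⟨n, hn, hmin⟩ : ∃ n, (∀ x ∈ derivedSeries B (n + 1), Sc (θ x)) ∧ ¬ ∀ x ∈ derivedSeries B n, Sc (θ x) := by
    have h0 := Nat.find_spec hex
    rcases hk : Nat.find hex with _ | k
    · exfalso
      rw [hk] at h0
      exact hall (fun g => h0 g (by rw [derivedSeries_zero]; trivial))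
    · rw [hk] at h0
      exact ⟨k, h0, Nat.find_min hex (by omega)⟩
  have hNab : ∀ a ∈ derivedSeries B n, ∀ b ∈ derivedSeries B n, a * b = b * a := by
    intro a ha b hb
    have h1 : ⁅a, b⁆ ∈ derivedSeries B (n + 1) := by
      rw [derivedSeries_succ]
      exact commutator_mem_commutator ha hb
    have h3 := hn _ h1
    have hdet : (θ ⁅a, b⁆).det = 1 := by
      rw [_root_.commutatorElement_def, map_mul, map_mul, map_mul, Matrix.det_mul, Matrix.det_mul, Matrix.det_mul]
      have ha1 : (θ a).det * (θ a⁻¹).det = 1 := by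
        rw [← Matrix.det_mul, ← map_mul, mul_inv_cancel, map_one, Matrix.det_one]
      have hb1 : (θ b).det * (θ b⁻¹).det = 1 := by
        rw [← Matrix.det_mul, ← map_mul, mul_inv_cancel, map_one, Matrix.det_one]
      linear_combination (θ b).det * (θ b⁻¹).det * ha1 + hb1
    have h4 : ⁅a, b⁆ ^ 2 = 1 := by
      apply hθ
      rw [map_pow, map_one, sq]
      obtain ⟨e1, e2, e3⟩ := h3
      rw [Matrix.det_fin_two, e1, zero_mul, sub_zero] at hdet
      refine ext4 ?_ ?_ ?_ ?_
      · rw [mul00, e1, zero_mul, add_zero]; simp; rw [← hdet, ← e3]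
      · rw [mul01, e1, zero_mul, mul_zero, add_zero]; simp
      · rw [mul10, e2, zero_mul, mul_zero, add_zero]; simp
      · rw [mul11, e2, zero_mul, zero_add]; simp; rw [← hdet, ← e3]
    obtain ⟨k, hk⟩ := odd_sq (x := ⁅a, b⁆) hodd
    rw [h4, one_pow] at hk
    exact _root_.commutatorElement_eq_one_iff_mul_comm.1 hk.symm
  push Not at hmin
  obtain ⟨a, haN, ha⟩ := hmin
  have hNn : (derivedSeries B n).Normal := inferInstance
  by_cases hpN : ∃ x ∈ derivedSeries B n, x ≠ 1 ∧ x ^ p = 1
  · right
    obtain ⟨x, hx, hx1, hxp⟩ := hpN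
    let N : Subgroup B :=
      { carrier := {y | y ∈ derivedSeries B n ∧ y ^ p = 1}
        mul_mem' := fun {u v} hu hv => ⟨mul_mem hu.1 hv.1, by
          have hc : Commute u v := hNab u hu.1 v hv.1
          rw [hc.mul_pow, hu.2, hv.2, one_mul]⟩
        one_mem' := ⟨one_mem _, one_pow _⟩
        inv_mem' := fun {u} hu => ⟨inv_mem hu.1, by rw [inv_pow, hu.2, inv_one]⟩ }
    refine ⟨N, ⟨fun y hy g => ⟨hNn.conj_mem y hy.1 g, ?_⟩⟩, ?_, fun y hy => hy.2⟩
    · rw [conj_pow, hy.2]; group
    · intro h
      have : x ∈ N := ⟨hx, hxp⟩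
      rw [h, mem_bot] at this
      exact hx1 this
  · left
    push Not at hpN
    have hcop : (orderOf a).Coprime p := by
      rw [Nat.coprime_comm, hpp.coprime_iff_not_dvd]
      intro hd
      obtain ⟨k, hk⟩ := hd
      have hk0 : 0 < k := by
        rcases Nat.eq_zero_or_pos k with h | h
        · rw [h, mul_zero] at hk
          exact absurd hk (orderOf_pos a).ne'
        · exact h
      have h5 := hpN (a ^ k) (pow_mem haN k) (by
        intro h6
        have h7 := _root_.orderOf_dvd_of_pow_eq_one h6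
        rw [hk] at h7
        have h8 := Nat.le_of_dvd hk0 h7
        have := hpp.two_le
        nlinarith)
      apply h5
      rw [← pow_mul, mul_comm, ← hk, pow_orderOf_eq_one]
    have hcen : ∀ h : B, a * h = h * a := by
      intro h
      have hx : h * a * h⁻¹ ∈ derivedSeries B n := hNn.conj_mem a haN h
      have hcx : θ a * θ (h * a * h⁻¹) = θ (h * a * h⁻¹) * θ a := by
        rw [← map_mul, ← map_mul, hNab a haN _ hx]
      have htr : (θ (h * a * h⁻¹)).trace = (θ a).trace := by
        rw [map_mul, Matrix.trace_mul_comm, ← map_mul]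
        congr 2; group
      have hdet : (θ (h * a * h⁻¹)).det = (θ a).det := by
        rw [map_mul, Matrix.det_mul_comm, ← map_mul]
        congr 2; group
      rcases same_tr h2 ha hcx htr hdet with h3 | h3 | h3
      · have h4 := hθ h3
        have : h * a = a * h := by
          calc h * a = (h * a * h⁻¹) * h := by group
            _ = a * h := by rw [h4]
        exact this.symm
      · -- the square commutes
        have h4 : θ (h ^ 2 * a * (h ^ 2)⁻¹) = θ a := by
          have e1 : h ^ 2 * a * (h ^ 2)⁻¹ = h * (h * a * h⁻¹) * h⁻¹ := by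
            rw [sq, mul_inv_rev]; group
          rw [e1, map_mul, map_mul, h3, mul_sub, sub_mul, ← map_mul, ← map_mul, h3]
          have e2 : θ h * ((θ a).trace • (1 : M2 F)) * θ h⁻¹ = (θ a).trace • (1 : M2 F) := by
            rw [Matrix.mul_smul, Matrix.smul_mul, mul_one, ← map_mul, mul_inv_cancel, map_one]
          rw [e2]
          abel
        have h5 := hθ h4
        have h6 : Commute a (h ^ 2) := by
          show a * h ^ 2 = h ^ 2 * a
          calc a * h ^ 2 = (h ^ 2 * a * (h ^ 2)⁻¹) * h ^ 2 := by rw [h5]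
            _ = _ := by group
        obtain ⟨k, hk⟩ := odd_sq (x := h) hodd
        have h7 := h6.pow_right k
        rw [hk] at h7
        exact h7
      · exfalso
        have h4 := sc_pow hp h3
        rw [← map_pow] at h4
        -- a is a power of a^p
        obtain ⟨k, hk⟩ := exists_pow_eq_self_of_coprime (n := p) (x := a) hcop.symm
        apply ha
        rw [← hk, map_pow]
        obtain ⟨e1, e2, e3⟩ := h4
        have e4 : θ (a ^ p) = (θ (a ^ p) 0 0) • (1 : M2 F) := by
          refine ext4 ?_ ?_ ?_ ?_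
          · simp
          · simp [e1]
          · simp [e2]
          · simp [e3]
        rw [e4, smul_pow, one_pow]
        refine ⟨by simp, by simp, by simp⟩
    intro x y
    exact htrans ha (hcen x) (hcen y)

end Grp

section Vec

theorem ker_of_comm {A H : Type*} [Group A] [Group H] (ψ : A →* H) (h : ∀ x y, ψ x * ψ y = ψ y * ψ x) : commutator A ≤ ψ.ker := by
  rw [_root_.commutator_def, commutator_le]
  intro x _ y _
  rw [MonoidHom.mem_ker, map_commutatorElement, _root_.commutatorElement_eq_one_iff_mul_comm]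
  exact h x y

theorem mulAut_comm {W : Type*} [Group W] [IsCyclic W] (f g : MulAut W) : f * g = g * f := by
  ext w
  obtain ⟨m, hm⟩ := MonoidHom.map_cyclic f.toMonoidHom
  have hm' : ∀ w, f w = w ^ m := hm
  rw [MulAut.mul_apply, MulAut.mul_apply, hm', hm', map_zpow]

theorem cyc_of_card {W : Type*} [Group W] [Finite W] {p : ℕ} [Fact p.Prime] (hW : IsPGroup p W) (h : Nat.card W ≤ p) : IsCyclic W := by
  have hp : p.Prime := Fact.out
  obtain ⟨k, hk⟩ := IsPGroup.iff_card.1 hW
  rcases Nat.eq_zero_or_pos k with h0 | h0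
  · rw [h0, pow_zero] at hk
    have := (Nat.card_eq_one_iff_unique.1 hk).1
    infer_instance
  · have h1 : k = 1 := by
      by_contra hne
      have h2 : p ^ 2 ≤ p ^ k := Nat.pow_le_pow_right hp.pos (by omega)
      rw [← hk] at h2
      have := hp.two_le
      nlinarith
    rw [h1, pow_one] at hk
    exact isCyclic_of_prime_card hk

variable {V : Type*} [CommGroup V] [Finite V] {p : ℕ} [Fact p.Prime]

/-- linear map of an automorphism -/
def lin [Module (ZMod p) (Additive V)] (a : MulAut V) : Additive V →ₗ[ZMod p] Additive V :=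
  (MonoidHom.toAdditive a.toMonoidHom).toZModLinearMap p

theorem lin_apply [Module (ZMod p) (Additive V)] (a : MulAut V) (v : Additive V) :
    lin (p := p) a v = Additive.ofMul (a v.toMul) := rfl

/-- matrix of an automorphism -/
noncomputable def toM [Module (ZMod p) (Additive V)] (b : Module.Basis (Fin 2) (ZMod p) (Additive V)) : MulAut V →* M2 (ZMod p) where
  toFun a := LinearMap.toMatrix b b (lin a)
  map_one' := by
    have : lin (p := p) (1 : MulAut V) = LinearMap.id := by
      ext x; rfl
    rw [this, LinearMap.toMatrix_id]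
  map_mul' f g := by
    have h : lin (p := p) (f * g) = (lin f) ∘ₗ (lin g) := by
      refine LinearMap.ext fun x => ?_
      rw [LinearMap.comp_apply, lin_apply, lin_apply, lin_apply]
      rfl
    rw [h, LinearMap.toMatrix_comp b b b]

theorem toM_injective [Module (ZMod p) (Additive V)] (b : Module.Basis (Fin 2) (ZMod p) (Additive V)) :
    Function.Injective (toM b) := by
  intro f g hfg
  have h1 : lin (p := p) f = lin g := (LinearMap.toMatrix b b).injective hfg
  ext v
  have h2 := DFunLike.congr_fun h1 (Additive.ofMul v)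
  rw [lin_apply, lin_apply] at h2
  exact h2

theorem exists_basis [Module (ZMod p) (Additive V)] (hc : Nat.card V = p ^ 2) :
    Nonempty (Module.Basis (Fin 2) (ZMod p) (Additive V)) := by
  have iF : Module.Finite (ZMod p) (Additive V) := Module.Finite.of_finite
  have hfin : Module.finrank (ZMod p) (Additive V) = 2 := by
    have h1 : Nat.card (Additive V) = Nat.card (ZMod p) ^ Module.finrank (ZMod p) (Additive V) := Module.natCard_eq_pow_finrank
    rw [Nat.card_congr (Additive.toMul (α := V)), hc, Nat.card_zmod] at h1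
    exact (Nat.pow_right_injective (Fact.out : p.Prime).two_le h1).symm
  exact ⟨Module.finBasisOfFinrankEq (ZMod p) (Additive V) hfin⟩

/-- embedding of the automorphism group of an elementary abelian group of order `p²` -/
theorem exists_rep (hV : ∀ v : V, v ^ p = 1) (hc : Nat.card V = p ^ 2) :
    ∃ θ : MulAut V →* M2 (ZMod p), Function.Injective θ := by
  classical
  letI iM : Module (ZMod p) (Additive V) := AddCommGroup.zmodModule (fun x => by
    rw [← ofMul_toMul x, ← ofMul_pow, hV]; rfl)
  obtain ⟨b⟩ := exists_basis (V := V) (p := p) hc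
  exact ⟨toM b, toM_injective b⟩

/-- commutators act as `p`-elements -/
theorem comm_pow {A : Type*} [Group A] [Finite A] (hs : Group.IsSolvable A) (hodd : Odd (Nat.card A)) (hp : p ≠ 2)
    (φ : A →* MulAut V) (hV : ∀ v : V, v ^ p = 1) (hc : Nat.card V ≤ p ^ 2) : ∀ x ∈ commutator A, (φ x) ^ p = 1 := by
  classical
  have hpp : p.Prime := Fact.out
  have hVp : IsPGroup p V := fun v => ⟨1, by rw [pow_one]; exact hV v⟩
  by_cases hL : ∃ L : Subgroup V, (∀ x, ∀ l ∈ L, φ x l ∈ L) ∧ Nat.card L ≤ p ∧ L.index ≤ p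
  · obtain ⟨L, hL1, hL2, hL3⟩ := hL
    intro x hx
    have hcyc1 : IsCyclic L := cyc_of_card (hVp.to_subgroup L) hL2
    have hcyc2 : IsCyclic (V ⧸ L) := cyc_of_card (hVp.to_quotient L) (by rw [← Subgroup.index_eq_card]; exact hL3)
    have h1 := ker_of_comm (MaschkeAb.restr φ L hL1) (fun _ _ => mulAut_comm _ _) hx
    have h2 := ker_of_comm (MaschkeAb.quot φ L hL1) (fun _ _ => mulAut_comm _ _) hx
    rw [MonoidHom.mem_ker] at h1 h2
    ext v
    have h3 : ((φ x v : V) : V ⧸ L) = (v : V ⧸ L) := by
      rw [← MaschkeAb.quot_apply φ L hL1, h2]; rfl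
    have h4 : v⁻¹ * φ x v ∈ L := QuotientGroup.eq.1 h3.symm
    have h5 : φ x (v⁻¹ * φ x v) = v⁻¹ * φ x v := by
      have := congrArg (fun (f : MulAut L) => ((f ⟨_, h4⟩ : L) : V)) h1
      exact this
    have h6 := Lib.PGrpB.aut_pow_apply (a := φ x) (x := v) (h := v⁻¹ * φ x v) (by group) h5 p
    rw [h6, hV, mul_one]; rfl
  · obtain ⟨k, hk⟩ := IsPGroup.iff_card.1 hVp
    have hk2 : k ≤ 2 := by
      rw [hk] at hc
      exact (Nat.pow_le_pow_iff_right hpp.one_lt).1 hc
    have hkk : k = 2 := by
      by_contra hne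
      apply hL
      refine ⟨⊤, fun _ _ _ => trivial, ?_, ?_⟩
      · rw [Subgroup.card_top, hk]
        calc p ^ k ≤ p ^ 1 := Nat.pow_le_pow_right hpp.pos (by omega)
          _ = p := pow_one p
      · rw [Subgroup.index_top]; exact hpp.one_lt.le
    rw [hkk] at hk
    obtain ⟨θ, hθ⟩ := exists_rep hV hk
    have hBodd : Odd (Nat.card φ.range) :=
      Odd.of_dvd_nat hodd (Subgroup.card_range_dvd φ)
    have hBs : Group.IsSolvable φ.range := Group.isSolvable_of_surjective φ.rangeRestrict_surjective
    rcases main hBs hBodd hp (θ.comp φ.range.subtype) (hθ.comp φ.range.subtype_injective) with h | ⟨N, hN1, hN2, hN3⟩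
    · intro x hx
      have h1 := ker_of_comm φ (fun a b => by
        have := h ⟨φ a, a, rfl⟩ ⟨φ b, b, rfl⟩
        exact congrArg Subtype.val this) hx
      rw [MonoidHom.mem_ker] at h1
      rw [h1, one_pow]
    · exfalso
      apply hL
      let N' : Subgroup (MulAut V) := N.map φ.range.subtype
      have hN'p : IsPGroup p N' := by
        rintro ⟨_, n, hn, rfl⟩
        refine ⟨1, Subtype.ext ?_⟩
        rw [pow_one]
        exact congrArg (fun z : φ.range => (z : MulAut V)) (hN3 n hn)
      have hN'1 : N' ≠ ⊥ := by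
        intro h
        exact hN2 ((Subgroup.map_eq_bot_iff_of_injective N φ.range.subtype_injective).1 h)
      let L : Subgroup V :=
        { carrier := {v | ∀ n ∈ N', n v = v}
          mul_mem' := fun {a b} ha hb n hn => by rw [map_mul, ha n hn, hb n hn]
          one_mem' := fun n _ => map_one n
          inv_mem' := fun {a} ha n hn => by rw [map_inv, ha n hn] }
      have hLne : L ≠ ⊥ := by
        obtain ⟨b, hb, hb1⟩ := hN'p.exists_fixed_point_of_prime_dvd_card_of_fixed_point (α := V) (by
          rw [hk]; exact dvd_pow_self p two_ne_zero) (a := (1 : V)) (fun n => map_one (n : MulAut V))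
        intro h
        have h1 : b ∈ L := fun n hn => hb ⟨n, hn⟩
        rw [h, mem_bot] at h1
        exact hb1 h1.symm
      have hLt : L ≠ ⊤ := by
        intro h
        apply hN'1
        rw [eq_bot_iff]
        intro n hn
        rw [mem_bot]
        ext v
        have : v ∈ L := by rw [h]; trivial
        exact this n hn
      have hcard := L.card_mul_index
      obtain ⟨i, hi⟩ := IsPGroup.iff_card.1 (hVp.to_subgroup L)
      have hi0 : i ≠ 0 := by
        rintro rfl
        rw [pow_zero] at hi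
        exact hLne (Subgroup.card_eq_one.1 hi)
      have hi2 : i < 2 := by
        have h1 := Subgroup.card_dvd_of_le (le_top : L ≤ ⊤)
        rw [Subgroup.card_top, hi, hk] at h1
        have h2 := (Nat.pow_dvd_pow_iff_le_right hpp.one_lt).1 h1
        rcases h2.lt_or_eq with h3 | h3
        · exact h3
        · exfalso
          apply hLt
          rw [← Subgroup.card_eq_iff_eq_top, hi, h3, hk]
      have hi1 : i = 1 := by omega
      rw [hi1, pow_one] at hi
      refine ⟨L, ?_, hi.le, ?_⟩
      · intro x l hl n hn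
        obtain ⟨n', hn', rfl⟩ := hn
        have h1 := hN1.conj_mem n' hn' (⟨φ x, x, rfl⟩⁻¹ : φ.range)
        have h2 : (φ x)⁻¹ * (n' : MulAut V) * (φ x) ∈ N' := by
          refine ⟨_, h1, ?_⟩
          show (φ x)⁻¹ * (n' : MulAut V) * ((φ x)⁻¹)⁻¹ = _
          rw [inv_inv]
        have h3 := hl _ h2
        have h4 : φ x (((φ x)⁻¹ * (n' : MulAut V) * (φ x)) l) = φ x l := by rw [h3]
        rw [← MulAut.mul_apply] at h4
        have h5 : φ x * ((φ x)⁻¹ * (n' : MulAut V) * (φ x)) = (n' : MulAut V) * φ x := by group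
        rw [h5, MulAut.mul_apply] at h4
        exact h4
      · rw [hi, hk] at hcard
        have : L.index = p := by
          have h1 : p * L.index = p * p := by rw [hcard]; ring
          exact Nat.eq_of_mul_eq_mul_left hpp.pos h1
        exact this.le

end Vec

end Cfsg.Agent.H2.TwoDim
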