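import Cfsg.Agent.H2.TwoDim
import Cfsg.Agent.H2.Soft
import Cfsg.Prelude
import Mathlib

/-! Solvable groups of odd order acting on a `p`-group of rank at most two, `p` odd. -/

set_option autoImplicit false

namespace Cfsg.Agent.H2.TwoDimB

open Subgroup Cfsg.Agent.Lib
open Cfsg.Agent.Lib.PGrpA Cfsg.Agent.Lib.PGrpB
open scoped commutatorElement

variable {R : Type*} [Group R] [Finite R] {p : ℕ} [Fact p.Prime]

/-- a characteristic subgroup of exponent `p` and class `≤ 2` on which `p'`-automorphisms act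
faithfully -/
theorem crit_omega (hp : p ≠ 2) (hR : IsPGroup p R) : ∃ D : Subgroup R, D.Characteristic ∧ (∀ x ∈ D, x ^ p = 1) ∧
    (∀ x ∈ D, ∀ y ∈ D, ∀ z ∈ D, ⁅x, y⁆ * z = z * ⁅x, y⁆) ∧
    (∀ a : MulAut R, (orderOf a).Coprime p → (∀ x ∈ D, a x = x) → a = 1) := by
  classical
  have hpp : p.Prime := Fact.out
  obtain ⟨H, hHc, hHC, hH1, hH2⟩ := exists_critical hR
  have hcl := class2_of_critical hH1
  have hcp : ∀ u v : H, ⁅u, v⁆ ^ p = 1 := by
    intro u v
    rw [← hcl.pow_left]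
    rw [_root_.commutatorElement_eq_one_iff_mul_comm]
    apply Subtype.ext
    exact (mem_centralizer_iff.mp (mem_inf.mp (hH2 u u.2)).2 v v.2).symm
  let D : Subgroup R := (hcl.powHom hpp hp hcp).ker.map H.subtype
  have hmem : ∀ x, x ∈ D ↔ x ∈ H ∧ x ^ p = 1 := by
    intro x
    constructor
    · rintro ⟨y, hy, rfl⟩
      exact ⟨y.2, congrArg Subtype.val hy⟩
    · rintro ⟨h1, h2⟩
      exact ⟨⟨x, h1⟩, Subtype.ext h2, rfl⟩
  refine ⟨D, ?_, fun x hx => ((hmem x).1 hx).2, ?_, ?_⟩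
  · rw [characteristic_iff_le_comap]
    intro φ x hx
    rw [hmem] at hx
    show φ x ∈ D
    rw [hmem]
    exact ⟨(map_mem_of_char hHc φ).2 hx.1, by rw [← map_pow, hx.2, map_one]⟩
  · intro x hx y hy z hz
    have h1 := mem_center_iff.1 (hcl ⟨x, ((hmem x).1 hx).1⟩ ⟨y, ((hmem y).1 hy).1⟩) ⟨z, ((hmem z).1 hz).1⟩
    exact (congrArg Subtype.val h1).symm
  · intro a ha h
    have key : ∀ x : R, x ∈ H → Commute x (a x) → a (x ^ p) = x ^ p → a x = x := by
      intro x hxH hxc hx
      have h1 : (x⁻¹ * a x) ^ p = 1 := by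
        rw [(hxc.inv_left).mul_pow, inv_pow, ← map_pow, hx, inv_mul_cancel]
      have h2 := eq_one_of_apply hR ha (x := x) (h := x⁻¹ * a x) (by group)
        (h _ ((hmem _).2 ⟨mul_mem (inv_mem hxH) ((map_mem_of_char hHc a).2 hxH), h1⟩))
      exact (inv_mul_eq_one.mp h2).symm
    -- fixes the centre of `H`
    have hZ : ∀ n : ℕ, ∀ x ∈ H ⊓ centralizer (H : Set R), x ^ p ^ n = 1 → a x = x := by
      intro n
      induction n with
      | zero => intro x _ hx; rw [pow_zero, pow_one] at hx; rw [hx, map_one]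
      | succ n ih =>
        intro x hx hxn
        obtain ⟨hx1, hx2⟩ := mem_inf.mp hx
        apply key x hx1
        · exact ((mem_centralizer_iff.mp hx2 (a x) ((map_mem_of_char hHc a).mpr hx1))).symm
        · apply ih _ (pow_mem hx p)
          rw [← pow_mul, ← pow_succ']; exact hxn
    have hZ' : ∀ x ∈ H ⊓ centralizer (H : Set R), a x = x := by
      intro x hx
      obtain ⟨k, hk⟩ := hR x
      exact hZ k x hx hk
    apply aut_eq_one_of_critical hR hHC ha
    intro x hx
    have hax : a x ∈ H := (map_mem_of_char hHc a).mpr hx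
    have hm := (hcl.powHom hpp hp hcp).map_mul (⟨x, hx⟩⁻¹) ⟨a x, hax⟩
    have h1 : (x⁻¹ * a x) ^ p = x⁻¹ ^ p * (a x) ^ p := congrArg Subtype.val hm
    have h2 : (x⁻¹ * a x) ^ p = 1 := by
      rw [h1, ← map_pow, hZ' _ (hH2 x hx), inv_pow, inv_mul_cancel]
    have h3 := eq_one_of_apply hR ha (x := x) (h := x⁻¹ * a x) (by group)
      (h _ ((hmem _).2 ⟨mul_mem (inv_mem hx) hax, h2⟩))
    exact (inv_mul_eq_one.mp h3).symm

/-- exponent-`p` groups of rank at most two have order at most `p³` -/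
theorem card_le_cube' (hR : IsPGroup p R) (hr : Cfsg.PRankLE p 2 R) (D : Subgroup R) (hD : ∀ x ∈ D, x ^ p = 1) :
    Nat.card D ≤ p ^ 3 := by
  obtain ⟨A, h1, h2, h3⟩ := PUtil.exists_max_abelian_normal (G := D)
  have hDp := hR.to_subgroup D
  have hnil : Group.IsNilpotent D := hDp.isNilpotent
  refine PUtil.card_le_cube hDp h1 (Nilp.centralizer_eq_of_maximal_abelian_normal A h2 h3) ?_
  have h4 := hr (A.map D.subtype) (by
    rw [PUtil.isMulCommutative_iff] at h2 ⊢
    rintro _ ⟨x, hx, rfl⟩ _ ⟨y, hy, rfl⟩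
    exact congrArg Subtype.val (h2 x hx y hy)) (by
    rintro _ ⟨x, _, rfl⟩
    exact hD x x.2)
  rwa [Nat.card_congr (A.equivMapOfInjective _ D.subtype_injective).symm.toEquiv] at h4

/-- the module `D / D'` has order at most `p²` -/
theorem card_ab (hR : IsPGroup p R) (hr : Cfsg.PRankLE p 2 R) (D : Subgroup R) (hD : ∀ x ∈ D, x ^ p = 1) :
    Nat.card (D ⧸ commutator D) ≤ p ^ 2 := by
  have hpp : p.Prime := Fact.out
  have h1 := (commutator D).card_eq_card_quotient_mul_card_subgroup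
  by_cases hc : commutator D = ⊥
  · have h2 : ∀ x ∈ D, ∀ y ∈ D, x * y = y * x := by
      intro x hx y hy
      have h3 : ⁅(⟨x, hx⟩ : D), (⟨y, hy⟩ : D)⁆ ∈ commutator D := by
        rw [_root_.commutator_def]
        exact commutator_mem_commutator (mem_top _) (mem_top _)
      rw [hc, mem_bot, _root_.commutatorElement_eq_one_iff_mul_comm] at h3
      exact congrArg Subtype.val h3
    have h4 := hr D (PUtil.isMulCommutative_iff.2 h2) hD
    exact (Nat.card_le_card_of_surjective _ (QuotientGroup.mk'_surjective (commutator D))).trans h4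
  · have h2 := card_le_cube' hR hr D hD
    obtain ⟨k, hk⟩ := IsPGroup.iff_card.1 ((hR.to_subgroup D).to_subgroup (commutator D))
    have hk0 : k ≠ 0 := by
      rintro rfl
      rw [pow_zero] at hk
      exact hc (Subgroup.card_eq_one.1 hk)
    have h3 : p ≤ Nat.card (commutator D) := by
      rw [hk]; exact Nat.le_self_pow hk0 p
    have h4 : Nat.card (D ⧸ commutator D) * p ≤ p ^ 2 * p := by
      calc _ ≤ Nat.card (D ⧸ commutator D) * Nat.card (commutator D) := Nat.mul_le_mul_left _ h3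
        _ = Nat.card D := h1.symm
        _ ≤ p ^ 3 := h2
        _ = p ^ 2 * p := by ring
    exact Nat.le_of_mul_le_mul_right h4 hpp.pos

theorem char_inv {D : Subgroup R} (hD : D.Characteristic) {A : Type*} [Group A] (φ : A →* MulAut R) :
    ∀ x, ∀ e ∈ D, φ x e ∈ D := fun x _ he => (map_mem_of_char hD (φ x)).2 he

/-- action on `D / D'` -/
def vact {D : Subgroup R} (hD : D.Characteristic) {A : Type*} [Group A] (φ : A →* MulAut R) : A →* MulAut (D ⧸ commutator D) :=
  MaschkeAb.quot (MaschkeAb.restr φ D (char_inv hD φ)) (commutator D)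
    (fun _ _ he => (map_mem_of_char (inferInstance : (commutator D).Characteristic) _).2 he)

/-- `p'`-elements act faithfully on `D / D'` -/
theorem vact_faithful (hR : IsPGroup p R) {D : Subgroup R} (hD : D.Characteristic)
    (hD1 : ∀ x ∈ D, ∀ y ∈ D, ∀ z ∈ D, ⁅x, y⁆ * z = z * ⁅x, y⁆)
    (hD2 : ∀ a : MulAut R, (orderOf a).Coprime p → (∀ x ∈ D, a x = x) → a = 1)
    {A : Type*} [Group A] (φ : A →* MulAut R) {x : A} (hx : (orderOf (φ x)).Coprime p) (h : vact hD φ x = 1) : φ x = 1 := by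
  apply hD2 _ hx
  let ψ := MaschkeAb.restr φ D (char_inv hD φ)
  have h1 : ∀ d : D, d⁻¹ * ψ x d ∈ commutator D := by
    intro d
    have h2 : ((ψ x d : D) : D ⧸ commutator D) = (d : D ⧸ commutator D) := by
      have := congrArg (fun f : MulAut (D ⧸ commutator D) => f (d : D ⧸ commutator D)) h
      exact this
    exact QuotientGroup.eq.1 h2.symm
  have hcomm : ∀ c ∈ commutator D, ∀ z : D, c * z = z * c := by
    have h2 : commutator D ≤ center D := by
      rw [_root_.commutator_def, commutator_le]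
      intro u _ v _
      rw [mem_center_iff]
      intro z
      exact (Subtype.ext (hD1 u u.2 v v.2 z z.2)).symm
    intro c hc z
    exact (mem_center_iff.1 (h2 hc) z).symm
  -- fixes the commutator subgroup
  have h2 : ∀ c ∈ commutator D, ψ x c = c := by
    have h3 : commutator D ≤ (MonoidHom.eqLocus (ψ x).toMonoidHom (MonoidHom.id D)) := by
      rw [_root_.commutator_def, commutator_le]
      intro u _ v _
      show ψ x ⁅u, v⁆ = ⁅u, v⁆
      rw [map_commutatorElement]
      have hu : ψ x u = u * (u⁻¹ * ψ x u) := by group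
      have hv : ψ x v = v * (v⁻¹ * ψ x v) := by group
      rw [hu, hv]
      have e1 := hcomm _ (h1 u)
      have e2 := hcomm _ (h1 v)
      generalize u⁻¹ * ψ x u = s at e1
      generalize v⁻¹ * ψ x v = t at e2
      rw [_root_.commutatorElement_def, _root_.commutatorElement_def, mul_inv_rev, mul_inv_rev]
      calc u * s * (v * t) * (s⁻¹ * u⁻¹) * (t⁻¹ * v⁻¹) = u * (s * (v * t)) * s⁻¹ * u⁻¹ * t⁻¹ * v⁻¹ := by group
        _ = u * ((v * t) * s) * s⁻¹ * u⁻¹ * t⁻¹ * v⁻¹ := by rw [e1]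
        _ = u * v * (t * u⁻¹) * t⁻¹ * v⁻¹ := by group
        _ = u * v * (u⁻¹ * t) * t⁻¹ * v⁻¹ := by rw [e2]
        _ = _ := by group
    intro c hc
    exact h3 hc
  intro d hd
  have h3 : ((ψ x ⟨d, hd⟩ : D) : R) = φ x d := rfl
  have h4 : φ x d = d * ((⟨d, hd⟩⁻¹ * ψ x ⟨d, hd⟩ : D) : R) := by
    show φ x d = d * (d⁻¹ * φ x d)
    group
  have h5 : φ x ((⟨d, hd⟩⁻¹ * ψ x ⟨d, hd⟩ : D) : R) = ((⟨d, hd⟩⁻¹ * ψ x ⟨d, hd⟩ : D) : R) :=
    congrArg Subtype.val (h2 _ (h1 ⟨d, hd⟩))
  have h6 := eq_one_of_apply hR hx h4 h5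
  rw [h4, h6, mul_one]

/-- reduction to `p'`-elements -/
theorem exists_pow_coprime {B : Type*} [Group B] [Finite B] (p : ℕ) [Fact p.Prime] (x : B) : ∃ k : ℕ, (orderOf (x ^ p ^ k)).Coprime p := by
  have hpp : p.Prime := Fact.out
  have h0 : orderOf x ≠ 0 := (orderOf_pos x).ne'
  refine ⟨(orderOf x).factorization p, ?_⟩
  rw [orderOf_pow_of_dvd (pow_ne_zero _ hpp.ne_zero) (Nat.ordProj_dvd _ p)]
  exact (Nat.coprime_ordCompl hpp h0).symm

/-- Commutators act as `p`-elements. -/
theorem comm_pow {A : Type*} [Group A] [Finite A] (hs : Group.IsSolvable A) (hodd : Odd (Nat.card A)) (hp : p ≠ 2)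
    (hR : IsPGroup p R) (hr : Cfsg.PRankLE p 2 R) (φ : A →* MulAut R) : ∀ x ∈ commutator A, ∃ k : ℕ, (φ x) ^ p ^ k = 1 := by
  obtain ⟨D, hD, hD0, hD1, hD2⟩ := crit_omega hp hR
  intro x hx
  have hcV : ∀ x y : D ⧸ commutator D, x * y = y * x := by
    intro a b
    obtain ⟨a, rfl⟩ := QuotientGroup.mk_surjective a
    obtain ⟨b, rfl⟩ := QuotientGroup.mk_surjective b
    exact mul_comm (Abelianization.of a) (Abelianization.of b)
  letI iV : CommGroup (D ⧸ commutator D) := { (inferInstance : Group (D ⧸ commutator D)) with mul_comm := hcV }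
  have h1 := TwoDim.comm_pow (V := D ⧸ commutator D) (p := p) hs hodd hp (vact hD φ) (by
    intro v
    obtain ⟨v, rfl⟩ := QuotientGroup.mk_surjective v
    rw [← QuotientGroup.mk_pow]
    have : v ^ p = 1 := Subtype.ext (hD0 v v.2)
    rw [this]; rfl) (card_ab hR hr D hD0) x hx
  obtain ⟨k, hk⟩ := exists_pow_coprime p (φ (x ^ p))
  refine ⟨k + 1, ?_⟩
  have h2 : vact hD φ ((x ^ p) ^ p ^ k) = 1 := by
    rw [map_pow, map_pow, h1, one_pow]
  have h3 := vact_faithful hR hD hD1 hD2 φ (x := (x ^ p) ^ p ^ k) (by rw [map_pow]; exact hk) h2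
  rw [pow_succ', pow_mul, ← map_pow, ← map_pow]
  exact h3

/-- primes of `p'`-automorphisms -/
theorem prime_dvd (hp : p ≠ 2) (hR : IsPGroup p R) (hr : Cfsg.PRankLE p 2 R) (y : MulAut R) {q : ℕ} (hq : q.Prime) (hqp : q ≠ p)
    (hy : orderOf y = q) : q ∣ (p - 1) * (p + 1) := by
  classical
  have hpp : p.Prime := Fact.out
  haveI : Fact q.Prime := ⟨hq⟩
  obtain ⟨D, hD, hD0, hD1, hD2⟩ := crit_omega hp hR
  set σ : MulAut (D ⧸ commutator D) := vact hD (MonoidHom.id (MulAut R)) y with hσ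
  have hcop : (orderOf y).Coprime p := by rw [hy]; exact (Nat.coprime_primes hq hpp).2 hqp
  have hσ1 : σ ≠ 1 := by
    intro h
    have h1 := vact_faithful hR hD hD1 hD2 (MonoidHom.id (MulAut R)) (x := y) hcop h
    have h2 : y = 1 := h1
    rw [h2, orderOf_one] at hy
    exact hq.one_lt.ne hy
  have hσq : σ ^ q = 1 := by
    rw [hσ, ← map_pow, ← hy, pow_orderOf_eq_one, map_one]
  have hZ : IsPGroup q (zpowers σ) := by
    rintro ⟨_, i, rfl⟩
    refine ⟨1, Subtype.ext ?_⟩
    show (σ ^ i) ^ q ^ 1 = 1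
    rw [pow_one, ← zpow_natCast, ← zpow_mul, mul_comm, zpow_mul, zpow_natCast, hσq, one_zpow]
  let L : Subgroup (D ⧸ commutator D) :=
    { carrier := {v | σ v = v}
      mul_mem' := fun {a b} (ha : σ a = a) (hb : σ b = b) => by show σ (a * b) = a * b; rw [map_mul, ha, hb]
      one_mem' := map_one σ
      inv_mem' := fun {a} (ha : σ a = a) => by show σ a⁻¹ = a⁻¹; rw [map_inv, ha] }
  have hL : L ≠ ⊤ := by
    intro h
    apply hσ1
    ext v
    have : v ∈ L := by rw [h]; trivial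
    exact this
  have hfix : Nat.card (MulAction.fixedPoints (zpowers σ) (D ⧸ commutator D)) = Nat.card L := by
    apply Nat.card_congr
    refine Equiv.subtypeEquivRight (fun v => ?_)
    constructor
    · intro h
      exact h ⟨σ, mem_zpowers σ⟩
    · rintro (h : σ v = v) ⟨_, i, rfl⟩
      have : σ ∈ MulAction.stabilizer (MulAut (D ⧸ commutator D)) v := h
      exact zpow_mem this i
  have hmod := hZ.card_modEq_card_fixedPoints (D ⧸ commutator D)
  rw [hfix] at hmod
  have hVp : IsPGroup p (D ⧸ commutator D) := (hR.to_subgroup D).to_quotient _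
  obtain ⟨i, hi⟩ := IsPGroup.iff_card.1 hVp
  obtain ⟨j, hj⟩ := IsPGroup.iff_card.1 (hVp.to_subgroup L)
  have hi2 : i ≤ 2 := by
    have := card_ab hR hr D hD0
    rw [hi] at this
    exact (Nat.pow_le_pow_iff_right hpp.one_lt).1 this
  have hji : j < i := by
    have h1 := Subgroup.card_dvd_of_le (le_top : L ≤ ⊤)
    rw [Subgroup.card_top, hi, hj] at h1
    have h2 := (Nat.pow_dvd_pow_iff_le_right hpp.one_lt).1 h1
    rcases h2.lt_or_eq with h3 | h3
    · exact h3
    · exfalso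
      apply hL
      rw [← Subgroup.card_eq_iff_eq_top, hi, hj, h3]
  rw [hi, hj] at hmod
  have h1 := (Nat.modEq_iff_dvd' (Nat.pow_le_pow_right hpp.pos hji.le)).1 hmod.symm
  have h2 : p ^ i - p ^ j = p ^ j * (p ^ (i - j) - 1) := by
    rw [Nat.mul_sub, mul_one, ← pow_add, Nat.add_sub_cancel' hji.le]
  rw [h2] at h1
  have h3 : q ∣ p ^ (i - j) - 1 := by
    refine (Nat.Coprime.dvd_of_dvd_mul_left ?_ h1)
    exact Nat.Coprime.pow_right j ((Nat.coprime_primes hq hpp).2 hqp)
  have hp1 := hpp.one_lt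
  have hij : i - j = 1 ∨ i - j = 2 := by omega
  rcases hij with h4 | h4
  · rw [h4, pow_one] at h3
    exact Dvd.dvd.mul_right h3 _
  · rw [h4] at h3
    have h5 : p ^ 2 - 1 = (p - 1) * (p + 1) := by
      obtain ⟨r, rfl⟩ := Nat.exists_eq_add_of_lt hp1
      have e1 : 1 + r + 1 - 1 = r + 1 := by omega
      rw [e1]
      have e2 : (1 + r + 1) ^ 2 = (r + 1) * (1 + r + 1 + 1) + 1 := by ring
      rw [e2]; rfl
    rwa [h5] at h3

/-- conjugation action of a subgroup of the normalizer -/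
def cj {G : Type*} [Group G] {P A : Subgroup G} (hA : A ≤ normalizer (P : Set G)) : A →* MulAut P :=
  (Subgroup.normalizerMonoidHom P).comp (Subgroup.inclusion hA)

theorem cj_apply {G : Type*} [Group G] {P A : Subgroup G} (hA : A ≤ normalizer (P : Set G)) (a : A) (x : P) :
    ((cj hA a x : P) : G) = a * x * (a : G)⁻¹ := rfl

theorem cj_eq_one {G : Type*} [Group G] {P A : Subgroup G} (hA : A ≤ normalizer (P : Set G)) (a : A) :
    cj hA a = 1 ↔ (a : G) ∈ centralizer (P : Set G) := by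
  constructor
  · intro h
    rw [mem_centralizer_iff]
    intro x hx
    have h1 := congrArg (fun f : MulAut P => ((f ⟨x, hx⟩ : P) : G)) h
    have h2 : (a : G) * x * (a : G)⁻¹ = x := h1
    calc x * (a : G) = ((a : G) * x * (a : G)⁻¹) * a := by rw [h2]
      _ = _ := by group
  · intro h
    ext x
    rw [cj_apply]
    show (a : G) * x * (a : G)⁻¹ = x
    rw [mem_centralizer_iff] at h
    rw [← h x x.2]; group

end Cfsg.Agent.H2.TwoDimB
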